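import Mathlib
import Cfsg.Agent.H19.SxDefs
import Cfsg.Agent.H51.JcNORM

/-!
SX-LIFT (helper39, for helper19's EXIST project): transport of the properties of `K ≤ ↥L`
to `IsJComponent T (K.map L.subtype)` in `G`.
-/

set_option autoImplicit false

namespace Cfsg.Agent.H39.Sx

open Cfsg Cfsg.Agent.H19.Sx

universe u

variable {G : Type u} [Group G]

theorem sq_of_mem_omegaCenterOf (Q : Subgroup G) : ∀ w ∈ omegaCenterOf Q, w * w = 1 := by
  intro w hw
  have key : w ∈ Q ⊓ Subgroup.centralizer (Q : Set G) ∧ w * w = 1 := by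
    unfold omegaCenterOf omegaOne at hw
    induction hw using Subgroup.closure_induction with
    | mem x hx => exact ⟨hx.1, by rw [← pow_two]; exact hx.2⟩
    | one => exact ⟨Subgroup.one_mem _, by simp⟩
    | mul x y _ _ hx hy =>
      refine ⟨Subgroup.mul_mem _ hx.1 hy.1, ?_⟩
      have hc : y * x = x * y := Subgroup.mem_centralizer_iff.mp hx.1.2 y hy.1.1
      calc x * y * (x * y) = x * (y * x) * y := by group
        _ = x * (x * y) * y := by rw [hc]
        _ = (x * x) * (y * y) := by group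
        _ = 1 := by rw [hx.2, hy.2, one_mul]
    | inv x _ hx =>
      refine ⟨Subgroup.inv_mem _ hx.1, ?_⟩
      rw [← mul_inv_rev, hx.2, inv_one]
  exact key.2

theorem omegaCenterOf_map_subtype (L : Subgroup G) (P : Subgroup ↥L) :
    omegaCenterOf (P.map L.subtype) = (omegaCenterOf P).map L.subtype := by
  unfold omegaCenterOf omegaOne
  rw [MonoidHom.map_closure]
  congr 1
  ext y
  constructor
  · rintro ⟨⟨⟨x, hx, rfl⟩, hc⟩, h2⟩
    refine ⟨x, ⟨⟨hx, ?_⟩, ?_⟩, rfl⟩
    · change x ∈ Subgroup.centralizer (P : Set ↥L)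
      change L.subtype x ∈ Subgroup.centralizer ((P.map L.subtype : Subgroup G) : Set G) at hc
      rw [Subgroup.mem_centralizer_iff]
      intro w hw
      have := Subgroup.mem_centralizer_iff.mp hc (L.subtype w) (Subgroup.mem_map_of_mem _ hw)
      exact Subtype.ext (by simpa using this)
    · exact Subtype.ext (by simpa using h2)
  · rintro ⟨x, ⟨⟨hx, hc⟩, h2⟩, rfl⟩
    change x ∈ Subgroup.centralizer (P : Set ↥L) at hc
    refine ⟨⟨Subgroup.mem_map_of_mem _ hx, ?_⟩, ?_⟩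
    · change L.subtype x ∈ Subgroup.centralizer ((P.map L.subtype : Subgroup G) : Set G)
      rw [Subgroup.mem_centralizer_iff]
      rintro _ ⟨w, hw, rfl⟩
      have := Subgroup.mem_centralizer_iff.mp hc w hw
      rw [← map_mul, ← map_mul, this]
    · rw [← map_pow, h2, map_one]

theorem pCoreOf_map_eq [Finite G] (L : Subgroup G) (K : Subgroup ↥L)
    (hidx : (K ⊓ pCore 2 ↥L).relIndex K = 3) :
    pCoreOf 2 (K.map L.subtype) = (K ⊓ pCore 2 ↥L).map L.subtype := by
  have : Fact (Nat.Prime 2) := ⟨Nat.prime_two⟩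
  have hinj : Function.Injective L.subtype := Subgroup.subtype_injective L
  have hPK : (K ⊓ pCore 2 ↥L).map L.subtype ≤ K.map L.subtype := Subgroup.map_mono inf_le_left
  have hP2 : IsPGroup 2 ↥((K ⊓ pCore 2 ↥L).map L.subtype) :=
    ((Cfsg.Agent.H54.pCore_isPGroup 2 ↥L).to_le inf_le_right).map _
  have hnorm : K.map L.subtype ≤
      Subgroup.normalizer (((K ⊓ pCore 2 ↥L).map L.subtype : Subgroup G) : Set G) := by
    apply Cfsg.Agent.H31.X.H54.le_normalizer_of_conj_mem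
    rintro _ ⟨k, hk, rfl⟩ _ ⟨y, hy, rfl⟩
    refine ⟨k * y * k⁻¹, ⟨K.mul_mem (K.mul_mem hk hy.1) (K.inv_mem hk), ?_⟩, by simp⟩
    exact (inferInstance : (pCore 2 ↥L).Normal).conj_mem _ hy.2 _
  have h1 : (K ⊓ pCore 2 ↥L).map L.subtype ≤ pCoreOf 2 (K.map L.subtype) :=
    Cfsg.Agent.H31.X.H54.le_pCoreOf hPK hnorm hP2
  have h2 : pCoreOf 2 (K.map L.subtype) ≤ K.map L.subtype := Cfsg.Agent.H31.X.H54.pCoreOf_le _
  have h3 : ((K ⊓ pCore 2 ↥L).map L.subtype).relIndex (K.map L.subtype) = 3 := by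
    rw [Subgroup.relIndex_map_map_of_injective _ _ hinj]; exact hidx
  have h4 := Subgroup.relIndex_mul_relIndex _ _ _ h1 h2
  rw [h3] at h4
  have h5 : ((K ⊓ pCore 2 ↥L).map L.subtype).relIndex (pCoreOf 2 (K.map L.subtype)) ∣ 3 :=
    Dvd.intro _ h4
  have hR2 : IsPGroup 2 ↥(pCoreOf 2 (K.map L.subtype)) :=
    Cfsg.Agent.H31.X.H54.isPGroup_pCoreOf _
  obtain ⟨n, hn⟩ := IsPGroup.iff_card.mp hR2
  have h6 : ((K ⊓ pCore 2 ↥L).map L.subtype).relIndex (pCoreOf 2 (K.map L.subtype)) ∣ 2 ^ n := by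
    rw [← hn]; exact Subgroup.relIndex_dvd_card _ _
  have hcop : Nat.Coprime (2 ^ n) 3 := Nat.Coprime.pow_left _ (by decide)
  have h7 : ((K ⊓ pCore 2 ↥L).map L.subtype).relIndex (pCoreOf 2 (K.map L.subtype)) = 1 :=
    Nat.dvd_one.mp (hcop.gcd_eq_one ▸ Nat.dvd_gcd h6 h5)
  exact le_antisymm (Subgroup.relIndex_eq_one.mp h7) h1

theorem lift : StLift.{u} := by
  intro G _ _ T L K hT hS hgen hcomm hidx hW
  have hinj : Function.Injective L.subtype := Subgroup.subtype_injective L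
  have hJT : thompsonSubgroupOf 2 T ≤ T := by
    unfold thompsonSubgroupOf; exact Subgroup.map_subtype_le _
  have hJL : thompsonSubgroupOf 2 T ≤ L := hJT.trans hT.1
  have hKL : K.map L.subtype ≤ L := Subgroup.map_subtype_le _
  have hpc := pCoreOf_map_eq L K hidx
  refine ⟨?_, ?_, ?_, ?_, ?_, ?_⟩
  · conv_rhs => rw [← hgen]
    rw [MonoidHom.map_closure]
    congr 1
    ext g
    constructor
    · rintro ⟨⟨x, hx, rfl⟩, hodd⟩
      exact ⟨x, ⟨hx, by simpa [Subgroup.orderOf_coe] using hodd⟩, rfl⟩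
    · rintro ⟨x, ⟨hx, hodd⟩, rfl⟩
      exact ⟨Subgroup.mem_map_of_mem _ hx, by simpa [Subgroup.orderOf_coe] using hodd⟩
  · have e : ((thompsonSubgroupOf 2 T).subgroupOf L).map L.subtype = thompsonSubgroupOf 2 T :=
      Subgroup.map_subgroupOf_eq_of_le hJL
    conv_rhs => rw [← hcomm]
    rw [Subgroup.map_commutator, e]
  · rw [hpc, Subgroup.relIndex_map_map_of_injective _ _ hinj]; exact hidx
  · intro S hSyl hJS
    exact hS S (hSyl.1.trans (sup_le hKL hJL)) hSyl.2.1 hJS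
  · unfold wOf
    rw [hpc, omegaCenterOf_map_subtype, ← Subgroup.map_commutator,
      Subgroup.card_map_of_injective hinj]
    exact hW
  · intro w hw
    exact sq_of_mem_omegaCenterOf _ w (Cfsg.Agent.H51.Jc.wOf_le_omegaCenterOf _ hw)

end Cfsg.Agent.H39.Sx

section Check
universe u
example : Cfsg.Agent.H19.Sx.StLift.{u} := Cfsg.Agent.H39.Sx.lift
end Check
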