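import Mathlib
import Cfsg.Prelude.Def_JComponents
import Cfsg.Agent.Helper55.J48

/-!
# LEX: consequences of the lexicographic maximality of a maximal straddling 2-subgroup

`T ∈ maxStraddlingTwoSubgroups M`.
* `not_straddling_of_lt`: a subgroup `R` properly containing `T` is not straddling.
* `twoLocal_le_of_lt`: if moreover `R ≤ M` is a 2-group, every 2-local over `R` lies in `M`.
* `normalizer_inf_ne`: for `T ≤ S` (a 2-group), `T ≠ S`: `T ≠ S ⊓ N_G(T)`.
* `twoLocal_le_of_normalizer`: for `T ≤ S ≤ M`, `S` a 2-group, `T ≠ S`, every 2-local containing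
  `S ⊓ N_G(T)` lies in `M`.
* `exists_normalizer_not_mem`: there is `x ∈ S ⊓ N_G(T)`, `x ∉ T`.
-/

set_option autoImplicit false
open Cfsg

namespace Cfsg.Agent.H39.Jz

open Cfsg.Agent.Helper55 Cfsg.Agent.Helper55.ThJ

universe u

variable {G : Type u} [Group G] [Finite G]

/-- LEX: a subgroup properly containing a maximal straddling 2-subgroup is not straddling -/
theorem not_straddling_of_lt {M T R : Subgroup G} (hT : T ∈ maxStraddlingTwoSubgroups M)
    (hTR : T ≤ R) (hne : T ≠ R) : R ∉ straddlingTwoSubgroups M := by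
  intro hR
  obtain ⟨ha, hrest⟩ := hT.2 R hR
  have haeq := le_antisymm ha (a_mono hTR)
  obtain ⟨hJc, hTc⟩ := hrest haeq
  have hJJ := J_le_J_of ((J_le T).trans hTR) ha
  have hJeq := le_antisymm hJc (Subgroup.card_le_of_le hJJ)
  exact hne (Subgroup.eq_of_le_of_card_ge hTR (hTc hJeq))

/-- every 2-local over a 2-subgroup `R ≤ M` properly containing `T` lies in `M` -/
theorem twoLocal_le_of_lt {M T R : Subgroup G} (hT : T ∈ maxStraddlingTwoSubgroups M)
    (hR2 : IsPGroup 2 ↥R) (hRM : R ≤ M) (hTR : T ≤ R) (hne : T ≠ R) {N : Subgroup G}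
    (hN : IsTwoLocal N) (hRN : R ≤ N) : N ≤ M := by
  by_contra hNM
  refine not_straddling_of_lt hT hTR hne ⟨hR2, ?_, hRM, N, hN, hRN, hNM⟩
  intro hb
  apply hT.1.2.1
  rw [eq_bot_iff, ← hb]
  exact hTR

/-- the normalizer of a proper subgroup `T` of the 2-group `S` grows in `S` -/
theorem normalizer_inf_ne {S T : Subgroup G} (hS : IsPGroup 2 ↥S) (hTS : T ≤ S) (hne : T ≠ S) :
    T ≠ S ⊓ Subgroup.normalizer (T : Set G) := by
  have : Fact (Nat.Prime 2) := ⟨Nat.prime_two⟩
  intro h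
  exact hne (eq_of_normalizer_inf_le hS hTS h.ge)

/-- there is an element of `N_S(T)` outside `T` -/
theorem exists_normalizer_not_mem {S T : Subgroup G} (hS : IsPGroup 2 ↥S) (hTS : T ≤ S)
    (hne : T ≠ S) : ∃ x : G, x ∈ S ∧ x ∈ Subgroup.normalizer (T : Set G) ∧ x ∉ T := by
  have : Fact (Nat.Prime 2) := ⟨Nat.prime_two⟩
  by_contra hcon
  push_neg at hcon
  apply hne
  apply eq_of_normalizer_inf_le hS hTS
  intro x hx
  exact hcon x hx.1 hx.2

/-- every 2-local over `N_S(T)` lies in `M` (for `T` maximal straddling, `T < S ≤ M`) -/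
theorem twoLocal_le_of_normalizer {M S T : Subgroup G} (hT : T ∈ maxStraddlingTwoSubgroups M)
    (hS : IsPGroup 2 ↥S) (hSM : S ≤ M) (hTS : T ≤ S) (hne : T ≠ S) {N : Subgroup G}
    (hN : IsTwoLocal N) (hRN : S ⊓ Subgroup.normalizer (T : Set G) ≤ N) : N ≤ M :=
  twoLocal_le_of_lt hT (hS.to_le inf_le_left) (inf_le_left.trans hSM)
    (le_inf hTS Subgroup.le_normalizer) (normalizer_inf_ne hS hTS hne) hN hRN

end Cfsg.Agent.H39.Jz
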