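import Mathlib
import Cfsg.Agent.H79.BrDefs
import Cfsg.Agent.H4.Irr
import Cfsg.Agent.H82.Irr
import Cfsg.Agent.H82.Extra
import Cfsg.Agent.H83.Basic

/-!
# S4504 (helper79's project): shared lemmas for the exhaustion pieces EXH1 / EXHW (helper39)

* `finsum_mem_eq_sum_ite`, `card_subtype_eq_sum`: finsums over sets as sums of `ite`s;
* `irrOne`: the trivial irreducible character; `ov_central`: central translation on `Ov χ₀`;
* `eta_facts`: the arithmetic of `η = χ x₁`, `η' = χ x₂` when `p ≡ 1 (mod 4)`;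
* `classify`, `master`, `sum_decomp`, `count_decomp`: the members of `Ov χ₀` by type;
* `vanish`: a combination of irreducible characters supported on `Ov χ₀` which vanishes at the
  `p`-regular elements and at `x₁`, `x₂` has all coefficients zero.
-/

set_option autoImplicit false

namespace Cfsg.Agent.H39.Br

open Cfsg Cfsg.Agent.H79.Br
open scoped ComplexConjugate

universe u

section Generic

theorem finsum_mem_eq_sum_ite {ι : Type*} [Fintype ι] (S : Set ι) [DecidablePred (· ∈ S)]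
    (F : ι → ℂ) : ∑ᶠ i ∈ S, F i = ∑ i, if i ∈ S then F i else 0 := by
  rw [finsum_mem_def, finsum_eq_sum_of_fintype]
  refine Finset.sum_congr rfl (fun i _ => ?_)
  by_cases h : i ∈ S <;> simp [h]

theorem card_subtype_eq_sum {ι : Type*} [Fintype ι] (q : ι → Prop) [DecidablePred q] :
    (Nat.card {i // q i} : ℂ) = ∑ i, if q i then (1 : ℂ) else 0 := by
  rw [Nat.card_eq_fintype_card, Fintype.card_subtype, Finset.card_filter]
  push_cast
  rfl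

/-- The members of `O` are `A`, `B`, or of type `(0,0)`, `(1,1)`, `(-1,-1)`. -/
theorem classify {ι : Type*} (O : Set ι) (v₁ v₂ : ι → ℂ) (θ θ' A B : ι)
    (hother : ∀ ψ ∈ O, ψ ≠ θ → ψ ≠ θ' →
      (v₁ ψ = 0 ∧ v₂ ψ = 0) ∨ (v₁ ψ = 1 ∧ v₂ ψ = 1) ∨ (v₁ ψ = -1 ∧ v₂ ψ = -1))
    (hA : A ∈ O) (hB : B ∈ O) (hAd : v₁ A ≠ v₂ A) (hBd : v₁ B ≠ v₂ B) (hAB : A ≠ B) :
    ∀ ψ ∈ O, ψ = A ∨ ψ = B ∨
      (v₁ ψ = 0 ∧ v₂ ψ = 0) ∨ (v₁ ψ = 1 ∧ v₂ ψ = 1) ∨ (v₁ ψ = -1 ∧ v₂ ψ = -1) := by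
  have hdiff : ∀ ψ ∈ O, v₁ ψ ≠ v₂ ψ → ψ = θ ∨ ψ = θ' := by
    intro ψ hψ hd
    by_contra hcon
    rw [not_or] at hcon
    rcases hother ψ hψ hcon.1 hcon.2 with ⟨a, b⟩ | ⟨a, b⟩ | ⟨a, b⟩ <;> exact hd (a.trans b.symm)
  intro ψ hψ
  by_cases h3 : ψ = A
  · exact Or.inl h3
  by_cases h4 : ψ = B
  · exact Or.inr (Or.inl h4)
  right; right
  apply hother ψ hψ
  · intro h
    rcases hdiff A hA hAd with a | a <;> rcases hdiff B hB hBd with b | b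
    · exact hAB (a.trans b.symm)
    · exact h3 (h.trans a.symm)
    · exact h4 (h.trans b.symm)
    · exact hAB (a.trans b.symm)
  · intro h
    rcases hdiff A hA hAd with a | a <;> rcases hdiff B hB hBd with b | b
    · exact hAB (a.trans b.symm)
    · exact h4 (h.trans b.symm)
    · exact h3 (h.trans a.symm)
    · exact hAB (a.trans b.symm)

/-- The pointwise decomposition of the values at `x₁`, `x₂` and of the indicator of
"value `±1` at `x₁`" on `O`. -/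
theorem master {ι : Type*} [DecidableEq ι] (O TP TM : Set ι) (T : ι → Prop) (v₁ v₂ : ι → ℂ)
    (A B : ι) (a₁ a₂ b₁ b₂ : ℂ)
    [DecidablePred (· ∈ O)] [DecidablePred (· ∈ TP)] [DecidablePred (· ∈ TM)] [DecidablePred T]
    (hTP : ∀ ψ, ψ ∈ TP ↔ ψ ∈ O ∧ v₁ ψ = 1 ∧ v₂ ψ = 1 ∧ ¬ T ψ)
    (hTM : ∀ ψ, ψ ∈ TM ↔ ψ ∈ O ∧ v₁ ψ = -1 ∧ v₂ ψ = -1)
    (hT : ∀ ψ, T ψ → v₁ ψ = 1 ∧ v₂ ψ = 1)
    (hCL : ∀ ψ ∈ O, ψ = A ∨ ψ = B ∨
      (v₁ ψ = 0 ∧ v₂ ψ = 0) ∨ (v₁ ψ = 1 ∧ v₂ ψ = 1) ∨ (v₁ ψ = -1 ∧ v₂ ψ = -1))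
    (hA : A ∈ O) (hB : B ∈ O) (hA1 : v₁ A = a₁) (hA2 : v₂ A = a₂) (hB1 : v₁ B = b₁)
    (hB2 : v₂ B = b₂) (hAB : A ≠ B) (ha : a₁ ≠ 1) (ha' : a₁ ≠ -1) (hb : b₁ ≠ 1) (hb' : b₁ ≠ -1)
    (ψ : ι) :
    ((if ψ ∈ O then v₁ ψ else 0) = (if ψ = A then a₁ else 0) + (if ψ = B then b₁ else 0) +
        (if ψ ∈ O ∧ T ψ then 1 else 0) + (if ψ ∈ TP then 1 else 0) - (if ψ ∈ TM then 1 else 0)) ∧
    ((if ψ ∈ O then v₂ ψ else 0) = (if ψ = A then a₂ else 0) + (if ψ = B then b₂ else 0) +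
        (if ψ ∈ O ∧ T ψ then 1 else 0) + (if ψ ∈ TP then 1 else 0) - (if ψ ∈ TM then 1 else 0)) ∧
    ((if ψ ∈ O ∧ (v₁ ψ = 1 ∨ v₁ ψ = -1) then (1 : ℂ) else 0) =
        (if ψ ∈ O ∧ T ψ then 1 else 0) + (if ψ ∈ TP then 1 else 0) + (if ψ ∈ TM then 1 else 0)) := by
  have hTA : ¬ T A := fun h => ha (hA1 ▸ (hT A h).1)
  have hTB : ¬ T B := fun h => hb (hB1 ▸ (hT B h).1)
  have hATP : A ∉ TP := fun h => ha (hA1 ▸ ((hTP A).1 h).2.1)
  have hATM : A ∉ TM := fun h => ha' (hA1 ▸ ((hTM A).1 h).2.1)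
  have hBTP : B ∉ TP := fun h => hb (hB1 ▸ ((hTP B).1 h).2.1)
  have hBTM : B ∉ TM := fun h => hb' (hB1 ▸ ((hTM B).1 h).2.1)
  by_cases hO : ψ ∈ O
  swap
  · have h1 : ψ ≠ A := fun h => hO (h ▸ hA)
    have h2 : ψ ≠ B := fun h => hO (h ▸ hB)
    have h3 : ψ ∉ TP := fun h => hO ((hTP ψ).1 h).1
    have h4 : ψ ∉ TM := fun h => hO ((hTM ψ).1 h).1
    refine ⟨?_, ?_, ?_⟩ <;> simp [hO, h1, h2, h3, h4]
  by_cases hψA : ψ = A
  · refine ⟨?_, ?_, ?_⟩ <;>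
      simp [hψA, hA, hAB, hTA, hATP, hATM, hA1, hA2, ha, ha']
  by_cases hψB : ψ = B
  · refine ⟨?_, ?_, ?_⟩ <;>
      simp [hψB, hB, hAB.symm, hTB, hBTP, hBTM, hB1, hB2, hb, hb']
  rcases hCL ψ hO with h | h | ⟨h1, h2⟩ | ⟨h1, h2⟩ | ⟨h1, h2⟩
  · exact absurd h hψA
  · exact absurd h hψB
  · have hT' : ¬ T ψ := fun h => by
      have := (hT ψ h).1; rw [h1] at this; exact zero_ne_one this
    have h3 : ψ ∉ TP := fun h => by
      have := ((hTP ψ).1 h).2.1; rw [h1] at this; exact zero_ne_one this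
    have h4 : ψ ∉ TM := fun h => by
      have := ((hTM ψ).1 h).2.1; rw [h1] at this
      exact one_ne_zero (neg_eq_zero.1 this.symm)
    refine ⟨?_, ?_, ?_⟩ <;> simp [hO, hψA, hψB, hT', h3, h4, h1, h2]
  · have h4 : ψ ∉ TM := fun h => by
      have := ((hTM ψ).1 h).2.1; rw [h1] at this
      norm_num at this
    by_cases hT' : T ψ
    · have h3 : ψ ∉ TP := fun h => ((hTP ψ).1 h).2.2.2 hT'
      refine ⟨?_, ?_, ?_⟩ <;> simp [hO, hψA, hψB, hT', h3, h4, h1, h2]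
    · have h3 : ψ ∈ TP := (hTP ψ).2 ⟨hO, h1, h2, hT'⟩
      refine ⟨?_, ?_, ?_⟩ <;> simp [hO, hψA, hψB, hT', h3, h4, h1, h2]
  · have hT' : ¬ T ψ := fun h => by
      have := (hT ψ h).1; rw [h1] at this
      norm_num at this
    have h3 : ψ ∉ TP := fun h => by
      have := ((hTP ψ).1 h).2.1; rw [h1] at this
      norm_num at this
    have h4 : ψ ∈ TM := (hTM ψ).2 ⟨hO, h1, h2⟩
    refine ⟨?_, ?_, ?_⟩ <;> simp [hO, hψA, hψB, hT', h3, h4, h1, h2]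

/-- Summing the pointwise decomposition against a function `F`. -/
theorem sum_decomp {ι : Type*} [Fintype ι] [DecidableEq ι] (O TP TM : Set ι) (T : ι → Prop)
    (w : ι → ℂ) (A B : ι) (a b : ℂ)
    [DecidablePred (· ∈ O)] [DecidablePred (· ∈ TP)] [DecidablePred (· ∈ TM)] [DecidablePred T]
    (hw : ∀ ψ, (if ψ ∈ O then w ψ else 0) = (if ψ = A then a else 0) + (if ψ = B then b else 0) +
        (if ψ ∈ O ∧ T ψ then 1 else 0) + (if ψ ∈ TP then 1 else 0) - (if ψ ∈ TM then 1 else 0))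
    (F : ι → ℂ) :
    ∑ ψ, (if ψ ∈ O then w ψ * F ψ else 0) = a * F A + b * F B +
      ∑ ψ, (if ψ ∈ O ∧ T ψ then F ψ else 0) + ∑ ψ, (if ψ ∈ TP then F ψ else 0) -
      ∑ ψ, (if ψ ∈ TM then F ψ else 0) := by
  have h : ∀ ψ, (if ψ ∈ O then w ψ * F ψ else 0) = (if ψ = A then a * F ψ else 0) +
      (if ψ = B then b * F ψ else 0) + (if ψ ∈ O ∧ T ψ then F ψ else 0) +
      (if ψ ∈ TP then F ψ else 0) - (if ψ ∈ TM then F ψ else 0) := by
    intro ψ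
    have e : (if ψ ∈ O then w ψ * F ψ else 0) = (if ψ ∈ O then w ψ else 0) * F ψ := by
      split_ifs <;> simp
    rw [e, hw ψ]
    simp only [add_mul, sub_mul, ite_mul, zero_mul, one_mul]
  simp only [h, Finset.sum_add_distrib, Finset.sum_sub_distrib, Finset.sum_ite_eq',
    Finset.mem_univ, if_true]

end Generic

section Grp

variable {G : Type u} [Group G]

/-- The trivial irreducible character. -/
noncomputable def irrOne (G : Type u) [Group G] : IrrCharacter G :=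
  ⟨1, Cfsg.Agent.H83.isIrrCharacter_one G⟩

theorem irrOne_val : (irrOne G).1 = 1 := rfl

theorem irrOne_mem_ov : irrOne G ∈ Ov (1 : G → ℂ) := by
  intro z _
  simp [irrOne]

theorem eq_irrOne {ψ : IrrCharacter G} (h : ψ.1 = 1) : ψ = irrOne G := Subtype.ext h

/-- Central translation for the members of `Ov χ₀`. -/
theorem ov_central [Finite G] {χ₀ : G → ℂ} {ψ : IrrCharacter G} (hψ : ψ ∈ Ov χ₀) {z : G}
    (hz : z ∈ Subgroup.center G) (g : G) : ψ.1 (z * g) * χ₀ 1 = χ₀ z * ψ.1 g := by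
  obtain ⟨c, hc, -, -⟩ :=
    Cfsg.Agent.H82.irr_central_scalar ψ z (fun g => (Subgroup.mem_center_iff.1 hz g))
  have h1 := hc 1
  rw [mul_one] at h1
  have h2 := hψ z hz
  have h3 : ψ.1 1 ≠ 0 := Cfsg.Agent.H82.irr_one_ne_zero ψ
  have h4 : c * χ₀ 1 = χ₀ z := by
    have : (c * χ₀ 1) * ψ.1 1 = χ₀ z * ψ.1 1 := by rw [← h2, h1]; ring
    exact mul_right_cancel₀ h3 this
  rw [hc g, ← h4]
  ring

/-- A combination of irreducible characters supported on `Ov χ₀` which vanishes at the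
`p`-regular elements and at `x₁`, `x₂` is zero. -/
theorem vanish [Finite G] {p : ℕ} {P : Subgroup G} {f : ℕ} {x₁ x₂ : G}
    (hG : GrpLoc p P f x₁ x₂) (χ₀ : G → ℂ) (h0 : χ₀ 1 ≠ 0) [Fintype (IrrCharacter G)]
    (c : IrrCharacter G → ℂ) (hsupp : ∀ ψ, c ψ ≠ 0 → ψ ∈ Ov χ₀)
    (hreg : ∀ y : G, ¬ p ∣ orderOf y → ∑ ψ, c ψ * ψ.1 y = 0)
    (h1 : ∑ ψ, c ψ * ψ.1 x₁ = 0) (h2 : ∑ ψ, c ψ * ψ.1 x₂ = 0) : ∀ ψ, c ψ = 0 := by
  have hall : ∀ g : G, ∑ ψ, c ψ * ψ.1 g = 0 := by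
    intro g
    by_cases hg : p ∣ orderOf g
    · obtain ⟨z, hz, hc⟩ := hG.sing g hg
      have key : ∀ (x : G), IsConj g (x * z) → ∑ ψ, c ψ * ψ.1 x = 0 →
          ∑ ψ, c ψ * ψ.1 g = 0 := by
        intro x hx hsum
        have : (∑ ψ, c ψ * ψ.1 g) * χ₀ 1 = χ₀ z * ∑ ψ, c ψ * ψ.1 x := by
          rw [Finset.sum_mul, Finset.mul_sum]
          refine Finset.sum_congr rfl (fun ψ _ => ?_)
          by_cases hc0 : c ψ = 0
          · rw [hc0]; ring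
          · have hψ := hsupp ψ hc0
            have e1 : ψ.1 g = ψ.1 (z * x) := by
              rw [Cfsg.Agent.H82.irr_isConj ψ hx, (Subgroup.mem_center_iff.1 hz x)]
            rw [e1]
            have e2 := ov_central hψ hz x
            linear_combination c ψ * e2
        rw [hsum, mul_zero] at this
        exact (mul_eq_zero.1 this).resolve_right h0
      rcases hc with hc | hc
      · exact key x₁ hc h1
      · exact key x₂ hc h2
    · exact hreg g hg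
  have hli := Cfsg.Agent.H4.irr_linearIndependent (G := G)
  rw [Fintype.linearIndependent_iff] at hli
  apply hli c
  funext g
  simp only [Finset.sum_apply, Pi.smul_apply, smul_eq_mul, Pi.zero_apply]
  exact hall g

/-- The arithmetic of `η = χ x₁`, `η' = χ x₂` when `p ≡ 1 (mod 4)`. -/
theorem eta_facts [Finite G] {p : ℕ} [hpf : Fact p.Prime] {P : Subgroup G} {χ : G → ℂ}
    {x₁ x₂ : G} (hL : Loc p P χ x₁ x₂) (h1 : p % 4 = 1) :
    conj (χ x₁) = χ x₁ ∧ conj (χ x₂) = χ x₂ ∧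
    2 * χ x₁ ^ 2 + 2 * χ x₁ = (charDegree χ : ℂ) ∧
    2 * χ x₂ ^ 2 + 2 * χ x₂ = (charDegree χ : ℂ) ∧
    χ x₁ ≠ χ x₂ ∧ χ x₁ ≠ 0 ∧ χ x₁ ≠ 1 ∧ χ x₁ ≠ -1 ∧ χ x₂ ≠ 0 ∧ χ x₂ ≠ 1 ∧ χ x₂ ≠ -1 := by
  have hr1 : conj (χ x₁) = χ x₁ := by
    have h := Cfsg.Agent.H82.irr_inv (⟨χ, hL.irr⟩ : IrrCharacter G) x₁
    have h' := Cfsg.Agent.H82.irr_isConj (⟨χ, hL.irr⟩ : IrrCharacter G) (hL.grp.par1 h1).1
    exact h.symm.trans h'
  have hr2 : conj (χ x₂) = χ x₂ := by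
    have h := Cfsg.Agent.H82.irr_inv (⟨χ, hL.irr⟩ : IrrCharacter G) x₂
    have h' := Cfsg.Agent.H82.irr_isConj (⟨χ, hL.irr⟩ : IrrCharacter G) (hL.grp.par1 h1).2
    exact h.symm.trans h'
  have hs := hL.sum
  have hq := hL.sq
  rw [hr1, hr2] at hq
  have hdeg := hL.deg
  have h5 := hL.five
  have hp := hpf.out
  have e1 : 2 * χ x₁ ^ 2 + 2 * χ x₁ = (charDegree χ : ℂ) := by
    linear_combination hq - (χ x₂ - 1 - χ x₁) * hs
  have e2 : 2 * χ x₂ ^ 2 + 2 * χ x₂ = (charDegree χ : ℂ) := by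
    linear_combination hq - (χ x₁ - 1 - χ x₂) * hs
  have hf0 : (charDegree χ : ℂ) ≠ 0 := by
    intro h
    have : charDegree χ = 0 := by exact_mod_cast h
    omega
  have hf4 : (charDegree χ : ℂ) ≠ 4 := by
    intro h
    have h4 : charDegree χ = 4 := by exact_mod_cast h
    have h9 : p = 9 := by omega
    rw [h9] at hp
    exact absurd hp (by norm_num)
  refine ⟨hr1, hr2, e1, e2, ?_, ?_, ?_, ?_, ?_, ?_, ?_⟩
  · intro h
    have h2 : 2 * χ x₁ + 1 = 0 := by rw [← h] at hs; linear_combination hs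
    have : (2 * (charDegree χ : ℂ) + 1) = 0 := by
      linear_combination (2 * χ x₁ + 1) * h2 - 2 * e1
    have h' : 2 * charDegree χ + 1 = 0 := by exact_mod_cast this
    omega
  · intro h
    rw [h] at e1
    exact hf0 (by rw [← e1]; norm_num)
  · intro h
    rw [h] at e1
    exact hf4 (by rw [← e1]; norm_num)
  · intro h
    rw [h] at e1
    exact hf0 (by rw [← e1]; norm_num)
  · intro h
    rw [h] at e2
    exact hf0 (by rw [← e2]; norm_num)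
  · intro h
    rw [h] at e2
    exact hf4 (by rw [← e2]; norm_num)
  · intro h
    rw [h] at e2
    exact hf0 (by rw [← e2]; norm_num)

end Grp

end Cfsg.Agent.H39.Br
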