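import Mathlib
import Cfsg.Agent.H79.BrDefs
import Cfsg.Agent.H39.BrExhLib

/-!
# S4504-EXH1 (helper39, for helper79): the principal block, `p ≡ 1 (mod 4)`

`χ·conj χ = 1 + θ₃ + ∑_{Tp} ψ` and `χ·conj χ' = ∑_{Tm} ψ`, with the degrees.
-/

set_option autoImplicit false

namespace Cfsg.Agent.H39.Br

open Cfsg Cfsg.Agent.H79.Br
open scoped ComplexConjugate

universe u

theorem prod1 (hA : StProd1a.{u}) (hB : StProd1b.{u}) (hO : StOrth.{u}) (hP : StPair.{u}) :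
    StProd1.{u} := by
  intro G _ _ p _ P χ x₁ x₂ hL hp1 θ₃ θ₄ χ' hE
  classical
  letI := Cfsg.Agent.H4.fintypeIrr G
  obtain ⟨hr1, hr2, e1, e2, hne, h10, h11, h1m, h20, h21, h2m⟩ := eta_facts hL hp1
  have hs := hL.sum
  -- the classification of `Ov 1`
  obtain ⟨ε, θ, θ', -, -, -, -, -, -, -, -, -, hother, hcount⟩ := hP p P χ x₁ x₂ hL (irrOne G)
  have hother' : ∀ ψ ∈ Ov (1 : G → ℂ), ψ ≠ θ → ψ ≠ θ' →
      (ψ.1 x₁ = 0 ∧ ψ.1 x₂ = 0) ∨ (ψ.1 x₁ = 1 ∧ ψ.1 x₂ = 1) ∨ (ψ.1 x₁ = -1 ∧ ψ.1 x₂ = -1) :=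
    hother
  have hcount' : Nat.card {ψ : IrrCharacter G //
      ψ ∈ Ov (1 : G → ℂ) ∧ (ψ.1 x₁ = 1 ∨ ψ.1 x₁ = -1)} = charDegree χ := hcount
  have h34 : θ₃ ≠ θ₄ := by
    intro h
    have := hE.v₃₁
    rw [h, hE.v₄₁] at this
    exact hne (neg_injective this).symm
  have hCL := classify (Ov (1 : G → ℂ)) (fun ψ => ψ.1 x₁) (fun ψ => ψ.1 x₂) θ θ' θ₃ θ₄ hother'
    hE.ov₃ hE.ov₄
    (by show θ₃.1 x₁ ≠ θ₃.1 x₂; rw [hE.v₃₁, hE.v₃₂]; exact fun h => hne (neg_injective h))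
    (by show θ₄.1 x₁ ≠ θ₄.1 x₂; rw [hE.v₄₁, hE.v₄₂]; exact fun h => hne (neg_injective h).symm)
    h34
  have hM := master (Ov (1 : G → ℂ)) (Tp x₁ x₂ (1 : G → ℂ)) (Tm x₁ x₂ (1 : G → ℂ))
    (fun ψ : IrrCharacter G => ψ.1 = 1) (fun ψ => ψ.1 x₁) (fun ψ => ψ.1 x₂) θ₃ θ₄
    (-χ x₁) (-χ x₂) (-χ x₂) (-χ x₁)
    (fun ψ => Iff.rfl) (fun ψ => Iff.rfl) (fun ψ h => by simp [h])
    hCL hE.ov₃ hE.ov₄ hE.v₃₁ hE.v₃₂ hE.v₄₁ hE.v₄₂ h34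
    (fun h => h1m (neg_eq_iff_eq_neg.1 h)) (fun h => h11 (neg_injective h))
    (fun h => h2m (neg_eq_iff_eq_neg.1 h)) (fun h => h21 (neg_injective h))
  have hTiff : ∀ ψ : IrrCharacter G, (ψ ∈ Ov (1 : G → ℂ) ∧ ψ.1 = 1) ↔ ψ = irrOne G :=
    fun ψ => ⟨fun h => eq_irrOne h.2, fun h => h ▸ ⟨irrOne_mem_ov, rfl⟩⟩
  -- exclusivity facts
  have h3Tp : θ₃ ∉ Tp x₁ x₂ (1 : G → ℂ) := fun h => by
    have := h.2.1; rw [hE.v₃₁] at this; exact h1m (neg_eq_iff_eq_neg.1 this)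
  have h3Tm : θ₃ ∉ Tm x₁ x₂ (1 : G → ℂ) := fun h => by
    have := h.2.1; rw [hE.v₃₁] at this; exact h11 (neg_injective this)
  have h4Tp : θ₄ ∉ Tp x₁ x₂ (1 : G → ℂ) := fun h => by
    have := h.2.1; rw [hE.v₄₁] at this; exact h2m (neg_eq_iff_eq_neg.1 this)
  have h4Tm : θ₄ ∉ Tm x₁ x₂ (1 : G → ℂ) := fun h => by
    have := h.2.1; rw [hE.v₄₁] at this; exact h21 (neg_injective this)
  have hTpTm : ∀ ψ : IrrCharacter G, ψ ∈ Tp x₁ x₂ (1 : G → ℂ) → ψ ∉ Tm x₁ x₂ (1 : G → ℂ) :=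
    fun ψ h h' => by
      have := h.2.1; rw [h'.2.1] at this; norm_num at this
  have hTmOne : ∀ ψ : IrrCharacter G, ψ ∈ Tm x₁ x₂ (1 : G → ℂ) → ψ.1 ≠ 1 := fun ψ h h' => by
    have := h.2.1; rw [h'] at this; norm_num at this
  -- sums against the values at `x₁`
  have hS1 : ∀ F : IrrCharacter G → ℂ,
      ∑ ψ, (if ψ ∈ Ov (1 : G → ℂ) then ψ.1 x₁ * F ψ else 0) =
        (-χ x₁) * F θ₃ + (-χ x₂) * F θ₄ + F (irrOne G) +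
          ∑ ψ, (if ψ ∈ Tp x₁ x₂ (1 : G → ℂ) then F ψ else 0) -
          ∑ ψ, (if ψ ∈ Tm x₁ x₂ (1 : G → ℂ) then F ψ else 0) := by
    intro F
    have h := sum_decomp (Ov (1 : G → ℂ)) (Tp x₁ x₂ (1 : G → ℂ)) (Tm x₁ x₂ (1 : G → ℂ))
      (fun ψ : IrrCharacter G => ψ.1 = 1) (fun ψ => ψ.1 x₁) θ₃ θ₄ (-χ x₁) (-χ x₂)
      (fun ψ => (hM ψ).1) F
    rw [h]
    simp only [hTiff, Finset.sum_ite_eq', Finset.mem_univ, if_true]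
  -- the count
  have hcnt : (charDegree χ : ℂ) = 1 +
      ∑ ψ : IrrCharacter G, (if ψ ∈ Tp x₁ x₂ (1 : G → ℂ) then (1 : ℂ) else 0) +
      ∑ ψ : IrrCharacter G, (if ψ ∈ Tm x₁ x₂ (1 : G → ℂ) then (1 : ℂ) else 0) := by
    have h : ((charDegree χ : ℕ) : ℂ) = ∑ ψ : IrrCharacter G,
        if (ψ ∈ Ov (1 : G → ℂ) ∧ (ψ.1 x₁ = 1 ∨ ψ.1 x₁ = -1)) then (1 : ℂ) else 0 := by
      rw [← hcount']; exact card_subtype_eq_sum _
    rw [h]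
    have h2 : ∀ ψ : IrrCharacter G,
        (if (ψ ∈ Ov (1 : G → ℂ) ∧ (ψ.1 x₁ = 1 ∨ ψ.1 x₁ = -1)) then (1 : ℂ) else 0) =
          (if ψ = irrOne G then 1 else 0) + (if ψ ∈ Tp x₁ x₂ (1 : G → ℂ) then 1 else 0) +
            (if ψ ∈ Tm x₁ x₂ (1 : G → ℂ) then 1 else 0) := by
      intro ψ
      have := (hM ψ).2.2
      simp only [hTiff] at this
      exact this
    simp only [h2, Finset.sum_add_distrib, Finset.sum_ite_eq', Finset.mem_univ, if_true]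
  -- values of the `Tp`- and `Tm`-sums at `x₁`, `x₂`
  have hSP1 : ∑ ψ : IrrCharacter G, (if ψ ∈ Tp x₁ x₂ (1 : G → ℂ) then ψ.1 x₁ else 0) =
      ∑ ψ : IrrCharacter G, (if ψ ∈ Tp x₁ x₂ (1 : G → ℂ) then (1 : ℂ) else 0) :=
    Finset.sum_congr rfl (fun ψ _ => by split_ifs with h; exacts [h.2.1, rfl])
  have hSP2 : ∑ ψ : IrrCharacter G, (if ψ ∈ Tp x₁ x₂ (1 : G → ℂ) then ψ.1 x₂ else 0) =
      ∑ ψ : IrrCharacter G, (if ψ ∈ Tp x₁ x₂ (1 : G → ℂ) then (1 : ℂ) else 0) :=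
    Finset.sum_congr rfl (fun ψ _ => by split_ifs with h; exacts [h.2.2.1, rfl])
  have hSM1 : ∑ ψ : IrrCharacter G, (if ψ ∈ Tm x₁ x₂ (1 : G → ℂ) then ψ.1 x₁ else 0) =
      -∑ ψ : IrrCharacter G, (if ψ ∈ Tm x₁ x₂ (1 : G → ℂ) then (1 : ℂ) else 0) := by
    rw [← Finset.sum_neg_distrib]
    exact Finset.sum_congr rfl (fun ψ _ => by split_ifs with h; exacts [h.2.1, neg_zero.symm])
  have hSM2 : ∑ ψ : IrrCharacter G, (if ψ ∈ Tm x₁ x₂ (1 : G → ℂ) then ψ.1 x₂ else 0) =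
      -∑ ψ : IrrCharacter G, (if ψ ∈ Tm x₁ x₂ (1 : G → ℂ) then (1 : ℂ) else 0) := by
    rw [← Finset.sum_neg_distrib]
    exact Finset.sum_congr rfl (fun ψ _ => by split_ifs with h; exacts [h.2.2, neg_zero.symm])
  -- the two decompositions
  obtain ⟨m, hm, -, -, hmT⟩ := hA p P χ x₁ x₂ hL hp1 θ₃ θ₄ χ' hE
  obtain ⟨b, hb, hbT⟩ := hB p P χ x₁ x₂ hL hp1 θ₃ θ₄ χ' hE
  have hmg : ∀ g, χ g * conj (χ g) = ∑ ψ : IrrCharacter G, (m ψ : ℂ) * ψ.1 g := by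
    intro g
    have := congrFun hm g
    rw [finsum_eq_sum_of_fintype] at this
    simpa [Finset.sum_apply] using this
  have hbg : ∀ g, χ g * conj (χ'.1 g) = ∑ ψ : IrrCharacter G, (b ψ : ℂ) * ψ.1 g := by
    intro g
    have := congrFun hb g
    rw [finsum_eq_sum_of_fintype] at this
    simpa [Finset.sum_apply] using this
  have hm0 : ∀ ψ : IrrCharacter G, ψ.1 ≠ 1 → ψ ≠ θ₃ → ψ ≠ θ₄ → ψ ∉ Tp x₁ x₂ (1 : G → ℂ) →
      m ψ = 0 := by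
    intro ψ a b' c d
    by_contra h
    exact d (hmT ψ h a b' c).1
  have hb0 : ∀ ψ : IrrCharacter G, ψ ∉ Tm x₁ x₂ (1 : G → ℂ) → b ψ = 0 := by
    intro ψ d
    by_contra h
    exact d (hbT ψ h).1
  -- the coefficient function
  obtain ⟨c, hc⟩ : ∃ c : IrrCharacter G → ℂ, c = fun ψ => (m ψ : ℂ) - (b ψ : ℂ) -
      ((if ψ = irrOne G then 1 else 0) + (if ψ = θ₃ then 1 else 0) +
        (if ψ ∈ Tp x₁ x₂ (1 : G → ℂ) then 1 else 0) -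
        (if ψ ∈ Tm x₁ x₂ (1 : G → ℂ) then 1 else 0)) := ⟨_, rfl⟩
  have hcsum : ∀ g, ∑ ψ, c ψ * ψ.1 g = χ g * conj (χ g) - χ g * conj (χ'.1 g) -
      ((irrOne G).1 g + θ₃.1 g +
        ∑ ψ : IrrCharacter G, (if ψ ∈ Tp x₁ x₂ (1 : G → ℂ) then ψ.1 g else 0) -
        ∑ ψ : IrrCharacter G, (if ψ ∈ Tm x₁ x₂ (1 : G → ℂ) then ψ.1 g else 0)) := by
    intro g
    rw [hmg g, hbg g, hc]
    simp only [sub_mul, add_mul, ite_mul, one_mul, zero_mul, Finset.sum_sub_distrib,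
      Finset.sum_add_distrib, Finset.sum_ite_eq', Finset.mem_univ, if_true]
  have hone : ∀ g, (irrOne G).1 g = 1 := fun g => rfl
  have hsupp : ∀ ψ, c ψ ≠ 0 → ψ ∈ Ov (1 : G → ℂ) := by
    intro ψ hcψ
    by_contra hψ
    apply hcψ
    have a1 : ψ ≠ irrOne G := fun h => hψ (h ▸ irrOne_mem_ov)
    have a2 : ψ ≠ θ₃ := fun h => hψ (h ▸ hE.ov₃)
    have a3 : ψ ≠ θ₄ := fun h => hψ (h ▸ hE.ov₄)
    have a4 : ψ ∉ Tp x₁ x₂ (1 : G → ℂ) := fun h => hψ h.1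
    have a5 : ψ ∉ Tm x₁ x₂ (1 : G → ℂ) := fun h => hψ h.1
    have a6 : ψ.1 ≠ 1 := fun h => a1 (eq_irrOne h)
    rw [hc]
    simp [hm0 ψ a6 a2 a3 a4, hb0 ψ a5, a1, a2, a4, a5]
  have hreg : ∀ y : G, ¬ p ∣ orderOf y → ∑ ψ, c ψ * ψ.1 y = 0 := by
    intro y hy
    have hy' : ¬ p ∣ orderOf y⁻¹ := by rwa [orderOf_inv]
    have hOy := ((hO p P (charDegree χ) x₁ x₂ hL.grp (irrOne G)).2.2.2 y⁻¹ hy').1
    have hOy' : ∑ᶠ ψ ∈ Ov (1 : G → ℂ), ψ.1 x₁ * conj (ψ.1 y⁻¹) = 0 := hOy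
    rw [finsum_mem_eq_sum_ite] at hOy'
    have hE1 : ∑ ψ : IrrCharacter G, (if ψ ∈ Ov (1 : G → ℂ) then ψ.1 x₁ * ψ.1 y else 0) = 0 := by
      refine Eq.trans (Finset.sum_congr rfl (fun ψ _ => ?_)) hOy'
      rw [Cfsg.Agent.H82.irr_inv ψ y, Complex.conj_conj]
    rw [hS1 (fun ψ => ψ.1 y)] at hE1
    rw [hcsum y, hE.agree' y hy]
    have hag := hE.agree y hy
    rw [← hag] at hE1
    linear_combination (-1 : ℂ) * hE1 - θ₃.1 y * hs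
  have hx1 : ∑ ψ, c ψ * ψ.1 x₁ = 0 := by
    rw [hcsum x₁, hSP1, hSM1, hone, hE.v₃₁, hE.v'₁, hr1, hr2]
    linear_combination e1 - χ x₁ * hs + hcnt
  have hx2 : ∑ ψ, c ψ * ψ.1 x₂ = 0 := by
    rw [hcsum x₂, hSP2, hSM2, hone, hE.v₃₂, hE.v'₂, hr1, hr2]
    linear_combination e2 - χ x₂ * hs + hcnt
  have hc0 := vanish hL.grp (1 : G → ℂ) (by simp) c hsupp hreg hx1 hx2
  -- the multiplicities
  have hbval : ∀ ψ : IrrCharacter G,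
      (b ψ : ℂ) = if ψ ∈ Tm x₁ x₂ (1 : G → ℂ) then 1 else 0 := by
    intro ψ
    by_cases hψ : ψ ∈ Tm x₁ x₂ (1 : G → ℂ)
    · have a6 : ψ.1 ≠ 1 := hTmOne ψ hψ
      have a1 : ψ ≠ irrOne G := fun h => a6 (h ▸ rfl)
      have a2 : ψ ≠ θ₃ := fun h => h3Tm (h ▸ hψ)
      have a3 : ψ ≠ θ₄ := fun h => h4Tm (h ▸ hψ)
      have a4 : ψ ∉ Tp x₁ x₂ (1 : G → ℂ) := fun h => hTpTm ψ h hψ
      have h0 := hc0 ψ
      rw [hc] at h0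
      simp only [hm0 ψ a6 a2 a3 a4, a1, a2, a4, hψ, if_true, if_false] at h0
      rw [if_pos hψ]
      linear_combination -h0
    · rw [if_neg hψ, hb0 ψ hψ]
      simp
  have hmval : ∀ ψ : IrrCharacter G, (m ψ : ℂ) = (if ψ = irrOne G then 1 else 0) +
      (if ψ = θ₃ then 1 else 0) + (if ψ ∈ Tp x₁ x₂ (1 : G → ℂ) then 1 else 0) := by
    intro ψ
    have h0 := hc0 ψ
    rw [hc] at h0
    simp only [hbval ψ] at h0
    linear_combination h0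
  refine ⟨?_, ?_, ?_, ?_⟩
  · intro g
    rw [hmg g, finsum_mem_eq_sum_ite]
    simp only [hmval, add_mul, ite_mul, one_mul, zero_mul, Finset.sum_add_distrib,
      Finset.sum_ite_eq', Finset.mem_univ, if_true]
    rw [hone]
  · intro g
    rw [hbg g, finsum_mem_eq_sum_ite]
    simp only [hbval, ite_mul, one_mul, zero_mul]
  · intro ψ hψ
    have a1 : ψ ≠ irrOne G := fun h => hψ.2.2.2 (h ▸ rfl)
    have a2 : ψ ≠ θ₃ := fun h => h3Tp (h ▸ hψ)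
    have a3 : ψ ≠ θ₄ := fun h => h4Tp (h ▸ hψ)
    have hmψ : m ψ ≠ 0 := by
      intro h
      have := hmval ψ
      rw [h] at this
      simp [a1, a2, hψ] at this
    exact (hmT ψ hmψ hψ.2.2.2 a2 a3).2
  · intro ψ hψ
    have hbψ : b ψ ≠ 0 := by
      intro h
      have := hbval ψ
      rw [h] at this
      simp [hψ] at this
    exact (hbT ψ hbψ).2

example (hA : StProd1a.{u}) (hB : StProd1b.{u}) (hO : StOrth.{u}) (hP : StPair.{u}) :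
    StProd1.{u} := prod1 hA hB hO hP

end Cfsg.Agent.H39.Br
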