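import Mathlib
import Cfsg.Agent.H79.BrDefs
import Cfsg.Agent.H39.BrExhLib

/-!
# S4504-EXHW (helper39, for helper79): the block of `χ`, `p ≡ 1 (mod 4)`

`χ·θ₃ = χ + ∑_{Tm χ} ψ` and `χ·θ₄ = ∑_{Tp χ} ψ`, with the degrees.
-/

set_option autoImplicit false

namespace Cfsg.Agent.H39.Br

open Cfsg Cfsg.Agent.H79.Br
open scoped ComplexConjugate

universe u

theorem prodW (hA : StProdWa.{u}) (hB : StProdWb.{u}) (hO : StOrth.{u}) (hP : StPair.{u}) :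
    StProdW.{u} := by
  intro G _ _ p _ P χ x₁ x₂ hL hp1 θ₃ θ₄ χ' hE
  classical
  letI := Cfsg.Agent.H4.fintypeIrr G
  obtain ⟨hr1, hr2, e1, e2, hne, h10, h11, h1m, h20, h21, h2m⟩ := eta_facts hL hp1
  have hs := hL.sum
  obtain ⟨χI, hχI⟩ : ∃ χI : IrrCharacter G, χI = ⟨χ, hL.irr⟩ := ⟨_, rfl⟩
  have hχIv : ∀ g, χI.1 g = χ g := fun g => by rw [hχI]
  have hχIO : χI ∈ Ov χ := by
    intro z _
    rw [hχIv, hχIv]
  have hχIeq : ∀ ψ : IrrCharacter G, ψ.1 = χ → ψ = χI := fun ψ h => by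
    rw [hχI]; exact Subtype.ext h
  -- the classification of `Ov 1` (to exclude the trivial character from `Ov χ`)
  have hnoT : ∀ ψ : IrrCharacter G, ¬ (ψ ∈ Ov χ ∧ ψ.1 = 1) := by
    rintro ψ ⟨hψ, hψ1⟩
    obtain ⟨ε, θ, θ', -, -, -, -, -, -, -, -, -, hother, -⟩ := hP p P χ x₁ x₂ hL (irrOne G)
    have hother' : ∀ ψ ∈ Ov (1 : G → ℂ), ψ ≠ θ → ψ ≠ θ' →
        (ψ.1 x₁ = 0 ∧ ψ.1 x₂ = 0) ∨ (ψ.1 x₁ = 1 ∧ ψ.1 x₂ = 1) ∨
          (ψ.1 x₁ = -1 ∧ ψ.1 x₂ = -1) := hother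
    have h34 : θ₃ ≠ θ₄ := by
      intro h
      have := hE.v₃₁
      rw [h, hE.v₄₁] at this
      exact hne (neg_injective this).symm
    have hCL := classify (Ov (1 : G → ℂ)) (fun ψ => ψ.1 x₁) (fun ψ => ψ.1 x₂) θ θ' θ₃ θ₄
      hother' hE.ov₃ hE.ov₄
      (by show θ₃.1 x₁ ≠ θ₃.1 x₂; rw [hE.v₃₁, hE.v₃₂]; exact fun h => hne (neg_injective h))
      (by show θ₄.1 x₁ ≠ θ₄.1 x₂; rw [hE.v₄₁, hE.v₄₂]
          exact fun h => hne (neg_injective h).symm)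
      h34
    have hχ1 : χI ∈ Ov (1 : G → ℂ) := by
      intro z hz
      have := hψ z hz
      rw [hψ1] at this
      simp only [Pi.one_apply, one_mul, mul_one] at this
      rw [hχIv, hχIv]
      simp only [Pi.one_apply, one_mul, mul_one]
      exact this.symm
    rcases hCL χI hχ1 with h | h | ⟨a, b⟩ | ⟨a, b⟩ | ⟨a, b⟩
    · have := hE.v₃₁
      rw [← h, hχIv] at this
      apply h10
      linear_combination (1 / 2 : ℂ) * this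
    · have := hE.v₄₁
      rw [← h, hχIv] at this
      have h0 : (0 : ℂ) = -1 := by linear_combination hs - this
      norm_num at h0
    · simp only [hχIv] at a b; exact hne (a.trans b.symm)
    · simp only [hχIv] at a b; exact hne (a.trans b.symm)
    · simp only [hχIv] at a b; exact hne (a.trans b.symm)
  -- the classification of `Ov χ`
  obtain ⟨ε, θ, θ', -, -, -, -, -, -, -, -, -, hother, hcount⟩ := hP p P χ x₁ x₂ hL χI
  have hother' : ∀ ψ ∈ Ov χ, ψ ≠ θ → ψ ≠ θ' →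
      (ψ.1 x₁ = 0 ∧ ψ.1 x₂ = 0) ∨ (ψ.1 x₁ = 1 ∧ ψ.1 x₂ = 1) ∨ (ψ.1 x₁ = -1 ∧ ψ.1 x₂ = -1) := by
    rw [hχI] at hother; exact hother
  have hcount' : Nat.card {ψ : IrrCharacter G //
      ψ ∈ Ov χ ∧ (ψ.1 x₁ = 1 ∨ ψ.1 x₁ = -1)} = charDegree χ := by
    rw [hχI] at hcount; exact hcount
  have hAB : χI ≠ χ' := by
    intro h
    have := hE.v'₁
    rw [← h, hχIv] at this
    exact hne this
  have hCL := classify (Ov χ) (fun ψ => ψ.1 x₁) (fun ψ => ψ.1 x₂) θ θ' χI χ' hother'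
    hχIO hE.ov'
    (by show χI.1 x₁ ≠ χI.1 x₂; rw [hχIv, hχIv]; exact hne)
    (by show χ'.1 x₁ ≠ χ'.1 x₂; rw [hE.v'₁, hE.v'₂]; exact hne.symm)
    hAB
  have hM := master (Ov χ) (Tp x₁ x₂ χ) (Tm x₁ x₂ χ)
    (fun ψ : IrrCharacter G => ψ.1 = 1) (fun ψ => ψ.1 x₁) (fun ψ => ψ.1 x₂) χI χ'
    (χ x₁) (χ x₂) (χ x₂) (χ x₁)
    (fun ψ => Iff.rfl) (fun ψ => Iff.rfl) (fun ψ h => by simp [h])
    hCL hχIO hE.ov' (hχIv x₁) (hχIv x₂) hE.v'₁ hE.v'₂ hAB h11 h1m h21 h2m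
  -- exclusivity facts
  have hITp : χI ∉ Tp x₁ x₂ χ := fun h => by
    have := h.2.1; rw [hχIv] at this; exact h11 this
  have hITm : χI ∉ Tm x₁ x₂ χ := fun h => by
    have := h.2.1; rw [hχIv] at this; exact h1m this
  have h'Tp : χ' ∉ Tp x₁ x₂ χ := fun h => by
    have := h.2.1; rw [hE.v'₁] at this; exact h21 this
  have h'Tm : χ' ∉ Tm x₁ x₂ χ := fun h => by
    have := h.2.1; rw [hE.v'₁] at this; exact h2m this
  have hTpTm : ∀ ψ : IrrCharacter G, ψ ∈ Tp x₁ x₂ χ → ψ ∉ Tm x₁ x₂ χ :=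
    fun ψ h h' => by
      have := h.2.1; rw [h'.2.1] at this; norm_num at this
  -- sums against the values at `x₁`
  have hS1 : ∀ F : IrrCharacter G → ℂ,
      ∑ ψ, (if ψ ∈ Ov χ then ψ.1 x₁ * F ψ else 0) =
        χ x₁ * F χI + χ x₂ * F χ' +
          ∑ ψ, (if ψ ∈ Tp x₁ x₂ χ then F ψ else 0) -
          ∑ ψ, (if ψ ∈ Tm x₁ x₂ χ then F ψ else 0) := by
    intro F
    have h := sum_decomp (Ov χ) (Tp x₁ x₂ χ) (Tm x₁ x₂ χ)
      (fun ψ : IrrCharacter G => ψ.1 = 1) (fun ψ => ψ.1 x₁) χI χ' (χ x₁) (χ x₂)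
      (fun ψ => (hM ψ).1) F
    rw [h]
    simp only [hnoT, if_false, Finset.sum_const_zero, add_zero]
  -- the count
  have hcnt : (charDegree χ : ℂ) =
      ∑ ψ : IrrCharacter G, (if ψ ∈ Tp x₁ x₂ χ then (1 : ℂ) else 0) +
      ∑ ψ : IrrCharacter G, (if ψ ∈ Tm x₁ x₂ χ then (1 : ℂ) else 0) := by
    have h : ((charDegree χ : ℕ) : ℂ) = ∑ ψ : IrrCharacter G,
        if (ψ ∈ Ov χ ∧ (ψ.1 x₁ = 1 ∨ ψ.1 x₁ = -1)) then (1 : ℂ) else 0 := by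
      rw [← hcount']; exact card_subtype_eq_sum _
    rw [h]
    have h2 : ∀ ψ : IrrCharacter G,
        (if (ψ ∈ Ov χ ∧ (ψ.1 x₁ = 1 ∨ ψ.1 x₁ = -1)) then (1 : ℂ) else 0) =
          (if ψ ∈ Tp x₁ x₂ χ then 1 else 0) + (if ψ ∈ Tm x₁ x₂ χ then 1 else 0) := by
      intro ψ
      have := (hM ψ).2.2
      simp only [hnoT, if_false, zero_add] at this
      exact this
    simp only [h2, Finset.sum_add_distrib]
  -- values of the `Tp`- and `Tm`-sums at `x₁`, `x₂`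
  have hSP1 : ∑ ψ : IrrCharacter G, (if ψ ∈ Tp x₁ x₂ χ then ψ.1 x₁ else 0) =
      ∑ ψ : IrrCharacter G, (if ψ ∈ Tp x₁ x₂ χ then (1 : ℂ) else 0) :=
    Finset.sum_congr rfl (fun ψ _ => by split_ifs with h; exacts [h.2.1, rfl])
  have hSP2 : ∑ ψ : IrrCharacter G, (if ψ ∈ Tp x₁ x₂ χ then ψ.1 x₂ else 0) =
      ∑ ψ : IrrCharacter G, (if ψ ∈ Tp x₁ x₂ χ then (1 : ℂ) else 0) :=
    Finset.sum_congr rfl (fun ψ _ => by split_ifs with h; exacts [h.2.2.1, rfl])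
  have hSM1 : ∑ ψ : IrrCharacter G, (if ψ ∈ Tm x₁ x₂ χ then ψ.1 x₁ else 0) =
      -∑ ψ : IrrCharacter G, (if ψ ∈ Tm x₁ x₂ χ then (1 : ℂ) else 0) := by
    rw [← Finset.sum_neg_distrib]
    exact Finset.sum_congr rfl (fun ψ _ => by split_ifs with h; exacts [h.2.1, neg_zero.symm])
  have hSM2 : ∑ ψ : IrrCharacter G, (if ψ ∈ Tm x₁ x₂ χ then ψ.1 x₂ else 0) =
      -∑ ψ : IrrCharacter G, (if ψ ∈ Tm x₁ x₂ χ then (1 : ℂ) else 0) := by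
    rw [← Finset.sum_neg_distrib]
    exact Finset.sum_congr rfl (fun ψ _ => by split_ifs with h; exacts [h.2.2, neg_zero.symm])
  -- the two decompositions
  obtain ⟨m, hm, -, hmT⟩ := hA p P χ x₁ x₂ hL hp1 θ₃ θ₄ χ' hE
  obtain ⟨b, hb, hbT⟩ := hB p P χ x₁ x₂ hL hp1 θ₃ θ₄ χ' hE
  have hmg : ∀ g, χ g * θ₃.1 g = ∑ ψ : IrrCharacter G, (m ψ : ℂ) * ψ.1 g := by
    intro g
    have := congrFun hm g
    rw [finsum_eq_sum_of_fintype] at this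
    simpa [Finset.sum_apply] using this
  have hbg : ∀ g, χ g * θ₄.1 g = ∑ ψ : IrrCharacter G, (b ψ : ℂ) * ψ.1 g := by
    intro g
    have := congrFun hb g
    rw [finsum_eq_sum_of_fintype] at this
    simpa [Finset.sum_apply] using this
  have hm0 : ∀ ψ : IrrCharacter G, ψ ≠ χI → ψ ≠ χ' → ψ ∉ Tm x₁ x₂ χ → m ψ = 0 := by
    intro ψ a b' d
    by_contra h
    exact d (hmT ψ h (fun h' => a (hχIeq ψ h')) b').1
  have hb0 : ∀ ψ : IrrCharacter G, ψ ∉ Tp x₁ x₂ χ → b ψ = 0 := by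
    intro ψ d
    by_contra h
    exact d (hbT ψ h).1
  -- the coefficient function
  obtain ⟨c, hc⟩ : ∃ c : IrrCharacter G → ℂ, c = fun ψ => (m ψ : ℂ) - (b ψ : ℂ) -
      ((if ψ = χI then 1 else 0) + (if ψ ∈ Tm x₁ x₂ χ then 1 else 0) -
        (if ψ ∈ Tp x₁ x₂ χ then 1 else 0)) := ⟨_, rfl⟩
  have hcsum : ∀ g, ∑ ψ, c ψ * ψ.1 g = χ g * θ₃.1 g - χ g * θ₄.1 g -
      (χI.1 g +
        ∑ ψ : IrrCharacter G, (if ψ ∈ Tm x₁ x₂ χ then ψ.1 g else 0) -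
        ∑ ψ : IrrCharacter G, (if ψ ∈ Tp x₁ x₂ χ then ψ.1 g else 0)) := by
    intro g
    rw [hmg g, hbg g, hc]
    simp only [sub_mul, add_mul, ite_mul, one_mul, zero_mul, Finset.sum_sub_distrib,
      Finset.sum_add_distrib, Finset.sum_ite_eq', Finset.mem_univ, if_true]
  have hsupp : ∀ ψ, c ψ ≠ 0 → ψ ∈ Ov χ := by
    intro ψ hcψ
    by_contra hψ
    apply hcψ
    have a1 : ψ ≠ χI := fun h => hψ (h ▸ hχIO)
    have a2 : ψ ≠ χ' := fun h => hψ (h ▸ hE.ov')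
    have a4 : ψ ∉ Tp x₁ x₂ χ := fun h => hψ h.1
    have a5 : ψ ∉ Tm x₁ x₂ χ := fun h => hψ h.1
    rw [hc]
    simp [hm0 ψ a1 a2 a5, hb0 ψ a4, a1, a4, a5]
  have hreg : ∀ y : G, ¬ p ∣ orderOf y → ∑ ψ, c ψ * ψ.1 y = 0 := by
    intro y hy
    have hy' : ¬ p ∣ orderOf y⁻¹ := by rwa [orderOf_inv]
    have hOy := ((hO p P (charDegree χ) x₁ x₂ hL.grp χI).2.2.2 y⁻¹ hy').1
    have hOy' : ∑ᶠ ψ ∈ Ov χ, ψ.1 x₁ * conj (ψ.1 y⁻¹) = 0 := by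
      rw [hχI] at hOy; exact hOy
    rw [finsum_mem_eq_sum_ite] at hOy'
    have hE1 : ∑ ψ : IrrCharacter G, (if ψ ∈ Ov χ then ψ.1 x₁ * ψ.1 y else 0) = 0 := by
      refine Eq.trans (Finset.sum_congr rfl (fun ψ _ => ?_)) hOy'
      rw [Cfsg.Agent.H82.irr_inv ψ y, Complex.conj_conj]
    rw [hS1 (fun ψ => ψ.1 y)] at hE1
    rw [hcsum y, ← hE.agree y hy]
    rw [hE.agree' y hy, hχIv] at hE1
    rw [hχIv]
    linear_combination hE1 - χ y * hs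
  have hx1 : ∑ ψ, c ψ * ψ.1 x₁ = 0 := by
    rw [hcsum x₁, hSP1, hSM1, hχIv, hE.v₃₁, hE.v₄₁]
    linear_combination -e1 + χ x₁ * hs - hcnt
  have hx2 : ∑ ψ, c ψ * ψ.1 x₂ = 0 := by
    rw [hcsum x₂, hSP2, hSM2, hχIv, hE.v₃₂, hE.v₄₂]
    linear_combination -e2 + χ x₂ * hs - hcnt
  have hχ1 : χ 1 ≠ 0 := by
    rw [← hχIv]; exact Cfsg.Agent.H82.irr_one_ne_zero χI
  have hc0 := vanish hL.grp χ hχ1 c hsupp hreg hx1 hx2
  -- the multiplicities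
  have hbval : ∀ ψ : IrrCharacter G,
      (b ψ : ℂ) = if ψ ∈ Tp x₁ x₂ χ then 1 else 0 := by
    intro ψ
    by_cases hψ : ψ ∈ Tp x₁ x₂ χ
    · have a1 : ψ ≠ χI := fun h => hITp (h ▸ hψ)
      have a2 : ψ ≠ χ' := fun h => h'Tp (h ▸ hψ)
      have a5 : ψ ∉ Tm x₁ x₂ χ := hTpTm ψ hψ
      have h0 := hc0 ψ
      rw [hc] at h0
      simp only [hm0 ψ a1 a2 a5, a1, a5, hψ, if_true, if_false] at h0
      rw [if_pos hψ]
      linear_combination -h0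
    · rw [if_neg hψ, hb0 ψ hψ]
      simp
  have hmval : ∀ ψ : IrrCharacter G, (m ψ : ℂ) = (if ψ = χI then 1 else 0) +
      (if ψ ∈ Tm x₁ x₂ χ then 1 else 0) := by
    intro ψ
    have h0 := hc0 ψ
    rw [hc] at h0
    simp only [hbval ψ] at h0
    linear_combination h0
  refine ⟨?_, ?_, ?_, ?_⟩
  · intro g
    rw [hmg g, finsum_mem_eq_sum_ite]
    simp only [hmval, add_mul, ite_mul, one_mul, zero_mul, Finset.sum_add_distrib,
      Finset.sum_ite_eq', Finset.mem_univ, if_true]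
    rw [hχIv]
  · intro g
    rw [hbg g, finsum_mem_eq_sum_ite]
    simp only [hbval, ite_mul, one_mul, zero_mul]
  · intro ψ hψ
    have hbψ : b ψ ≠ 0 := by
      intro h
      have := hbval ψ
      rw [h] at this
      simp [hψ] at this
    exact (hbT ψ hbψ).2
  · intro ψ hψ
    have a1 : ψ ≠ χI := fun h => hITm (h ▸ hψ)
    have a2 : ψ ≠ χ' := fun h => h'Tm (h ▸ hψ)
    have hmψ : m ψ ≠ 0 := by
      intro h
      have := hmval ψ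
      rw [h] at this
      simp [a1, hψ] at this
    exact (hmT ψ hmψ (fun h' => a1 (hχIeq ψ h')) a2).2

example (hA : StProdWa.{u}) (hB : StProdWb.{u}) (hO : StOrth.{u}) (hP : StPair.{u}) :
    StProdW.{u} := prodW hA hB hO hP

end Cfsg.Agent.H39.Br
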