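import Mathlib

set_option autoImplicit false

namespace Cfsg.Agent.H39.Flag

open Finset

/-- The coefficient matrix: `cauC y k j = (-1)^k e_k(y_l : l ≠ j)`. -/
noncomputable def cauC {R : Type*} [CommRing R] {n : ℕ} (y : Fin n → R) :
    Matrix (Fin n) (Fin n) R :=
  Matrix.of fun k j => ∑ U ∈ (univ.erase j).powersetCard k.1, (-1) ^ k.1 * ∏ l ∈ U, y l

/-- Expansion: `∏_{l ≠ j} (s - t y_l) = Σ_k C k j t^k s^(n-1-k)`. -/
theorem cauC_expand {R : Type*} [CommRing R] {n : ℕ} (y : Fin n → R) (s t : R) (j : Fin n) :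
    ∏ l ∈ univ.erase j, (s - t * y l) =
      ∑ k : Fin n, cauC y k j * t ^ k.1 * s ^ (n - 1 - k.1) := by
  classical
  have hn : 0 < n := j.pos
  have hcard : #(univ.erase j : Finset (Fin n)) = n - 1 := by
    rw [Finset.card_erase_of_mem (mem_univ j), Finset.card_univ, Fintype.card_fin]
  rw [Finset.prod_sub, Finset.sum_powerset, hcard, show n - 1 + 1 = n by omega,
    ← Fin.sum_univ_eq_sum_range (fun k => ∑ U ∈ powersetCard k (univ.erase j),
      (-1) ^ #U * (∏ l ∈ univ.erase j \ U, s) * ∏ l ∈ U, t * y l) n]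
  apply Finset.sum_congr rfl
  intro k _
  simp only [cauC, Matrix.of_apply, Finset.sum_mul]
  apply Finset.sum_congr rfl
  intro U hU
  rw [Finset.mem_powersetCard] at hU
  rw [Finset.prod_const, Finset.prod_mul_distrib, Finset.prod_const, hU.2,
    Finset.card_sdiff_of_subset hU.1, hU.2, hcard]
  ring

theorem cauC_map {R S : Type*} [CommRing R] [CommRing S] {n : ℕ} (f : R →+* S)
    (y : Fin n → R) : (cauC y).map f = cauC (fun i => f (y i)) := by
  ext k j
  simp [cauC, map_sum, map_mul, map_pow, map_prod]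

theorem cau_M_eq {R : Type*} [CommRing R] {n : ℕ} (x y : Fin n → R) :
    (Matrix.of fun i j => ∏ l ∈ univ.erase j, (1 - x i * y l) : Matrix (Fin n) (Fin n) R) =
      Matrix.vandermonde x * cauC y := by
  ext i j
  rw [Matrix.of_apply, cauC_expand y 1 (x i) j, Matrix.mul_apply]
  apply Finset.sum_congr rfl
  intro k _
  rw [Matrix.vandermonde_apply, one_pow, mul_one, mul_comm]

theorem cau_G_eq {R : Type*} [CommRing R] {n : ℕ} (y : Fin n → R) :
    Matrix.projVandermonde 1 y * cauC y =
      Matrix.diagonal (fun i => ∏ l ∈ univ.erase i, (y i - y l)) := by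
  classical
  ext i j
  rw [Matrix.mul_apply]
  have h := cauC_expand y (y i) 1 j
  have h2 : ∑ k, Matrix.projVandermonde 1 y i k * cauC y k j =
      ∏ l ∈ univ.erase j, (y i - 1 * y l) := by
    rw [h]
    apply Finset.sum_congr rfl
    intro k _
    rw [Matrix.projVandermonde_apply, Pi.one_apply, one_pow, Fin.val_rev]
    have hk : n - (k.1 + 1) = n - 1 - k.1 := by omega
    rw [hk, one_mul, mul_one, mul_comm]
  rw [h2]
  by_cases hij : i = j
  · subst hij
    rw [Matrix.diagonal_apply_eq]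
    simp
  · rw [Matrix.diagonal_apply_ne _ hij]
    apply Finset.prod_eq_zero (i := i) (Finset.mem_erase.mpr ⟨hij, mem_univ i⟩)
    simp

theorem prod_erase_split {R : Type*} [CommRing R] {n : ℕ} (y : Fin n → R) :
    ∏ i, ∏ l ∈ univ.erase i, (y i - y l) =
      (∏ i, ∏ j ∈ Ioi i, (y i - y j)) * (∏ i, ∏ j ∈ Ioi i, (y j - y i)) := by
  classical
  have h1 : ∀ i : Fin n, ∏ l ∈ univ.erase i, (y i - y l) =
      (∏ l ∈ Ioi i, (y i - y l)) * (∏ l ∈ Iio i, (y i - y l)) := by
    intro i
    rw [← Finset.prod_union]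
    · congr 1
      ext l
      simp only [mem_erase, mem_univ, and_true, mem_union, mem_Ioi, mem_Iio]
      constructor
      · intro h
        rcases lt_or_gt_of_ne h with h' | h'
        · exact Or.inr h'
        · exact Or.inl h'
      · rintro (h | h)
        · exact h.ne'
        · exact h.ne
    · rw [Finset.disjoint_left]
      intro l hl hl'
      rw [mem_Ioi] at hl
      rw [mem_Iio] at hl'
      exact lt_asymm hl hl'
  simp_rw [h1]
  rw [Finset.prod_mul_distrib]
  congr 1
  rw [Finset.prod_comm' (s' := fun l => Ioi l) (t' := univ)]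
  intro i l
  simp

theorem det_cauC_X (n : ℕ) :
    (cauC (fun i : Fin n => (MvPolynomial.X i : MvPolynomial (Fin n) ℤ))).det =
      ∏ i, ∏ j ∈ Ioi i, ((MvPolynomial.X j : MvPolynomial (Fin n) ℤ) - MvPolynomial.X i) := by
  have h := congrArg Matrix.det
    (cau_G_eq (fun i : Fin n => (MvPolynomial.X i : MvPolynomial (Fin n) ℤ)))
  rw [Matrix.det_mul, Matrix.det_projVandermonde, Matrix.det_diagonal, prod_erase_split] at h
  simp only [Pi.one_apply, one_mul] at h
  refine mul_left_cancel₀ ?_ h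
  rw [Finset.prod_ne_zero_iff]
  intro i _
  rw [Finset.prod_ne_zero_iff]
  intro j hj
  rw [sub_ne_zero]
  intro hX
  have hij := MvPolynomial.X_injective hX
  rw [mem_Ioi] at hj
  exact hj.ne hij

theorem det_cauC {R : Type*} [CommRing R] {n : ℕ} (y : Fin n → R) :
    (cauC y).det = ∏ i, ∏ j ∈ Ioi i, (y j - y i) := by
  have h := det_cauC_X n
  have h2 := congrArg (MvPolynomial.eval₂Hom (Int.castRingHom R) y) h
  rw [RingHom.map_det, RingHom.mapMatrix_apply, cauC_map] at h2
  simpa using h2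

/-- Cauchy determinant, polynomial form (piece S2422-C2a, exact statement posted by
helper95). -/
theorem cauchy_det_poly {R : Type*} [CommRing R] {n : ℕ} (x y : Fin n → R) :
    ∑ σ : Equiv.Perm (Fin n), ((Equiv.Perm.sign σ : ℤ) : R) *
        ∏ i, ∏ j ∈ Finset.univ.erase (σ i), (1 - x i * y j)
      = (∏ i, ∏ j ∈ Finset.Ioi i, (x j - x i)) * (∏ i, ∏ j ∈ Finset.Ioi i, (y j - y i)) := by
  have h1 : ∑ σ : Equiv.Perm (Fin n), ((Equiv.Perm.sign σ : ℤ) : R) *
        ∏ i, ∏ j ∈ Finset.univ.erase (σ i), (1 - x i * y j) =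
      (Matrix.transpose (Matrix.of fun i j => ∏ l ∈ univ.erase j, (1 - x i * y l) :
        Matrix (Fin n) (Fin n) R)).det := by
    rw [Matrix.det_apply']
    rfl
  rw [h1, Matrix.det_transpose, cau_M_eq, Matrix.det_mul, Matrix.det_vandermonde, det_cauC]

end Cfsg.Agent.H39.Flag
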