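import Mathlib
import Cfsg.Prelude.Def_PLocal
import Cfsg.Prelude.Def_LocalEven

/-!
# helper39: lifting commutator degrees on chief factors through a critical subgroup

`pairing_step`: the `Hom(A/A₀, B₁/B₀)` degree computation in commutator form.
`layer`: a chain of normal subgroups from `C_L(E)` to `L` with degree `a + b - 1`.
`chief_of_chain`: Jordan–Hölder transfer of the degree to every chief factor.
-/

set_option autoImplicit false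

namespace Cfsg.Agent.H39

open scoped commutatorElement
open Cfsg

variable {G : Type*} [Group G]

/-! ### iterated commutators -/

theorem iterC_mono {N N' : Subgroup G} (h : N ≤ N') (K : Subgroup G) (n : ℕ) :
    iterCommutator N K n ≤ iterCommutator N' K n := by
  induction n with
  | zero => exact h
  | succ n ih => exact Subgroup.commutator_mono ih le_rfl

theorem iterC_succ_le (N K : Subgroup G) [N.Normal] (n : ℕ) :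
    iterCommutator N K (n + 1) ≤ iterCommutator N K n := by
  induction n with
  | zero => exact Subgroup.commutator_le_left N K
  | succ n ih => exact Subgroup.commutator_mono ih le_rfl

theorem iterC_add_le (N K : Subgroup G) [N.Normal] (n k : ℕ) :
    iterCommutator N K (n + k) ≤ iterCommutator N K n := by
  induction k with
  | zero => exact le_rfl
  | succ k ih => exact (iterC_succ_le N K (n + k)).trans ih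

theorem iterC_le_of_le (N K : Subgroup G) [N.Normal] {n m : ℕ} (h : n ≤ m) :
    iterCommutator N K m ≤ iterCommutator N K n := by
  obtain ⟨k, rfl⟩ := Nat.exists_eq_add_of_le h
  exact iterC_add_le N K n k

theorem iterC_le_self (N K : Subgroup G) [N.Normal] (n : ℕ) : iterCommutator N K n ≤ N := by
  have := iterC_add_le N K 0 n
  rwa [zero_add] at this

theorem comm_sup_le (X V K : Subgroup G) [V.Normal] : ⁅X ⊔ V, K⁆ ≤ ⁅X, K⁆ ⊔ V := by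
  rw [Subgroup.commutator_le]
  intro y hy h hh
  obtain ⟨c, hc, v, hv, rfl⟩ := Subgroup.mem_sup_of_normal_right.mp hy
  have e : ⁅c * v, h⁆ = c * ⁅v, h⁆ * c⁻¹ * ⁅c, h⁆ := by
    simp [commutatorElement_def, mul_assoc]
  rw [e]
  have h1 : ⁅v, h⁆ ∈ V := by
    rw [commutatorElement_def]
    have h2 : v * h * v⁻¹ * h⁻¹ = v * (h * v⁻¹ * h⁻¹) := by group
    rw [h2]
    exact V.mul_mem hv (Subgroup.Normal.conj_mem inferInstance _ (V.inv_mem hv) h)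
  have h3 : c * ⁅v, h⁆ * c⁻¹ ∈ V := Subgroup.Normal.conj_mem inferInstance _ h1 c
  have h4 : ⁅c, h⁆ ∈ ⁅X, K⁆ := Subgroup.commutator_mem_commutator hc hh
  have h5 : c * ⁅v, h⁆ * c⁻¹ * ⁅c, h⁆ = ⁅c, h⁆ * (⁅c, h⁆⁻¹ * (c * ⁅v, h⁆ * c⁻¹) * ⁅c, h⁆) := by group
  rw [h5]
  refine Subgroup.mul_mem_sup h4 ?_
  have := Subgroup.Normal.conj_mem (inferInstance : V.Normal) _ h3 ⁅c, h⁆⁻¹
  simpa using this

theorem iterC_sup_le (X V K : Subgroup G) [V.Normal] (n : ℕ) :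
    iterCommutator (X ⊔ V) K n ≤ iterCommutator X K n ⊔ V := by
  induction n with
  | zero => exact le_rfl
  | succ n ih =>
    exact (Subgroup.commutator_mono ih le_rfl).trans (comm_sup_le _ V K)

/-! ### the pairing step -/

theorem exists_stab_subgroup (M B₁ B₀ : Subgroup G) (hMB : ∀ x ∈ M, ∀ c ∈ B₁, ⁅x, c⁆ ∈ B₀)
    {ι : Type*} (𝔘 𝔗 : ι → Subgroup G) (h1 : ∀ k, B₀ ≤ 𝔗 k) (h2 : ∀ k, 𝔗 k ≤ B₁) :
    ∃ D : Subgroup G, ∀ x, x ∈ D ↔ (x ∈ M ∧ ∀ k, ∀ u ∈ 𝔘 k, ⁅x, u⁆ ∈ 𝔗 k) := by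
  refine ⟨{ carrier := {x | x ∈ M ∧ ∀ k, ∀ u ∈ 𝔘 k, ⁅x, u⁆ ∈ 𝔗 k}
            mul_mem' := ?_
            one_mem' := ?_
            inv_mem' := ?_ }, fun x => Iff.rfl⟩
  · rintro x x' ⟨hx, hx2⟩ ⟨hx', hx2'⟩
    refine ⟨M.mul_mem hx hx', fun k u hu => ?_⟩
    have e : ⁅x * x', u⁆ = ⁅x, ⁅x', u⁆⁆ * ⁅x', u⁆ * ⁅x, u⁆ := by
      simp [commutatorElement_def, mul_assoc]
    rw [e]
    exact (𝔗 k).mul_mem ((𝔗 k).mul_mem (h1 k (hMB x hx _ (h2 k (hx2' k u hu)))) (hx2' k u hu))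
      (hx2 k u hu)
  · exact ⟨M.one_mem, fun k u _ => by rw [commutatorElement_one_left]; exact (𝔗 k).one_mem⟩
  · rintro x ⟨hx, hx2⟩
    refine ⟨M.inv_mem hx, fun k u hu => ?_⟩
    have e : ⁅x⁻¹, u⁆ = ⁅x⁻¹, ⁅x, u⁆⁻¹⁆ * ⁅x, u⁆⁻¹ := by
      simp [commutatorElement_def, mul_assoc]
    rw [e]
    have h3 : ⁅x, u⁆⁻¹ ∈ 𝔗 k := (𝔗 k).inv_mem (hx2 k u hu)
    exact (𝔗 k).mul_mem (h1 k (hMB x⁻¹ (M.inv_mem hx) _ (h2 k h3))) h3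

theorem pairing_step (Γ M A A₀ B₁ B₀ : Subgroup G) [M.Normal] [A.Normal] [B₁.Normal] [B₀.Normal]
    (hB₁comm : ∀ b ∈ B₁, ∀ b' ∈ B₁, b * b' = b' * b)
    (hMA : ∀ x ∈ M, ∀ u ∈ A, ⁅x, u⁆ ∈ B₁)
    (hMA₀ : ∀ x ∈ M, ∀ u ∈ A₀, ⁅x, u⁆ ∈ B₀)
    (hMB : ∀ x ∈ M, ∀ c ∈ B₁, ⁅x, c⁆ ∈ B₀)
    (hAB : ∀ u ∈ A, ∀ c ∈ B₁, u * c = c * u)
    (i j : ℕ) (hi : 1 ≤ i) (hA : iterCommutator A Γ i ≤ A₀) (hB : iterCommutator B₁ Γ j ≤ B₀)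
    (hB₀₁ : B₀ ≤ B₁) :
    ∀ x ∈ iterCommutator M Γ (i + j - 1), ∀ u ∈ A, ⁅x, u⁆ ∈ B₀ := by
  obtain ⟨𝔅, h𝔅def⟩ : ∃ 𝔅 : ℕ → Subgroup G, 𝔅 = fun n => iterCommutator B₁ Γ n ⊔ B₀ := ⟨_, rfl⟩
  have h𝔅ge : ∀ n, B₀ ≤ 𝔅 n := fun n => by rw [h𝔅def]; exact le_sup_right
  have h𝔅le : ∀ n, 𝔅 n ≤ B₁ := fun n => by
    rw [h𝔅def]; exact sup_le (iterC_le_self B₁ Γ n) hB₀₁
  have h𝔅anti : ∀ {n m : ℕ}, n ≤ m → 𝔅 m ≤ 𝔅 n := fun {n m} h => by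
    rw [h𝔅def]; exact sup_le_sup_right (iterC_le_of_le B₁ Γ h) B₀
  have h𝔅j : 𝔅 j ≤ B₀ := by rw [h𝔅def]; exact sup_le hB le_rfl
  have h𝔅comm : ∀ n, ∀ c ∈ 𝔅 n, ∀ h ∈ Γ, ⁅h, c⁆ ∈ 𝔅 (n + 1) := by
    intro n c hc h hh
    have h1 : ⁅c, h⁆ ∈ 𝔅 (n + 1) := by
      have h2 : ⁅iterCommutator B₁ Γ n ⊔ B₀, Γ⁆ ≤ ⁅iterCommutator B₁ Γ n, Γ⁆ ⊔ B₀ :=
        comm_sup_le _ B₀ Γ
      rw [h𝔅def] at hc ⊢
      exact h2 (Subgroup.commutator_mem_commutator hc hh)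
    have h3 : ⁅h, c⁆ = ⁅c, h⁆⁻¹ := by simp [commutatorElement_def, mul_assoc]
    rw [h3]
    exact (𝔅 (n + 1)).inv_mem h1
  have h𝔅conj : ∀ n, ∀ c ∈ 𝔅 n, ∀ h ∈ Γ, h * c * h⁻¹ ∈ 𝔅 n := by
    intro n c hc h hh
    have h1 : h * c * h⁻¹ = ⁅h, c⁆ * c := by simp [commutatorElement_def, mul_assoc]
    rw [h1]
    exact (𝔅 n).mul_mem (h𝔅anti (Nat.le_succ n) (h𝔅comm n c hc h hh)) hc
  have h𝔄le : ∀ a, iterCommutator A Γ a ≤ A := fun a => iterC_le_self A Γ a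
  -- the filtration subgroups
  have hD : ∀ m : ℕ, ∃ D : Subgroup G, ∀ x, x ∈ D ↔
      (x ∈ M ∧ ∀ a : ℕ, ∀ u ∈ iterCommutator A Γ a, ⁅x, u⁆ ∈ 𝔅 (m + a - (i - 1))) :=
    fun m => exists_stab_subgroup M B₁ B₀ hMB (fun a => iterCommutator A Γ a)
      (fun a => 𝔅 (m + a - (i - 1))) (fun a => h𝔅ge _) (fun a => h𝔅le _)
  choose D hDmem using hD
  have key : ∀ m, iterCommutator M Γ m ≤ D m := by
    intro m
    induction m with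
    | zero =>
      intro x hx
      rw [hDmem]
      refine ⟨hx, fun a u hu => ?_⟩
      by_cases hai : i ≤ a
      · exact h𝔅ge _ (hMA₀ x hx u (hA (iterC_le_of_le A Γ hai hu)))
      · have h0 : 0 + a - (i - 1) = 0 := by omega
        rw [h0, h𝔅def]
        exact Subgroup.mem_sup_left (hMA x hx u (h𝔄le a hu))
    | succ m ih =>
      change ⁅iterCommutator M Γ m, Γ⁆ ≤ D (m + 1)
      rw [Subgroup.commutator_le]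
      intro x hx h hh
      have hxD := (hDmem m x).mp (ih hx)
      have hxM : x ∈ M := hxD.1
      have hx'M : h * x * h⁻¹ ∈ M := Subgroup.Normal.conj_mem inferInstance x hxM h
      have hyM : ⁅x, h⁆ ∈ M := by
        have e : ⁅x, h⁆ = x * (h * x * h⁻¹)⁻¹ := by simp [commutatorElement_def, mul_assoc]
        rw [e]
        exact M.mul_mem hxM (M.inv_mem hx'M)
      rw [hDmem]
      refine ⟨hyM, fun a u hu => ?_⟩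
      have huA : u ∈ A := h𝔄le a hu
      -- w = u⁻¹ (h⁻¹ u h)
      have hw : ⁅u⁻¹, h⁻¹⁆ ∈ iterCommutator A Γ (a + 1) :=
        Subgroup.commutator_mem_commutator (Subgroup.inv_mem _ hu) (Subgroup.inv_mem _ hh)
      have hwA : ⁅u⁻¹, h⁻¹⁆ ∈ A := h𝔄le _ hw
      have hc : ⁅x, u⁆ ∈ 𝔅 (m + a - (i - 1)) := hxD.2 a u hu
      have he : ⁅x, ⁅u⁻¹, h⁻¹⁆⁆ ∈ 𝔅 (m + (a + 1) - (i - 1)) := hxD.2 (a + 1) _ hw
      have hN : m + (a + 1) - (i - 1) = m + 1 + a - (i - 1) := by omega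
      rw [hN] at he
      have heB : ⁅x, ⁅u⁻¹, h⁻¹⁆⁆ ∈ B₁ := h𝔅le _ he
      have hcB : ⁅x, u⁆ ∈ B₁ := h𝔅le _ hc
      -- c' = [h x h⁻¹, u] = h (c e) h⁻¹
      have hc' : ⁅h * x * h⁻¹, u⁆ = h * (⁅x, u⁆ * ⁅x, ⁅u⁻¹, h⁻¹⁆⁆) * h⁻¹ := by
        have e1 : u * ⁅x, ⁅u⁻¹, h⁻¹⁆⁆ = ⁅x, ⁅u⁻¹, h⁻¹⁆⁆ * u := hAB u huA _ heB
        have e2 : ⁅x, u * ⁅u⁻¹, h⁻¹⁆⁆ = ⁅x, u⁆ * (u * ⁅x, ⁅u⁻¹, h⁻¹⁆⁆ * u⁻¹) := by
          simp [commutatorElement_def, mul_assoc]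
        have e3 : u * ⁅u⁻¹, h⁻¹⁆ = h⁻¹ * u * h := by simp [commutatorElement_def, mul_assoc]
        have e4 : ⁅h * x * h⁻¹, u⁆ = h * ⁅x, h⁻¹ * u * h⁆ * h⁻¹ := by
          simp [commutatorElement_def, mul_assoc]
        rw [e4, ← e3, e2, e1, mul_inv_cancel_right]
      have hconj_c : h * ⁅x, u⁆ * h⁻¹ ∈ B₁ := Subgroup.Normal.conj_mem inferInstance _ hcB h
      have hconj_e : h * ⁅x, ⁅u⁻¹, h⁻¹⁆⁆ * h⁻¹ ∈ 𝔅 (m + 1 + a - (i - 1)) := h𝔅conj _ _ he h hh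
      have hcomm_c : ⁅h, ⁅x, u⁆⁆ ∈ 𝔅 (m + 1 + a - (i - 1)) :=
        h𝔅anti (by omega) (h𝔅comm _ _ hc h hh)
      have hc'B : ⁅h * x * h⁻¹, u⁆ ∈ B₁ := hMA _ hx'M u huA
      -- the main identity
      have e5 : ⁅⁅x, h⁆, u⁆ = ⁅⁅x, h⁆, (⁅h * x * h⁻¹, u⁆)⁻¹⁆ * ((⁅h * x * h⁻¹, u⁆)⁻¹ * ⁅x, u⁆) := by
        simp [commutatorElement_def, mul_assoc]
      have e6 : (⁅h * x * h⁻¹, u⁆)⁻¹ * ⁅x, u⁆
          = (h * ⁅x, ⁅u⁻¹, h⁻¹⁆⁆ * h⁻¹)⁻¹ * (⁅h, ⁅x, u⁆⁆)⁻¹ := by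
        rw [hc']
        have e7 : h * (⁅x, u⁆ * ⁅x, ⁅u⁻¹, h⁻¹⁆⁆) * h⁻¹
            = (h * ⁅x, u⁆ * h⁻¹) * (h * ⁅x, ⁅u⁻¹, h⁻¹⁆⁆ * h⁻¹) := by group
        have e8 : (⁅h, ⁅x, u⁆⁆)⁻¹ = ⁅x, u⁆ * (h * ⁅x, u⁆ * h⁻¹)⁻¹ := by
          simp [commutatorElement_def, mul_assoc]
        rw [e7, e8, mul_inv_rev, mul_assoc]
        congr 1
        exact hB₁comm _ (B₁.inv_mem hconj_c) _ hcB
      rw [e5, e6]
      refine (𝔅 _).mul_mem (h𝔅ge _ (hMB _ hyM _ (B₁.inv_mem hc'B))) ?_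
      exact (𝔅 _).mul_mem ((𝔅 _).inv_mem hconj_e) ((𝔅 _).inv_mem hcomm_c)
  intro x hx u hu
  have h1 := ((hDmem _ x).mp (key _ hx)).2 0 u hu
  have h2 : i + j - 1 + 0 - (i - 1) = j := by omega
  rw [h2] at h1
  exact h𝔅j h1

end Cfsg.Agent.H39
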