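import Mathlib
import Cfsg.Agent.H39.ChiefLift

/-!
# helper39: chains of normal subgroups with bounded commutator degree, and the critical
subgroup lemma (degrees `i` in `Q`, `j` in `Z(Q)` give `i + j - 1` in `P`)
-/

set_option autoImplicit false

namespace Cfsg.Agent.H39

open scoped commutatorElement
open Cfsg Relation

variable {G : Type*} [Group G]

/-- the elements of `L` centralizing `E` modulo (the normal core of) `B` -/
def cstab (L E B : Subgroup G) : Subgroup G where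
  carrier := {x | x ∈ L ∧ ∀ e ∈ E, ⁅x, e⁆ ∈ B.normalCore}
  one_mem' := ⟨L.one_mem, fun e _ => by rw [commutatorElement_one_left]; exact Subgroup.one_mem _⟩
  mul_mem' := by
    rintro x x' ⟨hx, hx2⟩ ⟨hx', hx2'⟩
    refine ⟨L.mul_mem hx hx', fun e he => ?_⟩
    have h : ⁅x * x', e⁆ = x * ⁅x', e⁆ * x⁻¹ * ⁅x, e⁆ := by
      simp [commutatorElement_def, mul_assoc]
    rw [h]
    exact Subgroup.mul_mem _ (Subgroup.Normal.conj_mem inferInstance _ (hx2' e he) x) (hx2 e he)
  inv_mem' := by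
    rintro x ⟨hx, hx2⟩
    refine ⟨L.inv_mem hx, fun e he => ?_⟩
    have h : ⁅x⁻¹, e⁆ = x⁻¹ * ⁅x, e⁆⁻¹ * x⁻¹⁻¹ := by
      simp [commutatorElement_def, mul_assoc]
    rw [h]
    exact Subgroup.Normal.conj_mem inferInstance _ (Subgroup.inv_mem _ (hx2 e he)) x⁻¹

theorem mem_cstab {L E B : Subgroup G} [B.Normal] {x : G} :
    x ∈ cstab L E B ↔ x ∈ L ∧ ∀ e ∈ E, ⁅x, e⁆ ∈ B := by
  change (x ∈ L ∧ ∀ e ∈ E, ⁅x, e⁆ ∈ B.normalCore) ↔ _
  rw [Subgroup.normalCore_eq_self]

theorem cstab_le (L E B : Subgroup G) : cstab L E B ≤ L := fun _ hx => hx.1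

instance cstab_normal (L E B : Subgroup G) [L.Normal] [E.Normal] : (cstab L E B).Normal := by
  constructor
  rintro x ⟨hx, hx2⟩ g
  refine ⟨Subgroup.Normal.conj_mem inferInstance x hx g, fun e he => ?_⟩
  have h : ⁅g * x * g⁻¹, e⁆ = g * ⁅x, g⁻¹ * e * g⁻¹⁻¹⁆ * g⁻¹ := by
    simp [commutatorElement_def, mul_assoc]
  rw [h]
  exact Subgroup.Normal.conj_mem inferInstance _
    (hx2 _ (Subgroup.Normal.conj_mem inferInstance e he g⁻¹)) g

theorem cstab_mono_right (L E : Subgroup G) {B B' : Subgroup G} (h : B ≤ B') :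
    cstab L E B ≤ cstab L E B' :=
  fun _ hx => ⟨hx.1, fun e he => Subgroup.normalCore_mono h (hx.2 e he)⟩

theorem cstab_anti_mid (L : Subgroup G) {E E' : Subgroup G} (h : E ≤ E') (B : Subgroup G) :
    cstab L E' B ≤ cstab L E B :=
  fun _ hx => ⟨hx.1, fun e he => hx.2 e (h he)⟩

/-- a step of a chain of normal subgroups on which `Γ` has commutator degree at most `n` -/
def RStep (Γ : Subgroup G) (n : ℕ) (X Y : Subgroup G) : Prop :=
  X ≤ Y ∧ X.Normal ∧ Y.Normal ∧ iterCommutator Y Γ n ≤ X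

/-- a chief step between `lo` and `hi` of degree at most `d` -/
def CStep (lo hi Γ : Subgroup G) (d : ℕ) (X Y : Subgroup G) : Prop :=
  lo ≤ X ∧ Y ≤ hi ∧ X ≤ Y ∧ X.Normal ∧ Y.Normal ∧ iterCommutator Y Γ d ≤ X ∧ IsChiefFactor Y X

theorem RStep.mono {Γ : Subgroup G} {n m : ℕ} (h : n ≤ m) {X Y : Subgroup G}
    (hs : RStep Γ n X Y) : RStep Γ m X Y := by
  obtain ⟨h1, h2, h3, h4⟩ := hs
  haveI := h3
  exact ⟨h1, h2, h3, (iterC_le_of_le Y Γ h).trans h4⟩

theorem rchain_mono {Γ : Subgroup G} {n m : ℕ} (h : n ≤ m) {X Y : Subgroup G}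
    (hc : ReflTransGen (RStep Γ n) X Y) : ReflTransGen (RStep Γ m) X Y :=
  ReflTransGen.mono (fun _ _ hs => RStep.mono h hs) _ _ hc

theorem rchain_of_cchain {lo hi Γ : Subgroup G} {d : ℕ} {X Y : Subgroup G}
    (hc : ReflTransGen (CStep lo hi Γ d) X Y) : ReflTransGen (RStep Γ d) X Y :=
  ReflTransGen.mono (p := RStep Γ d)
    (fun _ _ hs => ⟨hs.2.2.1, hs.2.2.2.1, hs.2.2.2.2.1, hs.2.2.2.2.2.1⟩) _ _ hc

/-- chief series exist between two normal subgroups -/
theorem exists_chief_chain [Finite G] (Γ : Subgroup G) (d : ℕ) (lo hi : Subgroup G)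
    (hd : ∀ U V : Subgroup G, IsChiefFactor U V → U ≤ hi → iterCommutator U Γ d ≤ V)
    (hhi : hi.Normal) :
    ∀ X : Subgroup G, X.Normal → lo ≤ X → X ≤ hi → ReflTransGen (CStep lo hi Γ d) X hi := by
  intro X
  obtain ⟨n, hn⟩ : ∃ n, Nat.card hi - Nat.card X = n := ⟨_, rfl⟩
  induction n using Nat.strong_induction_on generalizing X with
  | _ n ih =>
  intro hXn hloX hXhi
  by_cases hX : X = hi
  · rw [hX]
  · have hlt : X < hi := lt_of_le_of_ne hXhi hX
    obtain ⟨Y, ⟨hYn, hXY, hYhi⟩, hYmin⟩ := Set.exists_min_image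
      {Y : Subgroup G | Y.Normal ∧ X < Y ∧ Y ≤ hi} (fun Y => Nat.card Y) (Set.toFinite _)
      ⟨hi, hhi, hlt, le_rfl⟩
    have hchief : IsChiefFactor Y X := by
      refine ⟨hXY, hYn, hXn, fun N hN hXN hNY => ?_⟩
      by_cases hNX : N = X
      · exact Or.inl hNX
      · right
        have h1 : X < N := lt_of_le_of_ne hXN (Ne.symm hNX)
        exact Subgroup.eq_of_le_of_card_ge hNY (hYmin N ⟨hN, h1, hNY.trans hYhi⟩)
    have hstep : CStep lo hi Γ d X Y :=
      ⟨hloX, hYhi, hXY.le, hXn, hYn, hd Y X hchief hYhi, hchief⟩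
    have hcard1 : Nat.card X < Nat.card Y := by
      by_contra hcon
      push Not at hcon
      exact (ne_of_lt hXY) (Subgroup.eq_of_le_of_card_ge hXY.le hcon)
    have hcard2 : Nat.card Y ≤ Nat.card hi := Subgroup.card_le_of_le hYhi
    exact ReflTransGen.head hstep
      (ih (Nat.card hi - Nat.card Y) (by omega) Y rfl hYn (hloX.trans hXY.le) hYhi)

/-- Jordan–Hölder: the degree bound on a chain passes to every chief factor -/
theorem chief_of_chain (Γ : Subgroup G) (n : ℕ) {U V : Subgroup G} (hUV : IsChiefFactor U V)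
    {N₀ N' : Subgroup G} (hch : ReflTransGen (RStep Γ n) N₀ N') (h1 : U ≤ N') :
    U ⊓ N₀ ≤ V → iterCommutator U Γ n ≤ V := by
  obtain ⟨hVU, hUn, hVn, hmin⟩ := hUV
  induction hch using ReflTransGen.head_induction_on with
  | refl =>
    intro h0
    exact absurd (le_trans (le_inf le_rfl h1) h0) (not_le_of_gt hVU)
  | @head N₀ N₁ hstep _ ih =>
    intro h0
    by_cases h : U ⊓ N₁ ≤ V
    · exact ih h
    · obtain ⟨hle, hN₀n, hN₁n, hdeg⟩ := hstep
      haveI := hUn
      haveI := hVn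
      haveI := hN₁n
      have hnorm : ((U ⊓ N₁) ⊔ V).Normal := inferInstance
      have hUeq : (U ⊓ N₁) ⊔ V = U := by
        rcases hmin _ hnorm le_sup_right (sup_le inf_le_left hVU.le) with h2 | h2
        · exact absurd (h2 ▸ le_sup_left) h
        · exact h2
      have h3 : iterCommutator U Γ n ≤ iterCommutator (U ⊓ N₁) Γ n ⊔ V := by
        conv_lhs => rw [← hUeq]
        exact iterC_sup_le _ V Γ n
      refine h3.trans (sup_le ?_ le_rfl)
      refine le_trans (le_inf ?_ ?_) h0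
      · exact (iterC_mono inf_le_left Γ n).trans (iterC_le_self U Γ n)
      · exact (iterC_mono inf_le_right Γ n).trans hdeg

/-- one layer: a chain from `C_L(E)` to `L` -/
theorem layer (Γ L E E₀ W : Subgroup G) [L.Normal] [E.Normal]
    (hLE : ∀ x ∈ L, ∀ e ∈ E, ⁅x, e⁆ ∈ W)
    (hLE₀ : ∀ x ∈ L, ∀ e ∈ E₀, ⁅x, e⁆ = 1)
    (hEW : ∀ e ∈ E, ∀ c ∈ W, e * c = c * e)
    (hWcomm : ∀ c ∈ W, ∀ c' ∈ W, c * c' = c' * c)
    (a b : ℕ) (ha : 1 ≤ a)
    (hsrc : ReflTransGen (CStep E₀ E Γ a) E₀ E)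
    (htgt : ReflTransGen (CStep ⊥ W Γ b) ⊥ W)
    (htriv : ∀ B₀ B₁ : Subgroup G, CStep ⊥ W Γ b B₀ B₁ → ∀ x ∈ L, ∀ c ∈ B₁, ⁅x, c⁆ ∈ B₀)
    (hWn : W.Normal) :
    ReflTransGen (RStep Γ (a + b - 1)) (cstab L E ⊥) L := by
  -- the inner chain for a fixed target step
  have inner : ∀ B₀ B₁ : Subgroup G, CStep ⊥ W Γ b B₀ B₁ →
      ReflTransGen (RStep Γ (a + b - 1)) (cstab L E B₀) (cstab L E B₁) := by
    intro B₀ B₁ hB
    have htr := htriv B₀ B₁ hB
    obtain ⟨-, hB₁W, hB₀₁, hB₀n, hB₁n, hBdeg, -⟩ := hB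
    haveI := hB₀n
    haveI := hB₁n
    have key : ∀ A' : Subgroup G, ReflTransGen (CStep E₀ E Γ a) E₀ A' →
        ReflTransGen (RStep Γ (a + b - 1)) (cstab L E B₁ ⊓ cstab L A' B₀)
          (cstab L E B₁ ⊓ cstab L E₀ B₀) := by
      intro A' hA'
      induction hA' with
      | refl => exact ReflTransGen.refl
      | @tail A₀' A₁' _ hstep ih =>
        obtain ⟨-, hA₁E, hA₀₁, hA₀n, hA₁n, hAdeg, -⟩ := hstep
        haveI := hA₀n
        haveI := hA₁n
        refine ReflTransGen.head ?_ ih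
        refine ⟨inf_le_inf_left _ (cstab_anti_mid L hA₀₁ B₀), inferInstance, inferInstance, ?_⟩
        intro x hx
        have hxM : x ∈ cstab L E B₁ ⊓ cstab L A₀' B₀ := iterC_le_self _ Γ _ hx
        refine Subgroup.mem_inf.mpr ⟨(Subgroup.mem_inf.mp hxM).1, ?_⟩
        rw [mem_cstab]
        refine ⟨(Subgroup.mem_inf.mp hxM).1.1, ?_⟩
        refine pairing_step Γ (cstab L E B₁ ⊓ cstab L A₀' B₀) A₁' A₀' B₁ B₀ ?_ ?_ ?_ ?_ ?_ a b ha
          hAdeg hBdeg hB₀₁ x hx
        · exact fun c hc c' hc' => hWcomm c (hB₁W hc) c' (hB₁W hc')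
        · intro y hy u hu
          exact (mem_cstab.mp (Subgroup.mem_inf.mp hy).1).2 u (hA₁E hu)
        · intro y hy u hu
          exact (mem_cstab.mp (Subgroup.mem_inf.mp hy).2).2 u hu
        · intro y hy c hc
          exact htr y (Subgroup.mem_inf.mp hy).1.1 c hc
        · exact fun u hu c hc => hEW u (hA₁E hu) c (hB₁W hc)
    have h1 := key E hsrc
    have e1 : cstab L E B₁ ⊓ cstab L E B₀ = cstab L E B₀ :=
      inf_eq_right.mpr (cstab_mono_right L E hB₀₁)
    have e2 : cstab L E B₁ ⊓ cstab L E₀ B₀ = cstab L E B₁ := by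
      apply inf_eq_left.mpr
      intro x hx
      rw [mem_cstab]
      exact ⟨hx.1, fun e he => by rw [hLE₀ x hx.1 e he]; exact B₀.one_mem⟩
    rwa [e1, e2] at h1
  have outer : ∀ B : Subgroup G, ReflTransGen (CStep ⊥ W Γ b) ⊥ B →
      ReflTransGen (RStep Γ (a + b - 1)) (cstab L E ⊥) (cstab L E B) := by
    intro B hB
    induction hB with
    | refl => exact ReflTransGen.refl
    | tail _ hstep ih => exact ih.trans (inner _ _ hstep)
  have h1 := outer W htgt
  have e : cstab L E W = L := by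
    apply le_antisymm (cstab_le L E W)
    intro x hx
    haveI := hWn
    rw [mem_cstab]
    exact ⟨hx, hLE x hx⟩
  rwa [e] at h1

/-- a normal `p`-subgroup centralizes every chief factor inside it -/
theorem chief_comm_le [Finite G] {p : ℕ} [Fact p.Prime] (P : Subgroup G) [P.Normal]
    (hP : IsPGroup p P) {U V : Subgroup G} (hUV : IsChiefFactor U V) (hU : U ≤ P) :
    ⁅U, P⁆ ≤ V := by
  obtain ⟨hVU, hUn, hVn, hmin⟩ := hUV
  haveI := hUn
  haveI := hVn
  by_contra hcon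
  have hnorm : (⁅U, P⁆ ⊔ V).Normal := inferInstance
  have hUeq : ⁅U, P⁆ ⊔ V = U := by
    rcases hmin _ hnorm le_sup_right (sup_le (Subgroup.commutator_le_left U P) hVU.le) with h | h
    · exact absurd (h ▸ le_sup_left) hcon
    · exact h
  have hiter : ∀ n, U ≤ iterCommutator U P n ⊔ V := by
    intro n
    induction n with
    | zero => exact le_sup_left
    | succ n ih =>
      calc U = ⁅U, P⁆ ⊔ V := hUeq.symm
        _ ≤ ⁅iterCommutator U P n ⊔ V, P⁆ ⊔ V := sup_le_sup_right (Subgroup.commutator_mono ih le_rfl) V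
        _ ≤ (⁅iterCommutator U P n, P⁆ ⊔ V) ⊔ V := sup_le_sup_right (comm_sup_le _ V P) V
        _ = iterCommutator U P (n + 1) ⊔ V := by rw [sup_assoc, sup_idem]; rfl
  -- nilpotency of `P`
  haveI : Group.IsNilpotent P := hP.isNilpotent
  obtain ⟨n, hn⟩ := (Subgroup.isNilpotent_iff_lowerCentralSeries P).mp inferInstance
  have hlcs : ∀ k, iterCommutator P P k = P.lowerCentralSeries k := by
    intro k
    induction k with
    | zero => rfl
    | succ k ih =>
      change ⁅iterCommutator P P k, P⁆ = _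
      rw [ih]
      rfl
  have h1 : iterCommutator U P n = ⊥ := by
    have h2 := iterC_mono hU P n
    rw [hlcs n, hn] at h2
    exact le_bot_iff.mp h2
  have h3 := hiter n
  rw [h1, bot_sup_eq] at h3
  exact absurd h3 (not_le_of_gt hVU)

end Cfsg.Agent.H39
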