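import Mathlib
import Cfsg.Agent.H39.ChiefLift2

/-!
# helper39: the critical subgroup lemma for commutator degrees on chief factors
-/

set_option autoImplicit false

namespace Cfsg.Agent.H39

open scoped commutatorElement
open Cfsg Relation

variable {G : Type*} [Group G]

/-- If `g` has commutator degree `≤ i` on the chief factors of `G` inside the normal subgroup `Q`
and `≤ j` on those inside `Z(Q)`, where `Q ≤ P`, `[P, Q] ≤ Z(Q)`, `C_P(Q) = Z(Q)` and `P` is a normal
`p`-subgroup, then `g` has degree `≤ i + j - 1` on all chief factors inside `P`. -/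
theorem critical_lift [Finite G] {p : ℕ} [Fact p.Prime] (P : Subgroup G) [P.Normal]
    (hP : IsPGroup p ↥P) (Q : Subgroup G) (hQP : Q ≤ P) (hQn : Q.Normal)
    (hQ3 : ⁅P, Q⁆ ≤ Q ⊓ Subgroup.centralizer (Q : Set G))
    (hQ4 : P ⊓ Subgroup.centralizer (Q : Set G) = Q ⊓ Subgroup.centralizer (Q : Set G))
    (g : G) (i j : ℕ) (hi : 1 ≤ i) (hj : 1 ≤ j)
    (hQi : ∀ U V : Subgroup G, IsChiefFactor U V → U ≤ Q →
      iterCommutator U (Subgroup.zpowers g) i ≤ V)
    (hZj : ∀ U V : Subgroup G, IsChiefFactor U V → U ≤ Q ⊓ Subgroup.centralizer (Q : Set G) →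
      iterCommutator U (Subgroup.zpowers g) j ≤ V) :
    ∀ U V : Subgroup G, IsChiefFactor U V → U ≤ P →
      iterCommutator U (Subgroup.zpowers g) (i + j - 1) ≤ V := by
  haveI := hQn
  obtain ⟨Γ, hΓ⟩ : ∃ Γ : Subgroup G, Γ = Subgroup.zpowers g := ⟨_, rfl⟩
  obtain ⟨Z, hZ⟩ : ∃ Z : Subgroup G, Z = Q ⊓ Subgroup.centralizer (Q : Set G) := ⟨_, rfl⟩
  rw [← hΓ] at hQi hZj ⊢
  rw [← hZ] at hQ3 hQ4 hZj
  have hZn : Z.Normal := by rw [hZ]; infer_instance
  haveI := hZn
  have hZQ : Z ≤ Q := by rw [hZ]; exact inf_le_left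
  have hZcent : ∀ c ∈ Z, ∀ e ∈ Q, e * c = c * e := by
    intro c hc e he
    rw [hZ] at hc
    exact Subgroup.mem_centralizer_iff.mp (Subgroup.mem_inf.mp hc).2 e he
  have hZcomm : ∀ c ∈ Z, ∀ c' ∈ Z, c * c' = c' * c := fun c hc c' hc' => hZcent c' hc' c (hZQ hc)
  obtain ⟨j', hj'⟩ : ∃ j' : ℕ, j' = min i j := ⟨_, rfl⟩
  have hj'i : j' ≤ i := hj' ▸ min_le_left i j
  have hj'j : j' ≤ j := hj' ▸ min_le_right i j
  have hj'1 : 1 ≤ j' := hj' ▸ le_min hi hj
  have hZj' : ∀ U V : Subgroup G, IsChiefFactor U V → U ≤ Z → iterCommutator U Γ j' ≤ V := by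
    intro U V hc hU
    rcases le_total i j with h | h
    · rw [hj', min_eq_left h]; exact hQi U V hc (hU.trans hZQ)
    · rw [hj', min_eq_right h]; exact hZj U V hc hU
  have chZ := exists_chief_chain Γ j' ⊥ Z hZj' hZn ⊥ inferInstance bot_le bot_le
  have chQ := exists_chief_chain Γ i Z Q hQi hQn Z hZn le_rfl hZQ
  -- layer 1
  have hP₁ : ∀ x ∈ P ⊓ Subgroup.centralizer (Z : Set G), ∀ c ∈ Z, ⁅x, c⁆ = 1 := by
    intro x hx c hc
    rw [commutatorElement_eq_one_iff_mul_comm]
    exact (Subgroup.mem_centralizer_iff.mp (Subgroup.mem_inf.mp hx).2 c hc).symm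
  have L1 := layer Γ (P ⊓ Subgroup.centralizer (Z : Set G)) Q Z Z
    (fun x hx e he => hQ3 (Subgroup.commutator_mem_commutator (Subgroup.mem_inf.mp hx).1 he))
    hP₁ (fun e he c hc => hZcent c hc e he) hZcomm i j' hi chQ chZ
    (fun B₀ B₁ hB x hx c hc => by rw [hP₁ x hx c (hB.2.1 hc)]; exact B₀.one_mem) hZn
  have e1 : cstab (P ⊓ Subgroup.centralizer (Z : Set G)) Q ⊥ = Z := by
    ext x
    rw [mem_cstab]
    constructor
    · rintro ⟨hx, hx2⟩
      rw [← hQ4]
      refine Subgroup.mem_inf.mpr ⟨(Subgroup.mem_inf.mp hx).1, ?_⟩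
      rw [Subgroup.mem_centralizer_iff]
      intro e he
      have := hx2 e he
      rw [Subgroup.mem_bot, commutatorElement_eq_one_iff_mul_comm] at this
      exact this.symm
    · intro hx
      refine ⟨Subgroup.mem_inf.mpr ⟨hQP (hZQ hx), ?_⟩, fun e he => ?_⟩
      · rw [Subgroup.mem_centralizer_iff]
        exact fun c hc => hZcomm c hc x hx
      · rw [Subgroup.mem_bot, commutatorElement_eq_one_iff_mul_comm]
        exact (hZcent x hx e he).symm
  rw [e1] at L1
  -- layer 2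
  have L2 := layer Γ P Z ⊥ Z
    (fun x _ e he => by
      rw [commutatorElement_def]
      exact Z.mul_mem (Subgroup.Normal.conj_mem inferInstance e he x) (Z.inv_mem he))
    (fun x _ e he => by rw [Subgroup.mem_bot.mp he, commutatorElement_one_right])
    hZcomm hZcomm j' j' hj'1 chZ chZ
    (fun B₀ B₁ hB x hx c hc => by
      have h1 := chief_comm_le P hP hB.2.2.2.2.2.2 (hB.2.1.trans (hZQ.trans hQP))
      have h2 : ⁅c, x⁆ ∈ B₀ := h1 (Subgroup.commutator_mem_commutator hc hx)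
      rw [← commutatorElement_inv]
      exact B₀.inv_mem h2) hZn
  have e2 : cstab P Z ⊥ = P ⊓ Subgroup.centralizer (Z : Set G) := by
    ext x
    rw [mem_cstab, Subgroup.mem_inf, Subgroup.mem_centralizer_iff]
    constructor
    · rintro ⟨hx, hx2⟩
      refine ⟨hx, fun c hc => ?_⟩
      have := hx2 c hc
      rw [Subgroup.mem_bot, commutatorElement_eq_one_iff_mul_comm] at this
      exact this.symm
    · rintro ⟨hx, hx2⟩
      refine ⟨hx, fun c hc => ?_⟩
      rw [Subgroup.mem_bot, commutatorElement_eq_one_iff_mul_comm]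
      exact (hx2 c hc).symm
  rw [e2] at L2
  have chain0 : ReflTransGen (RStep Γ j') ⊥ Z := rchain_of_cchain chZ
  have total : ReflTransGen (RStep Γ (i + j - 1)) ⊥ P :=
    (rchain_mono (by omega) chain0).trans
      ((rchain_mono (by omega) L1).trans (rchain_mono (by omega) L2))
  intro U V hUV hU
  exact chief_of_chain Γ (i + j - 1) hUV total hU (by simp)

end Cfsg.Agent.H39
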