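import Mathlib
import Cfsg.Agent.H75.ESDefs

/-!
# S6002-GRP3 (helper39, for helper75): the second centre cannot have order four with
`G / Z_2(G)` non-abelian.

A commutator commutes with every element of the second centre, so `Z_3 = Z_2 ∪ k Z_2`
(`k` a commutator outside `Z_2`) is abelian of order eight, hence cyclic, against `x ^ 4 = 1`.
-/

set_option autoImplicit false

namespace Cfsg.Agent.H39.ES

open Cfsg.Agent.H75.ES

universe u

theorem conj_central {G : Type u} [Group G] (a w : G) (h : ∀ g : G, g * a = a * g) :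
    a * w * a⁻¹ = w := by
  rw [← h w, mul_inv_cancel_right]

/-- A commutator commutes with every element of the second centre. -/
theorem comm_of_mem_z2 {G : Type u} [Group G] (c : G)
    (hc : c ∈ Subgroup.upperCentralSeries G 2) (x y : G) :
    c * (x * y * x⁻¹ * y⁻¹) = (x * y * x⁻¹ * y⁻¹) * c := by
  have h1 : ∀ g : G, c * g * c⁻¹ * g⁻¹ ∈ Subgroup.center G := by
    intro g
    have := (Subgroup.mem_upperCentralSeries_succ_iff (n := 1)).1 hc g
    rwa [Subgroup.upperCentralSeries_one, commutatorElement_def] at this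
  have hA := Subgroup.mem_center_iff.1 (h1 x)
  have hB := Subgroup.mem_center_iff.1 (h1 y)
  set a := c * x * c⁻¹ * x⁻¹ with ha
  set b := c * y * c⁻¹ * y⁻¹ with hb
  have hcx : c * x * c⁻¹ = a * x := by rw [ha]; group
  have hcy : c * y * c⁻¹ = b * y := by rw [hb]; group
  have key : (a * x) * (b * y) * (a * x)⁻¹ * (b * y)⁻¹ = x * y * x⁻¹ * y⁻¹ := by
    have e1 : (a * x) * (b * y) * (a * x)⁻¹ * (b * y)⁻¹
        = (a * (x * (b * y) * x⁻¹) * a⁻¹) * (b * y)⁻¹ := by group
    rw [e1, conj_central a _ hA]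
    have e2 : x * (b * y) * x⁻¹ * (b * y)⁻¹ = x * (b * (y * x⁻¹ * y⁻¹) * b⁻¹) := by group
    rw [e2, conj_central b _ hB]
    group
  calc c * (x * y * x⁻¹ * y⁻¹)
      = (c * x * c⁻¹) * (c * y * c⁻¹) * (c * x * c⁻¹)⁻¹ * (c * y * c⁻¹)⁻¹ * c := by group
    _ = (a * x) * (b * y) * (a * x)⁻¹ * (b * y)⁻¹ * c := by rw [hcx, hcy]
    _ = (x * y * x⁻¹ * y⁻¹) * c := by rw [key]

theorem grp3 : StGrp3.{u} := by
  intro G _ _ hG h4 hna
  classical
  have : Fact (Nat.Prime 2) := ⟨Nat.prime_two⟩
  set Z2 := Subgroup.upperCentralSeries G 2 with hZ2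
  set Z3 := Subgroup.upperCentralSeries G 3 with hZ3
  have hcomm2 : IsMulCommutative Z2 :=
    IsPGroup.isMulCommutative_of_card_eq_prime_sq (p := 2) (by rw [h4]; norm_num)
  -- the quotient by `Z2`
  have hQ8 : Nat.card (G ⧸ Z2) = 8 := by
    have := Subgroup.card_eq_card_quotient_mul_card_subgroup Z2
    rw [hG.card, h4] at this
    omega
  have hQnc : ¬ ∀ a b : G ⧸ Z2, a * b = b * a := by
    intro hab
    apply hna
    intro x y
    rw [← QuotientGroup.eq_one_iff]
    have := hab (x : G ⧸ Z2) (y : G ⧸ Z2)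
    simp only [QuotientGroup.mk_mul, QuotientGroup.mk_inv]
    rw [this]
    group
  have hpQ : IsPGroup 2 (G ⧸ Z2) := IsPGroup.of_card (n := 3) (by rw [hQ8]; norm_num)
  have : Nontrivial (G ⧸ Z2) := by
    apply (Finite.one_lt_card_iff_nontrivial).1
    rw [hQ8]; norm_num
  have hc2 : Nat.card (Subgroup.center (G ⧸ Z2)) = 2 := by
    have hnt := hpQ.center_nontrivial
    have h1 : Nat.card (Subgroup.center (G ⧸ Z2)) ≠ 1 := by
      intro h
      have := (Finite.one_lt_card_iff_nontrivial).2 hnt
      omega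
    have hd : Nat.card (Subgroup.center (G ⧸ Z2)) ∣ 8 := by
      rw [← hQ8]; exact Subgroup.card_subgroup_dvd_card _
    have h8 : Nat.card (Subgroup.center (G ⧸ Z2)) ≠ 8 := by
      intro h
      have htop : Subgroup.center (G ⧸ Z2) = ⊤ :=
        (Subgroup.card_eq_iff_eq_top _).1 (by rw [h, hQ8])
      apply hQnc
      intro a b
      have hb : b ∈ Subgroup.center (G ⧸ Z2) := by rw [htop]; trivial
      exact Subgroup.mem_center_iff.1 hb a
    have h4' : Nat.card (Subgroup.center (G ⧸ Z2)) ≠ 4 := by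
      intro h
      have hq : Nat.card ((G ⧸ Z2) ⧸ Subgroup.center (G ⧸ Z2)) = 2 := by
        have := Subgroup.card_eq_card_quotient_mul_card_subgroup (Subgroup.center (G ⧸ Z2))
        rw [hQ8, h] at this
        omega
      have : IsCyclic ((G ⧸ Z2) ⧸ Subgroup.center (G ⧸ Z2)) := isCyclic_of_prime_card (p := 2) hq
      apply hQnc
      exact ((QuotientGroup.mk' (Subgroup.center (G ⧸ Z2))).isMulCommutative_of_isCyclic_of_ker_le_center
        (by rw [QuotientGroup.ker_mk'])).is_comm.comm
    have hle : Nat.card (Subgroup.center (G ⧸ Z2)) ≤ 8 := Nat.le_of_dvd (by norm_num) hd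
    have hpos : 0 < Nat.card (Subgroup.center (G ⧸ Z2)) := Nat.card_pos
    interval_cases hh : Nat.card (Subgroup.center (G ⧸ Z2)) <;> simp_all
  -- `Z3` has order eight
  have hZ3eq : Z3 = Subgroup.comap (QuotientGroup.mk' Z2) (Subgroup.center (G ⧸ Z2)) :=
    Subgroup.upperCentralSeriesStep_eq_comap_center Z2
  have hZ3card : Nat.card Z3 = 8 := by
    have hidx : Z3.index = (Subgroup.center (G ⧸ Z2)).index := by
      rw [hZ3eq]
      exact Subgroup.index_comap_of_surjective _ (QuotientGroup.mk'_surjective Z2)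
    have h1 := Subgroup.index_mul_card (Subgroup.center (G ⧸ Z2))
    rw [hc2, hQ8] at h1
    have h2 := Subgroup.index_mul_card Z3
    rw [hidx, hG.card] at h2
    have : (Subgroup.center (G ⧸ Z2)).index = 4 := by omega
    rw [this] at h2
    omega
  -- a commutator outside `Z2`
  push Not at hna
  obtain ⟨x, y, hk⟩ := hna
  set k := x * y * x⁻¹ * y⁻¹ with hkdef
  have hkZ3 : k ∈ Z3 := by
    have hq : Nat.card (G ⧸ Z3) = 2 ^ 2 := by
      have := Subgroup.card_eq_card_quotient_mul_card_subgroup Z3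
      rw [hG.card, hZ3card] at this
      omega
    have hc := IsPGroup.isMulCommutative_of_card_eq_prime_sq (p := 2) hq
    rw [← QuotientGroup.eq_one_iff]
    have := hc.is_comm.comm (x : G ⧸ Z3) (y : G ⧸ Z3)
    rw [hkdef]
    simp only [QuotientGroup.mk_mul, QuotientGroup.mk_inv]
    rw [this]
    group
  have hZ23 : Z2 ≤ Z3 := Subgroup.upperCentralSeries_mono G (by norm_num)
  -- the subgroup generated by `Z2` and `k`
  set S : Set G := (Z2 : Set G) ∪ {k} with hS
  have hScomm : ∀ a ∈ S, ∀ b ∈ S, a * b = b * a := by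
    intro a ha b hb
    rcases ha with ha | ha <;> rcases hb with hb | hb
    · have := hcomm2.is_comm.comm (⟨a, ha⟩ : Z2) ⟨b, hb⟩
      exact congrArg Subtype.val this
    · rw [Set.mem_singleton_iff] at hb
      rw [hb]; exact comm_of_mem_z2 a ha x y
    · rw [Set.mem_singleton_iff] at ha
      rw [ha]; exact (comm_of_mem_z2 b hb x y).symm
    · rw [Set.mem_singleton_iff] at ha hb
      rw [ha, hb]
  set K := Subgroup.closure S with hK
  have hKle : K ≤ Z3 := by
    rw [hK, Subgroup.closure_le]
    intro a ha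
    rcases ha with ha | ha
    · exact hZ23 ha
    · rw [Set.mem_singleton_iff] at ha
      rw [ha]; exact hkZ3
  have hZ2K : Z2 ≤ K := fun a ha => Subgroup.subset_closure (Or.inl ha)
  have hkK : k ∈ K := Subgroup.subset_closure (Or.inr rfl)
  have hKcard : Nat.card K = 8 := by
    have hd : Nat.card K ∣ 8 := by rw [← hZ3card]; exact Subgroup.card_dvd_of_le hKle
    have hd2 : 4 ∣ Nat.card K := by rw [← h4]; exact Subgroup.card_dvd_of_le hZ2K
    have hne : Nat.card K ≠ 4 := by
      intro h
      have : Z2 = K := Subgroup.eq_of_le_of_card_ge hZ2K (by rw [h, h4])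
      exact hk (by rw [this]; exact hkK)
    have hle : Nat.card K ≤ 8 := Nat.le_of_dvd (by norm_num) hd
    interval_cases hh : Nat.card K <;> simp_all
  have hKeq : K = Z3 := Subgroup.eq_of_le_of_card_ge hKle (by rw [hKcard, hZ3card])
  have hKcomm : ∀ a ∈ K, ∀ b ∈ K, a * b = b * a := by
    intro a ha b hb
    have h1 : K ≤ Subgroup.centralizer S := by
      rw [hK, Subgroup.closure_le]
      intro u hu
      rw [SetLike.mem_coe, Subgroup.mem_centralizer_iff]
      intro s hs
      exact hScomm s hs u hu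
    have h2 : K ≤ Subgroup.centralizer {b} := by
      rw [hK, Subgroup.closure_le]
      intro u hu
      rw [SetLike.mem_coe, Subgroup.mem_centralizer_iff]
      intro s hs
      rw [Set.mem_singleton_iff] at hs
      rw [hs]
      exact (Subgroup.mem_centralizer_iff.1 (h1 hb) u hu).symm
    have := Subgroup.mem_centralizer_iff.1 (h2 ha) b rfl
    exact this.symm
  have hcomm3 : IsMulCommutative Z3 := by
    refine ⟨⟨fun a b => ?_⟩⟩
    have ha : (a : G) ∈ K := by rw [hKeq]; exact a.2
    have hb : (b : G) ∈ K := by rw [hKeq]; exact b.2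
    exact Subtype.ext (hKcomm a ha b hb)
  have hcyc3 : IsCyclic Z3 := hG.char Z3 inferInstance hcomm3
  obtain ⟨g, hg⟩ := hcyc3.exists_generator
  have ho : orderOf g = 8 := by rw [orderOf_eq_card_of_forall_mem_zpowers hg, hZ3card]
  have hg4 : g ^ 4 = 1 := Subtype.ext (by simpa using hG.exp (g : G))
  have := orderOf_dvd_of_pow_eq_one hg4
  rw [ho] at this
  omega

example : StGrp3.{u} := grp3

end Cfsg.Agent.H39.ES
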