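import Cfsg.Agent.H39.FcDefs
import Cfsg.Agent.H97.Ord120
import Cfsg.Agent.S0494

/-!
# S4291-A5Q: a perfect group of order 120 with a unique involution (helper39)
-/

set_option autoImplicit false

namespace Cfsg.Agent.H39.Fc

universe u

theorem perfect_quotient {L : Type u} [Group L] (hperf : commutator L = ⊤) (Z : Subgroup L)
    [Z.Normal] : commutator (L ⧸ Z) = ⊤ := by
  rw [commutator_def] at hperf ⊢
  have h := Subgroup.map_commutator (⊤ : Subgroup L) ⊤ (QuotientGroup.mk' Z)
  rw [hperf, Subgroup.map_top_of_surjective _ (QuotientGroup.mk'_surjective Z)] at h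
  exact h.symm

theorem not_solvable_of_perfect {Q : Type u} [Group Q] [Nontrivial Q] (hperf : commutator Q = ⊤) :
    ¬ Group.IsSolvable Q := by
  intro hs
  have := Group.IsSolvable.commutator_lt_top_of_nontrivial Q
  rw [hperf] at this
  exact lt_irrefl _ this

theorem stA5Q : StA5Q.{u} := by
  intro L _ _ hperf hcard hinv
  classical
  haveI : Fact (Nat.Prime 2) := ⟨Nat.prime_two⟩
  obtain ⟨z, hz⟩ := exists_prime_orderOf_dvd_card' (G := L) 2 (by rw [hcard]; norm_num)
  have hz1 : z ≠ 1 := by
    intro h; rw [h, orderOf_one] at hz; omega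
  have hzc : z ∈ Subgroup.center L := by
    rw [Subgroup.mem_center_iff]
    intro g
    have h1 : orderOf (g * z * g⁻¹) = 2 := by
      have := MulEquiv.orderOf_eq (MulAut.conj g) z
      rw [MulAut.conj_apply] at this
      rw [this, hz]
    have h2 := hinv _ _ h1 hz
    calc g * z = (g * z * g⁻¹) * g := by group
      _ = z * g := by rw [h2]
  have hLnt : Nontrivial L := by
    rw [← Finite.one_lt_card_iff_nontrivial, hcard]; norm_num
  have hZtop : Subgroup.center L ≠ ⊤ := by
    intro h
    have := (commutator_eq_bot_iff_center_eq_top L).mpr h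
    rw [hperf] at this
    exact top_ne_bot this
  have hQperf := perfect_quotient hperf (Subgroup.center L)
  haveI hQnt : Nontrivial (L ⧸ Subgroup.center L) := by
    rw [← Finite.one_lt_card_iff_nontrivial]
    have h1 : (Subgroup.center L).index ≠ 1 := fun h => hZtop (Subgroup.index_eq_one.mp h)
    have h2 : (Subgroup.center L).index ≠ 0 := Subgroup.index_ne_zero_of_finite
    have h3 : Nat.card (L ⧸ Subgroup.center L) = (Subgroup.center L).index := rfl
    omega
  have hQns := not_solvable_of_perfect hQperf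
  have hmul := Subgroup.card_eq_card_quotient_mul_card_subgroup (Subgroup.center L)
  rw [hcard] at hmul
  have hQ60 : 60 ≤ Nat.card (L ⧸ Subgroup.center L) := by
    by_contra hlt
    exact hQns (Cfsg.Agent.H97.Ord120.solvable_of_card_lt _ _ rfl (not_le.mp hlt))
  have hZ2 : 2 ≤ Nat.card (Subgroup.center L) := by
    haveI : Nontrivial (Subgroup.center L) :=
      ⟨⟨⟨z, hzc⟩, 1, fun h => hz1 (congrArg Subtype.val h)⟩⟩
    exact Finite.one_lt_card
  have hZ : Nat.card (Subgroup.center L) = 2 := by nlinarith
  have hQ : Nat.card (L ⧸ Subgroup.center L) = 60 := by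
    rw [hZ] at hmul; omega
  refine ⟨hZ, ?_⟩
  haveI := Cfsg.Agent.H97.Ord120.simple_of_card_60 _ hQ hQns
  exact Cfsg.Agent.S0494.result hQ

end Cfsg.Agent.H39.Fc
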