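import Cfsg.Agent.H39.FcDefs
import Cfsg.Agent.H97.Pres120

/-!
# Structure of Frobenius complements: assembly of existence (helper39)
-/

set_option autoImplicit false

namespace Cfsg.Agent.H39.Fc

universe u

open Subgroup

/-- EXIST -/
def StExist : Prop :=
  ∀ (G : Type u) [Group G] [Finite G], FcAx G →
    ∃ N : Subgroup G, N.Normal ∧ (∀ (p : ℕ) [Fact p.Prime] (P : Sylow p N), IsCyclic P) ∧
      (N = ⊤ ∨ QType5 N)

/-- UNIQ -/
def StUniq : Prop :=
  ∀ (G : Type u) [Group G] [Finite G], FcAx G → ∀ N₁ N₂ : Subgroup G, N₁.Normal → N₂.Normal →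
    (∀ P : Sylow 2 N₁, IsCyclic P) → (∀ P : Sylow 2 N₂, IsCyclic P) →
    (N₁ = ⊤ ∨ QType5 N₁) → (N₂ = ⊤ ∨ QType5 N₂) → N₁ = N₂

section

variable {G : Type u} [Group G] [Finite G]

theorem sylow_sub_cyclic_odd (hax : FcAx G) (N : Subgroup G) (p : ℕ) [Fact p.Prime] (hp : p ≠ 2)
    (P : Sylow p N) : IsCyclic P := by
  have h1 : IsPGroup p ((P : Subgroup N).map N.subtype) := P.2.map N.subtype
  rcases hax.syl p _ h1 with h | ⟨h, -⟩
  · have e := (P : Subgroup N).equivMapOfInjective N.subtype N.subtype_injective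
    exact (MulEquiv.isCyclic e).mpr h
  · exact absurd h hp

theorem sylow_two_sub_cyclic (hc : ∀ P : Sylow 2 G, IsCyclic P) (N : Subgroup G)
    (P : Sylow 2 N) : IsCyclic P := by
  have h1 : IsPGroup 2 ((P : Subgroup N).map N.subtype) := P.2.map N.subtype
  obtain ⟨Q, hQ⟩ := h1.exists_le_sylow
  haveI := hc Q
  have e := (P : Subgroup N).equivMapOfInjective N.subtype N.subtype_injective
  have h2 : IsCyclic ((P : Subgroup N).map N.subtype) := by
    have e2 := Subgroup.subgroupOfEquivOfLe hQ
    exact (MulEquiv.isCyclic e2).mp inferInstance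
  exact (MulEquiv.isCyclic e).mpr h2

theorem sylow_two_cyclic_of_card (N : Subgroup G) (m : ℕ) (hm : Odd m)
    (h : Nat.card N = m ∨ Nat.card N = 2 * m) (P : Sylow 2 N) : IsCyclic P := by
  have hc := Sylow.card_eq_multiplicity P
  have hm2 : ¬ 2 ∣ m := fun h2 => (Nat.not_even_iff_odd.mpr hm) (even_iff_two_dvd.mpr h2)
  have hm0 : m ≠ 0 := by
    rintro rfl; exact hm2 (dvd_zero 2)
  rcases h with h | h
  · rw [h, Nat.factorization_eq_zero_of_not_dvd hm2, pow_zero] at hc
    haveI : Subsingleton (P : Subgroup N) := (Nat.card_eq_one_iff_unique.mp hc).1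
    exact isCyclic_of_subsingleton
  · rw [h, Nat.factorization_mul two_ne_zero hm0, Finsupp.add_apply,
      Nat.Prime.factorization_self Nat.prime_two,
      Nat.factorization_eq_zero_of_not_dvd hm2, pow_one] at hc
    exact isCyclic_of_prime_card hc

theorem odd_of_coprime_30 {m : ℕ} (h : m.Coprime 30) : Odd m := by
  rw [Nat.odd_iff]
  by_contra h2
  have h3 : 2 ∣ m := by omega
  have h4 : 2 ∣ Nat.gcd m 30 := Nat.dvd_gcd h3 (by norm_num)
  rw [Nat.Coprime] at h
  rw [h] at h4
  omega

end

theorem exist_of (hPc : StPc.{u}) (hNsHom : StNsHom.{u}) (hNsC : StNsC.{u})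
    (hSolv : StSolv.{u}) : StExist.{u} := by
  intro G _ _ hax
  classical
  by_cases hc : ∀ P : Sylow 2 G, IsCyclic P
  · refine ⟨⊤, inferInstance, ?_, Or.inl rfl⟩
    intro p _ P
    by_cases hp : p = 2
    · subst hp; exact sylow_two_sub_cyclic hc ⊤ P
    · exact sylow_sub_cyclic_odd hax ⊤ p hp P
  · push_neg at hc
    by_cases hs : Group.IsSolvable G
    · obtain ⟨N, hN, h2, hQ⟩ := hSolv G hs (fun H hH => by
        rcases hax.syl 2 H hH with h | ⟨-, h⟩
        · exact Or.inl h
        · exact Or.inr h) hc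
      refine ⟨N, hN, ?_, Or.inr ?_⟩
      · intro p _ P
        by_cases hp : p = 2
        · subst hp; exact h2 P
        · exact sylow_sub_cyclic_odd hax N p hp P
      · rcases hQ with h | h | h
        · exact Or.inl h
        · exact Or.inr (Or.inl h)
        · exact Or.inr (Or.inr (Or.inl h))
    · obtain ⟨L, hLn, hLbot, hLperf⟩ := hPc G hs
      obtain ⟨e⟩ := hax.perf L hLperf hLbot
      have hcard : Nat.card L = 120 := by
        rw [Nat.card_congr e.toEquiv]; exact Cfsg.Agent.H97.Ord120.card_SL25
      obtain ⟨f, hker, hmap, hcard2⟩ := hNsHom G L hLn hLperf hcard hax.invol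
      obtain ⟨M, hMC, hCcard, hcop⟩ := hNsC G hax L hLn hLperf hcard hcard2
      have hCn : (Subgroup.centralizer (L : Set G)).Normal := hker ▸ f.normal_ker
      refine ⟨Subgroup.centralizer (L : Set G), hCn, ?_, Or.inr ?_⟩
      · intro p _ P
        by_cases hp : p = 2
        · subst hp
          exact sylow_two_cyclic_of_card _ (Nat.card M) (odd_of_coprime_30 hcop) (Or.inr hCcard) P
        · exact sylow_sub_cyclic_odd hax _ p hp P
      · have hle : alternatingGroup (Fin 5) ≤ f.range := by
          rw [← hmap]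
          rintro x ⟨l, -, rfl⟩
          exact ⟨l, rfl⟩
        by_cases htop : f.range = ⊤
        · right; right; right; right
          exact ⟨f, MonoidHom.range_eq_top.mp htop, hker⟩
        · have hidx : f.range.index = 2 := by
            have h1 := Subgroup.relIndex_mul_index hle
            rw [alternatingGroup.index_eq_two] at h1
            have h2 : f.range.index ∣ 2 := Dvd.intro_left _ h1
            rcases (Nat.dvd_prime Nat.prime_two).mp h2 with h3 | h3
            · exact absurd (Subgroup.index_eq_one.mp h3) htop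
            · exact h3
          have hr : f.range = alternatingGroup (Fin 5) :=
            Equiv.Perm.eq_alternatingGroup_of_index_eq_two hidx
          right; right; right; left
          refine ⟨f.codRestrict (alternatingGroup (Fin 5)) (fun g => hr ▸ ⟨g, rfl⟩), ?_, ?_⟩
          · rintro ⟨y, hy⟩
            rw [← hmap] at hy
            obtain ⟨l, -, rfl⟩ := hy
            exact ⟨l, rfl⟩
          · rw [MonoidHom.ker_codRestrict]; exact hker

end Cfsg.Agent.H39.Fc
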