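import Cfsg.Agent.H39.FcAsm

/-!
# Structure of Frobenius complements: assembly of uniqueness, the final statements (helper39)
-/

set_option autoImplicit false

namespace Cfsg.Agent.H39.Fc

universe u

open Subgroup

/-- normal subgroups with cyclic Sylow 2-subgroups are trivial. -/
def Kills (X : Type) [Group X] : Prop :=
  ∀ M : Subgroup X, M.Normal → (∀ P : Sylow 2 M, IsCyclic P) → M = ⊥

section

variable {G : Type u} [Group G] [Finite G]

theorem card_a4_ge : 12 ≤ Nat.card (alternatingGroup (Fin 4)) := by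
  have h := two_mul_card_alternatingGroup (α := Fin 4)
  rw [Fintype.card_perm, Fintype.card_fin] at h
  rw [Nat.card_eq_fintype_card]
  have : Nat.factorial 4 = 24 := rfl
  omega

theorem card_a5_ge : 12 ≤ Nat.card (alternatingGroup (Fin 5)) := by
  have h := two_mul_card_alternatingGroup (α := Fin 5)
  rw [Fintype.card_perm, Fintype.card_fin] at h
  rw [Nat.card_eq_fintype_card]
  have : Nat.factorial 5 = 120 := rfl
  omega

theorem card_s4_ge : 12 ≤ Nat.card (Equiv.Perm (Fin 4)) := by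
  rw [Nat.card_eq_fintype_card, Fintype.card_perm, Fintype.card_fin]
  have : Nat.factorial 4 = 24 := rfl
  omega

theorem card_s5_ge : 12 ≤ Nat.card (Equiv.Perm (Fin 5)) := by
  rw [Nat.card_eq_fintype_card, Fintype.card_perm, Fintype.card_fin]
  have : Nat.factorial 5 = 120 := rfl
  omega

theorem qtype_cases (hFive : StFive) {N : Subgroup G} (h : QType5 N) :
    (∃ f : G →* DihedralGroup 2, Function.Surjective f ∧ f.ker = N) ∨
    (∃ (X : Type) (_ : Group X) (_ : Finite X) (f : G →* X), Kills X ∧ 12 ≤ Nat.card X ∧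
      Function.Surjective f ∧ f.ker = N) := by
  obtain ⟨h1, h2, h3, h4, -⟩ := hFive
  rcases h with h | ⟨f, hf, hk⟩ | ⟨f, hf, hk⟩ | ⟨f, hf, hk⟩ | ⟨f, hf, hk⟩
  · exact Or.inl h
  · exact Or.inr ⟨_, inferInstance, inferInstance, f, h1, card_a4_ge, hf, hk⟩
  · exact Or.inr ⟨_, inferInstance, inferInstance, f, h2, card_s4_ge, hf, hk⟩
  · exact Or.inr ⟨_, inferInstance, inferInstance, f, h3, card_a5_ge, hf, hk⟩
  · exact Or.inr ⟨_, inferInstance, inferInstance, f, h4, card_s5_ge, hf, hk⟩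

theorem le_of_kills (hSyl : StSylMap.{u}) {X : Type} [Group X] [Finite X] (hX : Kills X)
    (f : G →* X) (hf : Function.Surjective f) (N : Subgroup G) (hN : N.Normal)
    (hc : ∀ P : Sylow 2 N, IsCyclic P) : N ≤ f.ker := by
  have h1 : (N.map f).Normal := hN.map f hf
  have h2 := hX (N.map f) h1 (hSyl G X f N hc)
  exact (Subgroup.map_eq_bot_iff N).mp h2

theorem index_ker_of_surj {X : Type} [Group X] (f : G →* X) (hf : Function.Surjective f) :
    f.ker.index = Nat.card X := by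
  rw [Subgroup.index_ker, MonoidHom.range_eq_top.mpr hf, Subgroup.card_top]

theorem dihedral_two_sq : ∀ x : DihedralGroup 2, x * x = 1 := by decide

theorem top_ne_of_v4 (hFive : StFive) (hSyl : StSylMap.{u})
    (hc : ∀ P : Sylow 2 (⊤ : Subgroup G), IsCyclic P)
    (f : G →* DihedralGroup 2) (hf : Function.Surjective f) : False := by
  have h1 := hFive.2.2.2.2 ((⊤ : Subgroup G).map f) (hSyl G _ f ⊤ hc)
  rw [Subgroup.map_top_of_surjective f hf, Subgroup.card_top, DihedralGroup.nat_card] at h1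
  omega

theorem top_ne_of_kills (hSyl : StSylMap.{u})
    (hc : ∀ P : Sylow 2 (⊤ : Subgroup G), IsCyclic P)
    {X : Type} [Group X] [Finite X] (hX : Kills X) (h12 : 12 ≤ Nat.card X)
    (f : G →* X) (hf : Function.Surjective f) : False := by
  have h1 := le_of_kills hSyl hX f hf ⊤ inferInstance hc
  have h2 : f.ker.index = 1 := by
    rw [Subgroup.index_eq_one]; exact top_le_iff.mp h1
  rw [index_ker_of_surj f hf] at h2
  omega

end

theorem uniq_of (hFive : StFive) (hSyl : StSylMap.{u}) (hV4 : StV4.{u}) (hGen : StGen2.{u}) :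
    StUniq.{u} := by
  intro G _ _ hax N₁ N₂ hN₁ hN₂ hc₁ hc₂ hQ₁ hQ₂
  rcases hQ₁ with rfl | hQ₁
  · rcases hQ₂ with rfl | hQ₂
    · rfl
    · exfalso
      rcases qtype_cases hFive hQ₂ with ⟨f, hf, -⟩ | ⟨X, _, _, f, hX, h12, hf, -⟩
      · exact top_ne_of_v4 hFive hSyl hc₁ f hf
      · exact top_ne_of_kills hSyl hc₁ hX h12 f hf
  · rcases hQ₂ with rfl | hQ₂
    · exfalso
      rcases qtype_cases hFive hQ₁ with ⟨f, hf, -⟩ | ⟨X, _, _, f, hX, h12, hf, -⟩
      · exact top_ne_of_v4 hFive hSyl hc₂ f hf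
      · exact top_ne_of_kills hSyl hc₂ hX h12 f hf
    · rcases qtype_cases hFive hQ₁ with ⟨f₁, hf₁, hk₁⟩ | ⟨X₁, _, _, f₁, hX₁, h12₁, hf₁, hk₁⟩ <;>
      rcases qtype_cases hFive hQ₂ with ⟨f₂, hf₂, hk₂⟩ | ⟨X₂, _, _, f₂, hX₂, h12₂, hf₂, hk₂⟩
      · -- both four-groups
        obtain ⟨a, b, S, hS⟩ := hGen G hax
        have hi₁ : N₁.index = 4 := by
          rw [← hk₁, index_ker_of_surj f₁ hf₁, DihedralGroup.nat_card]
        have hi₂ : N₂.index = 4 := by
          rw [← hk₂, index_ker_of_surj f₂ hf₂, DihedralGroup.nat_card]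
        refine hV4 G a b S hS N₁ N₂ hN₁ hN₂ hi₁ hi₂ ?_ ?_
        · intro g
          rw [← hk₁, MonoidHom.mem_ker, map_mul]; exact dihedral_two_sq _
        · intro g
          rw [← hk₂, MonoidHom.mem_ker, map_mul]; exact dihedral_two_sq _
      · -- N₁ four-group, N₂ of the other type: N₁ ≤ N₂
        exfalso
        have hle : N₁ ≤ N₂ := hk₂ ▸ le_of_kills hSyl hX₂ f₂ hf₂ N₁ hN₁ hc₁
        have hi₁ : N₁.index = 4 := by
          rw [← hk₁, index_ker_of_surj f₁ hf₁, DihedralGroup.nat_card]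
        have hi₂ : N₂.index = Nat.card X₂ := by
          rw [← hk₂, index_ker_of_surj f₂ hf₂]
        have hd := Subgroup.index_dvd_of_le hle
        rw [hi₁, hi₂] at hd
        have := Nat.le_of_dvd (by norm_num) hd
        omega
      · exfalso
        have hle : N₂ ≤ N₁ := hk₁ ▸ le_of_kills hSyl hX₁ f₁ hf₁ N₂ hN₂ hc₂
        have hi₂ : N₂.index = 4 := by
          rw [← hk₂, index_ker_of_surj f₂ hf₂, DihedralGroup.nat_card]
        have hi₁ : N₁.index = Nat.card X₁ := by
          rw [← hk₁, index_ker_of_surj f₁ hf₁]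
        have hd := Subgroup.index_dvd_of_le hle
        rw [hi₁, hi₂] at hd
        have := Nat.le_of_dvd (by norm_num) hd
        omega
      · have h1 : N₂ ≤ N₁ := hk₁ ▸ le_of_kills hSyl hX₁ f₁ hf₁ N₂ hN₂ hc₂
        have h2 : N₁ ≤ N₂ := hk₂ ▸ le_of_kills hSyl hX₂ f₂ hf₂ N₁ hN₁ hc₁
        exact le_antisymm h2 h1

/-- The abstract form of S4291. -/
theorem final_of (hB : StBridge.{u}) (h690 : St690) (hE : StExist.{u}) (hU : StUniq.{u})
    {G : Type u} [Group G] [Finite G]
    (hFC : ∃ (L : Type) (_ : Group L) (_ : Finite L) (H : Subgroup L),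
      Cfsg.IsFrobeniusComplement H ∧ Nonempty (G ≃* H)) :
    ∃! N : Subgroup G, N.Normal ∧ (∀ (p : ℕ) [Fact p.Prime] (P : Sylow p N), IsCyclic P) ∧
      (N = ⊤ ∨
        (∃ f : G →* DihedralGroup 2, Function.Surjective f ∧ f.ker = N) ∨
        (∃ f : G →* alternatingGroup (Fin 4), Function.Surjective f ∧ f.ker = N) ∨
        (∃ f : G →* Equiv.Perm (Fin 4), Function.Surjective f ∧ f.ker = N) ∨
        (∃ f : G →* alternatingGroup (Fin 5), Function.Surjective f ∧ f.ker = N) ∨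
        (∃ f : G →* Equiv.Perm (Fin 5), Function.Surjective f ∧ f.ker = N)) := by
  have hax := hB h690 G hFC
  obtain ⟨N, hN, hcyc, hQ⟩ := hE G hax
  refine ⟨N, ⟨hN, hcyc, hQ⟩, ?_⟩
  rintro N' ⟨hN', hcyc', hQ'⟩
  exact hU G hax N' N hN' hN (fun P => hcyc' 2 P) (fun P => hcyc 2 P) hQ' hQ

end Cfsg.Agent.H39.Fc
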