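import Cfsg.Agent.H39.FcAsm

/-!
# Structure of non-solvable Frobenius complements (S3359): assembly (helper39)
-/

set_option autoImplicit false

namespace Cfsg.Agent.H39.Fc

universe u

open Subgroup

/-- The abstract form of S3359. -/
theorem s3359_of (hPc : StPc.{u}) (hNsHom : StNsHom.{u}) (hNsC : StNsC.{u})
    {G : Type u} [Group G] [Finite G] (hax : FcAx G) (hns : ¬ Group.IsSolvable G) :
    ∃ G₀ : Subgroup G, G₀.Normal ∧ (G₀.index = 1 ∨ G₀.index = 2) ∧
      ∃ S M : Subgroup G, S ⊔ M = G₀ ∧ S ⊓ M = ⊥ ∧ (∀ s ∈ S, ∀ x ∈ M, s * x = x * s) ∧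
        Nonempty (S ≃* Matrix.SpecialLinearGroup (Fin 2) (ZMod 5)) ∧
        (∀ (p : ℕ) [Fact p.Prime] (P : Sylow p M), IsCyclic P) ∧ (Nat.card M).Coprime 30 := by
  classical
  obtain ⟨L, hLn, hLbot, hLperf⟩ := hPc G hns
  obtain ⟨e⟩ := hax.perf L hLperf hLbot
  have hcard : Nat.card L = 120 := by
    rw [Nat.card_congr e.toEquiv]; exact Cfsg.Agent.H97.Ord120.card_SL25
  obtain ⟨f, hker, hmap, hcard2⟩ := hNsHom G L hLn hLperf hcard hax.invol
  obtain ⟨M, hMC, hCcard, hcop⟩ := hNsC G hax L hLn hLperf hcard hcard2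
  have hModd : Odd (Nat.card M) := odd_of_coprime_30 hcop
  have hM2 : ¬ 2 ∣ Nat.card M :=
    fun h2 => (Nat.not_even_iff_odd.mpr hModd) (even_iff_two_dvd.mpr h2)
  set C := Subgroup.centralizer (L : Set G) with hC
  -- `C = M ⊔ (L ⊓ C)`
  have hD : M ⊔ (L ⊓ C) = C := by
    apply Subgroup.eq_of_le_of_card_ge (sup_le hMC inf_le_right)
    have h1 : Nat.card M ∣ Nat.card (M ⊔ (L ⊓ C) : Subgroup G) :=
      Subgroup.card_dvd_of_le le_sup_left
    have h2 : 2 ∣ Nat.card (M ⊔ (L ⊓ C) : Subgroup G) := by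
      have := Subgroup.card_dvd_of_le (le_sup_right : L ⊓ C ≤ M ⊔ (L ⊓ C))
      rwa [hcard2] at this
    have h3 : (2 : ℕ).Coprime (Nat.card M) :=
      (Nat.Prime.coprime_iff_not_dvd Nat.prime_two).mpr hM2
    have h4 : 2 * Nat.card M ∣ Nat.card (M ⊔ (L ⊓ C) : Subgroup G) :=
      Nat.Coprime.mul_dvd_of_dvd_of_dvd h3 h2 h1
    rw [hCcard]
    exact Nat.le_of_dvd Nat.card_pos h4
  have hsup : L ⊔ M = L ⊔ C := by
    apply le_antisymm (sup_le_sup_left hMC L)
    rw [← hD]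
    exact sup_le le_sup_left (sup_le le_sup_right (le_trans inf_le_left le_sup_left))
  have hG₀ : L ⊔ M = (alternatingGroup (Fin 5)).comap f := by
    rw [hsup, ← hmap, Subgroup.comap_map_eq, hker]
  refine ⟨L ⊔ M, ?_, ?_, L, M, rfl, ?_, ?_, ⟨e⟩, ?_, hcop⟩
  · rw [hG₀]; exact Subgroup.normal_comap f
  · rw [hG₀, Subgroup.index_comap]
    have h1 := Subgroup.relIndex_dvd_index_of_normal (alternatingGroup (Fin 5)) f.range
    rw [alternatingGroup.index_eq_two] at h1
    exact (Nat.dvd_prime Nat.prime_two).mp h1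
  · -- `L ⊓ M = ⊥`
    rw [← Subgroup.card_eq_one]
    have h1 : Nat.card (L ⊓ M : Subgroup G) ∣ 2 := by
      have := Subgroup.card_dvd_of_le (le_inf inf_le_left (le_trans inf_le_right hMC) :
        L ⊓ M ≤ L ⊓ C)
      rwa [hcard2] at this
    have h2 : Nat.card (L ⊓ M : Subgroup G) ∣ Nat.card M := Subgroup.card_dvd_of_le inf_le_right
    rcases (Nat.dvd_prime Nat.prime_two).mp h1 with h3 | h3
    · exact h3
    · rw [h3] at h2; exact absurd h2 hM2
  · intro s hs x hx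
    have := hMC hx
    rw [hC, Subgroup.mem_centralizer_iff] at this
    exact this s hs
  · intro p _ P
    by_cases hp : p = 2
    · subst hp
      exact sylow_two_cyclic_of_card M (Nat.card M) hModd (Or.inl rfl) P
    · exact sylow_sub_cyclic_odd hax M p hp P

end Cfsg.Agent.H39.Fc
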