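import Mathlib
import Cfsg.Prelude.Def_Solvable

/-!
# Structure of Frobenius complements (S4291, S3359): shared definitions and the exact
statements of the pieces of the team project (helper39).

Every `St…` below is the exact statement of one piece. A piece `X` is landed as a theorem
`… : StX.{u}` (possibly with other `St…` as hypotheses).
-/

set_option autoImplicit false

namespace Cfsg.Agent.H39.Fc

universe u

/-- The abstract properties of a Frobenius complement which are used. -/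
structure FcAx (G : Type u) [Group G] : Prop where
  syl : ∀ (p : ℕ) [Fact p.Prime] (H : Subgroup G), IsPGroup p H →
    IsCyclic H ∨ (p = 2 ∧ ∃ n : ℕ, 1 ≤ n ∧ Nonempty (H ≃* QuaternionGroup (2 ^ n)))
  invol : ∀ x y : G, orderOf x = 2 → orderOf y = 2 → x = y
  perf : ∀ L : Subgroup G, commutator L = ⊤ → L ≠ ⊥ →
    Nonempty (L ≃* Matrix.SpecialLinearGroup (Fin 2) (ZMod 5))

/-- `G/N` is the four-group, `A₄` or `S₄`. -/
def QType3 {G : Type u} [Group G] (N : Subgroup G) : Prop :=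
  (∃ f : G →* DihedralGroup 2, Function.Surjective f ∧ f.ker = N) ∨
  (∃ f : G →* alternatingGroup (Fin 4), Function.Surjective f ∧ f.ker = N) ∨
  (∃ f : G →* Equiv.Perm (Fin 4), Function.Surjective f ∧ f.ker = N)

/-- `G/N` is the four-group, `A₄`, `S₄`, `A₅` or `S₅`. -/
def QType5 {G : Type u} [Group G] (N : Subgroup G) : Prop :=
  (∃ f : G →* DihedralGroup 2, Function.Surjective f ∧ f.ker = N) ∨
  (∃ f : G →* alternatingGroup (Fin 4), Function.Surjective f ∧ f.ker = N) ∨
  (∃ f : G →* Equiv.Perm (Fin 4), Function.Surjective f ∧ f.ker = N) ∨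
  (∃ f : G →* alternatingGroup (Fin 5), Function.Surjective f ∧ f.ker = N) ∨
  (∃ f : G →* Equiv.Perm (Fin 5), Function.Surjective f ∧ f.ker = N)

/-- The statement of S0690 in universe 0. -/
def St690 : Prop :=
  ∀ (K : Type) [Group K] [Finite K] (G : Subgroup (MulAut K)),
    (∀ φ ∈ G, φ ≠ 1 → ∀ k : K, φ k = k → k = 1) → commutator G = ⊤ → G ≠ ⊥ →
    Nonempty (G ≃* Matrix.SpecialLinearGroup (Fin 2) (ZMod 5))

/-! ## The bridge -/

/-- BRIDGE: an abstract Frobenius complement satisfies `FcAx`. -/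
def StBridge : Prop :=
  St690 → ∀ (G : Type u) [Group G] [Finite G],
    (∃ (L : Type) (_ : Group L) (_ : Finite L) (H : Subgroup L),
      Cfsg.IsFrobeniusComplement H ∧ Nonempty (G ≃* H)) → FcAx G

/-! ## The nonsolvable case -/

/-- PC: the perfect core of a nonsolvable finite group. -/
def StPc : Prop :=
  ∀ (G : Type u) [Group G] [Finite G], ¬ Group.IsSolvable G →
    ∃ L : Subgroup G, L.Normal ∧ L ≠ ⊥ ∧ commutator L = ⊤

/-- AUTQ: automorphisms of a perfect group act faithfully on the central quotient. -/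
def StAutQ : Prop :=
  ∀ (L : Type u) [Group L], commutator L = ⊤ →
    ∃ Φ : MulAut L →* MulAut (L ⧸ Subgroup.center L), Function.Injective Φ ∧
      ∀ (φ : MulAut L) (x : L), Φ φ (QuotientGroup.mk x) = QuotientGroup.mk (φ x)

/-- A5Q: a perfect group of order 120 with a unique involution has centre of order 2 and central
quotient `A₅`. -/
def StA5Q : Prop :=
  ∀ (L : Type u) [Group L] [Finite L], commutator L = ⊤ → Nat.card L = 120 →
    (∀ x y : L, orderOf x = 2 → orderOf y = 2 → x = y) →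
    Nat.card (Subgroup.center L) = 2 ∧
      Nonempty (L ⧸ Subgroup.center L ≃* alternatingGroup (Fin 5))

/-- S5AUT: `Aut(A₅) = S₅`. -/
def StS5Aut : Prop :=
  ∃ E : Equiv.Perm (Fin 5) ≃* MulAut (alternatingGroup (Fin 5)),
    ∀ (σ : Equiv.Perm (Fin 5)) (g : alternatingGroup (Fin 5)),
      ((E σ g : alternatingGroup (Fin 5)) : Equiv.Perm (Fin 5)) = σ * g * σ⁻¹

/-- NSHOM: the action on the five points. -/
def StNsHom : Prop :=
  ∀ (G : Type u) [Group G] [Finite G] (L : Subgroup G), L.Normal → commutator L = ⊤ →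
    Nat.card L = 120 → (∀ x y : G, orderOf x = 2 → orderOf y = 2 → x = y) →
    ∃ f : G →* Equiv.Perm (Fin 5), f.ker = Subgroup.centralizer (L : Set G) ∧
      L.map f = alternatingGroup (Fin 5) ∧
      Nat.card (L ⊓ Subgroup.centralizer (L : Set G) : Subgroup G) = 2

/-- NSC: the centralizer of the perfect core. -/
def StNsC : Prop :=
  ∀ (G : Type u) [Group G] [Finite G], FcAx G → ∀ L : Subgroup G, L.Normal →
    commutator L = ⊤ → Nat.card L = 120 →
    Nat.card (L ⊓ Subgroup.centralizer (L : Set G) : Subgroup G) = 2 →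
    ∃ M : Subgroup G, M ≤ Subgroup.centralizer (L : Set G) ∧
      Nat.card (Subgroup.centralizer (L : Set G)) = 2 * Nat.card M ∧ (Nat.card M).Coprime 30

/-! ## The solvable case -/

/-- O2: in a solvable group without normal subgroups of odd order, `O₂` contains its
centralizer. -/
def StO2 : Prop :=
  ∀ (G : Type u) [Group G] [Finite G], Group.IsSolvable G →
    (∀ K : Subgroup G, K.Normal → Odd (Nat.card K) → K = ⊥) →
    ∃ T : Subgroup G, T.Normal ∧ IsPGroup 2 T ∧ Subgroup.centralizer (T : Set G) ≤ T ∧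
      ∀ W : Subgroup G, W.Normal → IsPGroup 2 W → W ≤ T

/-- CYCAUT: an element of odd order normalizing a cyclic 2-group centralizes it. -/
def StCycAut : Prop :=
  ∀ (G : Type u) [Group G] [Finite G] (T : Subgroup G), IsPGroup 2 T → IsCyclic T →
    ∀ g : G, Odd (orderOf g) → (∀ t ∈ T, g * t * g⁻¹ ∈ T) → ∀ t ∈ T, g * t = t * g

/-- QUAT: the Frattini subgroup of a normal generalized quaternion subgroup. -/
def StQuat : Prop :=
  ∀ (G : Type u) [Group G] [Finite G] (T : Subgroup G), T.Normal → ∀ n : ℕ, 1 ≤ n →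
    Nonempty (T ≃* QuaternionGroup (2 ^ n)) →
    ∃ N : Subgroup G, N.Normal ∧ N ≤ T ∧ IsCyclic N ∧ Nat.card T = 4 * Nat.card N ∧
      (∀ t ∈ T, t * t ∈ N) ∧
      ∀ g : G, Odd (orderOf g) → (∀ t ∈ T, g * t * g⁻¹ * t⁻¹ ∈ N) → ∀ t ∈ T, g * t = t * g

/-- REC: recognition of the four-group, `A₄`, `S₄`. -/
def StRec : Prop :=
  ∀ (G : Type u) [Group G] [Finite G] (N T : Subgroup G), N.Normal → T.Normal → N ≤ T →
    Nat.card T = 4 * Nat.card N → (∀ t ∈ T, t * t ∈ N) →
    (∀ g : G, (∀ t ∈ T, g * t * g⁻¹ * t⁻¹ ∈ N) → g ∈ T) →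
    (∀ W : Subgroup G, W.Normal → T ≤ W → (∃ k : ℕ, Nat.card W = 2 ^ k * Nat.card T) → W = T) →
    QType3 N

/-- SOLV0: the solvable case without normal subgroups of odd order. -/
def StSolv0 : Prop :=
  ∀ (G : Type u) [Group G] [Finite G], Group.IsSolvable G →
    (∀ K : Subgroup G, K.Normal → Odd (Nat.card K) → K = ⊥) →
    (∀ H : Subgroup G, IsPGroup 2 H →
      IsCyclic H ∨ ∃ n : ℕ, 1 ≤ n ∧ Nonempty (H ≃* QuaternionGroup (2 ^ n))) →
    (∃ P : Sylow 2 G, ¬ IsCyclic P) →
    ∃ N : Subgroup G, N.Normal ∧ (∀ P : Sylow 2 N, IsCyclic P) ∧ QType3 N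

/-- SOLV: the solvable case. -/
def StSolv : Prop :=
  ∀ (G : Type u) [Group G] [Finite G], Group.IsSolvable G →
    (∀ H : Subgroup G, IsPGroup 2 H →
      IsCyclic H ∨ ∃ n : ℕ, 1 ≤ n ∧ Nonempty (H ≃* QuaternionGroup (2 ^ n))) →
    (∃ P : Sylow 2 G, ¬ IsCyclic P) →
    ∃ N : Subgroup G, N.Normal ∧ (∀ P : Sylow 2 N, IsCyclic P) ∧ QType3 N

/-! ## Uniqueness -/

/-- FIVE: normal subgroups of `A₄`, `S₄`, `A₅`, `S₅` with cyclic Sylow 2-subgroups are trivial;
subgroups of the four-group with cyclic Sylow 2-subgroups have order at most 2. -/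
def StFive : Prop :=
  (∀ M : Subgroup (alternatingGroup (Fin 4)), M.Normal → (∀ P : Sylow 2 M, IsCyclic P) → M = ⊥) ∧
  (∀ M : Subgroup (Equiv.Perm (Fin 4)), M.Normal → (∀ P : Sylow 2 M, IsCyclic P) → M = ⊥) ∧
  (∀ M : Subgroup (alternatingGroup (Fin 5)), M.Normal → (∀ P : Sylow 2 M, IsCyclic P) → M = ⊥) ∧
  (∀ M : Subgroup (Equiv.Perm (Fin 5)), M.Normal → (∀ P : Sylow 2 M, IsCyclic P) → M = ⊥) ∧
  (∀ M : Subgroup (DihedralGroup 2), (∀ P : Sylow 2 M, IsCyclic P) → Nat.card M ≤ 2)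

/-- SYLMAP: cyclic Sylow 2-subgroups pass to images. -/
def StSylMap : Prop :=
  ∀ (G : Type u) [Group G] [Finite G] (X : Type) [Group X] [Finite X] (f : G →* X)
    (N : Subgroup G), (∀ P : Sylow 2 N, IsCyclic P) → ∀ P : Sylow 2 (N.map f), IsCyclic P

/-- V4: two normal subgroups with four-group quotient coincide when a Sylow 2-subgroup is
generated by two elements. -/
def StV4 : Prop :=
  ∀ (G : Type u) [Group G] [Finite G] (a b : G) (S : Sylow 2 G),
    (S : Subgroup G) = Subgroup.closure {a, b} →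
    ∀ N₁ N₂ : Subgroup G, N₁.Normal → N₂.Normal → N₁.index = 4 → N₂.index = 4 →
    (∀ g : G, g * g ∈ N₁) → (∀ g : G, g * g ∈ N₂) → N₁ = N₂

/-- GEN2: the Sylow 2-subgroups are generated by two elements. -/
def StGen2 : Prop :=
  ∀ (G : Type u) [Group G] [Finite G], FcAx G →
    ∃ (a b : G) (S : Sylow 2 G), (S : Subgroup G) = Subgroup.closure {a, b}

end Cfsg.Agent.H39.Fc
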