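import Cfsg.Agent.H39.FcDefs

/-!
# S4291-NSHOM: the action on five points (helper39)
-/

set_option autoImplicit false

namespace Cfsg.Agent.H39.Fc

universe u

open Subgroup

theorem stNsHom (h1 : StAutQ.{u}) (h2 : StA5Q.{u}) (h3 : StS5Aut) : StNsHom.{u} := by
  intro G _ _ L hLn hperf hcard hinv
  classical
  haveI := hLn
  have hinvL : ∀ x y : L, orderOf x = 2 → orderOf y = 2 → x = y := by
    intro x y hx hy
    apply Subtype.ext
    apply hinv
    · rw [Subgroup.orderOf_coe]; exact hx
    · rw [Subgroup.orderOf_coe]; exact hy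
  obtain ⟨Φ, hΦinj, hΦ⟩ := h1 L hperf
  obtain ⟨hZ, ⟨e⟩⟩ := h2 L hperf hcard hinvL
  obtain ⟨E, hE⟩ := h3
  let c : G →* MulAut L := MulAut.conjNormal
  let f : G →* Equiv.Perm (Fin 5) :=
    (E.symm.toMonoidHom).comp ((MulAut.congr e).toMonoidHom.comp (Φ.comp c))
  have hf : ∀ g : G, f g = E.symm (MulAut.congr e (Φ (c g))) := fun g => rfl
  have hcg : ∀ (g : G) (l : L), ((c g l : L) : G) = g * l * g⁻¹ :=
    fun g l => MulAut.conjNormal_apply g l
  -- kernel
  have hker : f.ker = Subgroup.centralizer (L : Set G) := by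
    ext g
    rw [MonoidHom.mem_ker, Subgroup.mem_centralizer_iff]
    constructor
    · intro hg
      rw [hf] at hg
      have h4 : c g = 1 := by
        apply hΦinj
        apply (MulAut.congr e).injective
        apply E.symm.injective
        rw [hg, map_one, map_one, map_one]
      intro l hl
      have h5 := hcg g ⟨l, hl⟩
      rw [h4] at h5
      simp only [MulAut.one_apply] at h5
      calc l * g = (g * l * g⁻¹) * g := by rw [← h5]
        _ = g * l := by group
    · intro hg
      have h4 : c g = 1 := by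
        ext l
        rw [hcg, MulAut.one_apply]
        have := hg l l.2
        calc g * (l : G) * g⁻¹ = (l : G) * g * g⁻¹ := by rw [this]
          _ = l := by group
      rw [hf, h4, map_one, map_one, map_one]
  -- the image of `L`
  have hfl : ∀ l : L, f (l : G) = ((e (QuotientGroup.mk l) : alternatingGroup (Fin 5)) :
      Equiv.Perm (Fin 5)) := by
    intro l
    apply E.injective
    rw [hf, MulEquiv.apply_symm_apply]
    ext y
    obtain ⟨q, rfl⟩ := e.surjective y
    obtain ⟨m, rfl⟩ := QuotientGroup.mk_surjective q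
    rw [hE]
    have h5 : MulAut.congr e (Φ (c (l : G))) (e (QuotientGroup.mk m)) =
        e (Φ (c (l : G)) (QuotientGroup.mk m)) := by
      change e (Φ (c (l : G)) (e.symm (e (QuotientGroup.mk m)))) = _
      rw [MulEquiv.symm_apply_apply]
    rw [h5, hΦ]
    have h6 : c (l : G) m = l * m * l⁻¹ := by
      apply Subtype.ext
      rw [hcg]
      simp
    rw [h6, QuotientGroup.mk_mul, QuotientGroup.mk_mul, QuotientGroup.mk_inv, map_mul, map_mul,
      map_inv]
    simp
  have hmap : L.map f = alternatingGroup (Fin 5) := by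
    ext σ
    constructor
    · rintro ⟨l, hl, rfl⟩
      have := hfl ⟨l, hl⟩
      simp only at this
      rw [this]
      exact (e _).2
    · intro hσ
      obtain ⟨q, hq⟩ := e.surjective ⟨σ, hσ⟩
      obtain ⟨m, rfl⟩ := QuotientGroup.mk_surjective q
      refine ⟨(m : G), m.2, ?_⟩
      rw [hfl m, hq]
  refine ⟨f, hker, hmap, ?_⟩
  have h7 : (Subgroup.center L).map L.subtype = L ⊓ Subgroup.centralizer (L : Set G) := by
    ext x
    rw [Subgroup.mem_map, Subgroup.mem_inf, Subgroup.mem_centralizer_iff]
    constructor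
    · rintro ⟨y, hy, rfl⟩
      refine ⟨y.2, ?_⟩
      intro l hl
      have := (Subgroup.mem_center_iff.mp hy) ⟨l, hl⟩
      exact congrArg Subtype.val this
    · rintro ⟨hx, hx2⟩
      refine ⟨⟨x, hx⟩, ?_, rfl⟩
      rw [Subgroup.mem_center_iff]
      intro l
      apply Subtype.ext
      exact hx2 l l.2
  rw [← h7, ← hZ]
  exact (Nat.card_congr
    ((Subgroup.center L).equivMapOfInjective L.subtype L.subtype_injective).toEquiv).symm

end Cfsg.Agent.H39.Fc
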