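import Cfsg.Agent.H39.FcDefs
import Cfsg.Agent.H18.DkRec

/-!
# S4291-REC: recognition of the four-group, `A₄` and `S₄` (helper39)
-/

set_option autoImplicit false

namespace Cfsg.Agent.H39.Fc

universe u

open Subgroup

theorem idx_arith (n : ℕ) (h1 : n ∣ 8) (h2 : n % 3 = 1) (h3 : n ≠ 1) : n = 4 := by
  have := Nat.le_of_dvd (by norm_num) h1
  interval_cases n <;> omega

theorem idx6_arith (n : ℕ) (h1 : n ∣ 6) (h2 : n ≠ 2) : n = 1 ∨ n = 3 ∨ n = 6 := by
  have := Nat.le_of_dvd (by norm_num) h1
  interval_cases n <;> omega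

section RecX

variable {X : Type u} [Group X] [Finite X]

theorem comm_of_exp_two (V : Subgroup X) (hexp : ∀ v ∈ V, v * v = 1) :
    ∀ a ∈ V, ∀ b ∈ V, a * b = b * a := by
  intro a ha b hb
  have h1 := hexp (a * b) (V.mul_mem ha hb)
  have ha' : a⁻¹ = a := inv_eq_of_mul_eq_one_left (hexp a ha)
  have hb' : b⁻¹ = b := inv_eq_of_mul_eq_one_left (hexp b hb)
  calc a * b = (a * b)⁻¹ := (inv_eq_of_mul_eq_one_left h1).symm
    _ = b⁻¹ * a⁻¹ := mul_inv_rev a b
    _ = b * a := by rw [ha', hb']

theorem eq_bot_of_inf (V : Subgroup X) [hVn : V.Normal] (hC : centralizer (V : Set X) ≤ V)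
    (Z : Subgroup X) [hZn : Z.Normal] (h : Z ⊓ V = ⊥) : Z = ⊥ := by
  have h1 : Z ≤ centralizer (V : Set X) := by
    intro z hz
    rw [mem_centralizer_iff]
    intro v hv
    have h2 : z * v * z⁻¹ * v⁻¹ ∈ Z ⊓ V := by
      refine ⟨?_, ?_⟩
      · have h3 : v * z⁻¹ * v⁻¹ ∈ Z := hZn.conj_mem _ (Z.inv_mem hz) v
        have h4 := Z.mul_mem hz h3
        have h5 : z * (v * z⁻¹ * v⁻¹) = z * v * z⁻¹ * v⁻¹ := by group
        rw [← h5]; exact h4
      · have h3 : z * v * z⁻¹ ∈ V := hVn.conj_mem _ hv z
        exact V.mul_mem h3 (V.inv_mem hv)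
    rw [h, mem_bot] at h2
    calc v * z = (z * v * z⁻¹ * v⁻¹)⁻¹ * (z * v) := by group
      _ = z * v := by rw [h2]; simp
  have h3 : Z ≤ Z ⊓ V := le_inf le_rfl (h1.trans hC)
  rw [h] at h3
  exact le_bot_iff.mp h3

theorem index_dvd_six (V : Subgroup X) [hVn : V.Normal] (hV4 : Nat.card V = 4)
    (hexp : ∀ v ∈ V, v * v = 1) (hC : centralizer (V : Set X) ≤ V) : V.index ∣ 6 := by
  classical
  let ρ : X →* Equiv.Perm V := (MulAut.toPerm V).comp MulAut.conjNormal
  have hρ : ∀ (x : X) (v : V), ((ρ x v : V) : X) = x * v * x⁻¹ :=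
    fun x v => MulAut.conjNormal_apply x v
  have hab := comm_of_exp_two V hexp
  have hker : ρ.ker = V := by
    ext x
    rw [MonoidHom.mem_ker]
    constructor
    · intro hx
      apply hC
      rw [mem_centralizer_iff]
      intro v hv
      have h1 := hρ x ⟨v, hv⟩
      rw [hx] at h1
      simp only [Equiv.Perm.coe_one, id_eq] at h1
      calc v * x = (x * v * x⁻¹) * x := by rw [← h1]
        _ = x * v := by group
    · intro hx
      ext v
      rw [hρ, Equiv.Perm.coe_one, id_eq, hab x hx v v.2]
      group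
  have hrange : ρ.range ≤ MulAction.stabilizer (Equiv.Perm V) (1 : V) := by
    rintro _ ⟨x, rfl⟩
    rw [MulAction.mem_stabilizer_iff, Equiv.Perm.smul_def]
    apply Subtype.ext
    rw [hρ]; simp
  have hst : Nat.card (MulAction.stabilizer (Equiv.Perm V) (1 : V)) = 6 := by
    have h1 := MulAction.index_stabilizer_of_transitive (Equiv.Perm V) (1 : V)
    have h2 := Subgroup.card_mul_index (MulAction.stabilizer (Equiv.Perm V) (1 : V))
    rw [h1, hV4, Nat.card_perm, hV4] at h2
    have : Nat.factorial 4 = 24 := rfl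
    omega
  have h3 : Nat.card ρ.range ∣ 6 := by
    have := Subgroup.card_dvd_of_le hrange
    rwa [hst] at this
  rw [← hker, Subgroup.index_ker]
  exact h3

theorem sylow3_card (h : Nat.card X = 12 ∨ Nat.card X = 24) (P : Sylow 3 X) :
    Nat.card P = 3 := by
  obtain ⟨k, hk⟩ := IsPGroup.exists_card_eq P.2
  have h1 := Subgroup.card_mul_index (P : Subgroup X)
  have h2 : ¬ 3 ∣ (P : Subgroup X).index := P.not_dvd_index
  rcases k with _ | _ | k
  · rw [hk, pow_zero, one_mul] at h1
    exfalso
    apply h2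
    rw [h1]
    rcases h with h | h <;> rw [h] <;> norm_num
  · simpa using hk
  · exfalso
    have h3 : 9 ∣ Nat.card X := by
      rw [← h1, hk]
      exact Dvd.dvd.mul_right (pow_dvd_pow 3 (by omega : 2 ≤ k + 1 + 1)) _
    rcases h with h | h <;> rw [h] at h3 <;> omega

theorem rec12 (V : Subgroup X) [hVn : V.Normal] (hV4 : Nat.card V = 4)
    (hC : centralizer (V : Set X) ≤ V) (h12 : Nat.card X = 12) :
    Nonempty (X ≃* alternatingGroup (Fin 4)) := by
  classical
  obtain ⟨P⟩ : Nonempty (Sylow 3 X) := inferInstance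
  have hP := sylow3_card (Or.inl h12) P
  have hidx : (P : Subgroup X).index = 4 := by
    have := Subgroup.card_mul_index (P : Subgroup X)
    rw [hP, h12] at this; omega
  have hcore : (P : Subgroup X).normalCore = ⊥ := by
    apply eq_bot_of_inf V hC
    apply Subgroup.inf_eq_bot_of_coprime
    have h1 : Nat.card (P : Subgroup X).normalCore ∣ 3 := by
      have := Subgroup.card_dvd_of_le (Subgroup.normalCore_le (P : Subgroup X))
      rwa [hP] at this
    rw [hV4]
    exact Nat.Coprime.coprime_dvd_left h1 (by norm_num)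
  obtain ⟨e⟩ := Cfsg.Agent.H18.Dk.rec_alt (P : Subgroup X) ⊥ hcore 4 hidx (by
    rw [Nat.card_congr (QuotientGroup.quotientBot (G := X)).toEquiv, h12]; rfl)
  exact ⟨(QuotientGroup.quotientBot (G := X)).symm.trans e⟩

theorem rec24 (V : Subgroup X) [hVn : V.Normal] (hV4 : Nat.card V = 4)
    (hexp : ∀ v ∈ V, v * v = 1) (hC : centralizer (V : Set X) ≤ V) (h24 : Nat.card X = 24) :
    Nonempty (X ≃* Equiv.Perm (Fin 4)) := by
  classical
  obtain ⟨P⟩ : Nonempty (Sylow 3 X) := inferInstance
  have hP := sylow3_card (Or.inr h24) P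
  have hPV : (P : Subgroup X) ⊓ V = ⊥ :=
    Subgroup.inf_eq_bot_of_coprime (by rw [hP, hV4]; norm_num)
  have hPidx : (P : Subgroup X).index = 8 := by
    have := Subgroup.card_mul_index (P : Subgroup X)
    rw [hP, h24] at this; omega
  have hn1 : Nat.card (Sylow 3 X) = (normalizer (P : Set X)).index :=
    Sylow.card_eq_index_normalizer P
  have hn2 : Nat.card (Sylow 3 X) ≡ 1 [MOD 3] := card_sylow_modEq_one 3 X
  have hn3 : (normalizer (P : Set X)).index ∣ 8 := by
    have := Subgroup.index_dvd_of_le (Subgroup.le_normalizer (H := (P : Subgroup X)))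
    rwa [hPidx] at this
  have hnn : ¬ (P : Subgroup X).Normal := by
    intro hPn
    have := eq_bot_of_inf V hC (P : Subgroup X) hPV
    rw [this, Subgroup.card_bot] at hP
    omega
  have hidx : (normalizer (P : Set X)).index = 4 := by
    rw [hn1] at hn2
    have h5 : (normalizer (P : Set X)).index % 3 = 1 := hn2
    have h6 : (normalizer (P : Set X)).index ≠ 1 := by
      intro h
      exact hnn (Subgroup.normalizer_eq_top_iff.mp (Subgroup.index_eq_one.mp h))
    exact idx_arith _ hn3 h5 h6
  have hHcard : Nat.card (normalizer (P : Set X)) = 6 := by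
    have := Subgroup.card_mul_index (normalizer (P : Set X))
    rw [hidx, h24] at this; omega
  have hcore : (normalizer (P : Set X)).normalCore = ⊥ := by
    apply eq_bot_of_inf V hC
    set Z := (normalizer (P : Set X)).normalCore with hZ
    have hZ6 : Nat.card Z ∣ 6 := by
      have := Subgroup.card_dvd_of_le (Subgroup.normalCore_le (normalizer (P : Set X)))
      rwa [hHcard] at this
    have hK2 : Nat.card (Z ⊓ V : Subgroup X) ∣ 2 := by
      have h1 : Nat.card (Z ⊓ V : Subgroup X) ∣ 6 :=
        (Subgroup.card_dvd_of_le inf_le_left).trans hZ6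
      have h2 : Nat.card (Z ⊓ V : Subgroup X) ∣ 4 := by
        have := Subgroup.card_dvd_of_le (inf_le_right : Z ⊓ V ≤ V)
        rwa [hV4] at this
      exact Nat.dvd_gcd h1 h2
    rcases (Nat.dvd_prime Nat.prime_two).mp hK2 with hK | hK
    · exact Subgroup.card_eq_one.mp hK
    · exfalso
      haveI hKn : (Z ⊓ V).Normal := Subgroup.normal_inf_normal Z V
      -- the involution `v`
      obtain ⟨⟨v, hvK⟩, hv1, hvu⟩ := (Nat.card_eq_two_iff' (1 : (Z ⊓ V : Subgroup X))).mp hK
      have hv1' : v ≠ 1 := fun h => hv1 (Subtype.ext h)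
      have huniq : ∀ w ∈ Z ⊓ V, w ≠ 1 → w = v := by
        intro w hw hw1
        have := hvu ⟨w, hw⟩ (fun h => hw1 (congrArg Subtype.val h))
        exact congrArg Subtype.val this
      have hvV : v ∈ V := hvK.2
      have hcentral : ∀ x : X, x * v * x⁻¹ = v := by
        intro x
        apply huniq _ (hKn.conj_mem _ hvK x)
        intro h
        apply hv1'
        have : v = x⁻¹ * (x * v * x⁻¹) * x := by group
        rw [this, h]; group
      -- an element of order 3
      haveI : Nontrivial (P : Subgroup X) := by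
        rw [← Finite.one_lt_card_iff_nontrivial, hP]; norm_num
      obtain ⟨⟨p, hpP⟩, hp1⟩ := exists_ne (1 : (P : Subgroup X))
      have hp1' : p ≠ 1 := fun h => hp1 (Subtype.ext h)
      have hp3 : p ^ 3 = 1 := by
        have := pow_card_eq_one' (G := (P : Subgroup X)) (x := ⟨p, hpP⟩)
        rw [hP] at this
        exact congrArg Subtype.val this
      -- `Z ⊓ V` has index 2 in `V`
      have hidx2 : ((Z ⊓ V).subgroupOf V).index = 2 := by
        have h1 := Subgroup.card_mul_index ((Z ⊓ V).subgroupOf V)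
        rw [Nat.card_congr (Subgroup.subgroupOfEquivOfLe (inf_le_right : Z ⊓ V ≤ V)).toEquiv,
          hK, hV4] at h1
        omega
      have hpc : ∀ w ∈ V, p * w * p⁻¹ = w := by
        intro w hw
        have hw' : p * w * p⁻¹ ∈ V := hVn.conj_mem _ hw p
        have h1 := Subgroup.mul_mem_iff_of_index_two hidx2
          (a := (⟨p * w * p⁻¹, hw'⟩ : V)) (b := (⟨w, hw⟩ : V))
        have h2 : p * w * p⁻¹ * w ∈ Z ⊓ V := by
          have h3 : ((⟨p * w * p⁻¹, hw'⟩ : V) ∈ (Z ⊓ V).subgroupOf V ↔
              (⟨w, hw⟩ : V) ∈ (Z ⊓ V).subgroupOf V) := by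
            rw [Subgroup.mem_subgroupOf, Subgroup.mem_subgroupOf]
            constructor
            · intro h
              have h4 := hKn.conj_mem _ h p⁻¹
              have h5 : p⁻¹ * (p * w * p⁻¹) * p⁻¹⁻¹ = w := by group
              rw [h5] at h4; exact h4
            · intro h
              exact hKn.conj_mem _ h p
          have h6 := h1.mpr h3
          rw [Subgroup.mem_subgroupOf] at h6
          exact h6
        have hww : w * w = 1 := hexp w hw
        by_cases h7 : p * w * p⁻¹ * w = 1
        · calc p * w * p⁻¹ = (p * w * p⁻¹ * w) * w⁻¹ := by group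
            _ = w⁻¹ := by rw [h7, one_mul]
            _ = w := inv_eq_of_mul_eq_one_left hww
        · exfalso
          have h8 := huniq _ h2 h7
          have e1 : p * w * p⁻¹ = v * w := by
            calc p * w * p⁻¹ = (p * w * p⁻¹ * w) * w⁻¹ := by group
              _ = v * w⁻¹ := by rw [h8]
              _ = v * w := by rw [inv_eq_of_mul_eq_one_left hww]
          have e2 : p * (p * w * p⁻¹) * p⁻¹ = w := by
            rw [e1]
            calc p * (v * w) * p⁻¹ = (p * v * p⁻¹) * (p * w * p⁻¹) := by group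
              _ = v * (v * w) := by rw [hcentral p, e1]
              _ = w := by rw [← mul_assoc, hexp v hvV, one_mul]
          have e3 : p * (p * (p * w * p⁻¹) * p⁻¹) * p⁻¹ = v * w := by rw [e2, e1]
          have hp3' : p * p * p = 1 := by
            have : p ^ 3 = p * p * p := by rw [pow_succ, pow_succ, pow_one]
            rw [← this]; exact hp3
          have e4 : p * (p * (p * w * p⁻¹) * p⁻¹) * p⁻¹ = (p * p * p) * w * (p * p * p)⁻¹ := by
            group
          rw [e4, hp3'] at e3
          apply hv1'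
          have : w = v * w := by simpa using e3
          calc v = (v * w) * w⁻¹ := by group
            _ = w * w⁻¹ := by rw [← this]
            _ = 1 := mul_inv_cancel w
      have hpV : p ∈ V := by
        apply hC
        rw [mem_centralizer_iff]
        intro w hw
        have := hpc w hw
        calc w * p = (p * w * p⁻¹) * p := by rw [this]
          _ = p * w := by group
      have : p ∈ (P : Subgroup X) ⊓ V := ⟨hpP, hpV⟩
      rw [hPV, mem_bot] at this
      exact hp1' this
  obtain ⟨e⟩ := Cfsg.Agent.H18.Dk.rec_sym (normalizer (P : Set X)) ⊥ hcore 4 hidx (by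
    rw [Nat.card_congr (QuotientGroup.quotientBot (G := X)).toEquiv, h24]; rfl)
  exact ⟨(QuotientGroup.quotientBot (G := X)).symm.trans e⟩

theorem recX (V : Subgroup X) [hVn : V.Normal] (hV4 : Nat.card V = 4)
    (hexp : ∀ v ∈ V, v * v = 1) (hC : centralizer (V : Set X) ≤ V) (h2 : V.index ≠ 2) :
    Nonempty (X ≃* DihedralGroup 2) ∨ Nonempty (X ≃* alternatingGroup (Fin 4)) ∨
      Nonempty (X ≃* Equiv.Perm (Fin 4)) := by
  have h6 := index_dvd_six V hV4 hexp hC
  have hcard := Subgroup.card_mul_index V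
  rw [hV4] at hcard
  have hi : V.index = 1 ∨ V.index = 3 ∨ V.index = 6 := idx6_arith _ h6 h2
  rcases hi with hi | hi | hi
  · left
    have hX : Nat.card X = 4 := by rw [hi] at hcard; omega
    have hVtop : V = ⊤ := Subgroup.index_eq_one.mp hi
    have hsq : ∀ g : X, g ^ 2 = 1 := by
      intro g
      rw [pow_two]
      exact hexp g (hVtop ▸ Subgroup.mem_top g)
    have he : Monoid.exponent X = 2 := by
      have h1 := Monoid.exponent_dvd_of_forall_pow_eq_one hsq
      rcases (Nat.dvd_prime Nat.prime_two).mp h1 with h | h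
      · exfalso
        have := Monoid.exp_eq_one_iff.mp h
        have h3 : Nat.card X ≤ 1 := Finite.card_le_one_iff_subsingleton.mpr this
        omega
      · exact h
    haveI : IsKleinFour X := ⟨hX, he⟩
    exact IsKleinFour.nonempty_mulEquiv
  · right; left
    exact rec12 V hV4 hC (by rw [hi] at hcard; omega)
  · right; right
    exact rec24 V hV4 hexp hC (by rw [hi] at hcard; omega)

end RecX

theorem ker_comp_iso {G : Type u} [Group G] (N : Subgroup G) [N.Normal] {Y : Type} [Group Y]
    (e : G ⧸ N ≃* Y) :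
    Function.Surjective (e.toMonoidHom.comp (QuotientGroup.mk' N)) ∧
      (e.toMonoidHom.comp (QuotientGroup.mk' N)).ker = N := by
  refine ⟨e.surjective.comp (QuotientGroup.mk'_surjective N), ?_⟩
  ext g
  rw [MonoidHom.mem_ker, MonoidHom.comp_apply]
  change e (QuotientGroup.mk g) = 1 ↔ _
  rw [MulEquiv.map_eq_one_iff, QuotientGroup.eq_one_iff]

theorem stRec : StRec.{u} := by
  intro G _ _ N T hNn hTn hNT hcard hsq hD hW
  classical
  haveI := hNn
  haveI := hTn
  have hπ : Function.Surjective (QuotientGroup.mk' N) := QuotientGroup.mk'_surjective N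
  set V : Subgroup (G ⧸ N) := T.map (QuotientGroup.mk' N) with hV
  haveI hVn : V.Normal := hTn.map (QuotientGroup.mk' N) hπ
  have hcomap : V.comap (QuotientGroup.mk' N) = T := by
    rw [hV, Subgroup.comap_map_eq, QuotientGroup.ker_mk']
    exact sup_eq_left.mpr hNT
  have hVidx : V.index = T.index := by
    rw [← hcomap, Subgroup.index_comap_of_surjective V hπ]
  have hGN := Subgroup.card_eq_card_quotient_mul_card_subgroup N
  have hV4 : Nat.card V = 4 := by
    have h1 := Subgroup.card_mul_index V
    have h2 := Subgroup.card_mul_index T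
    rw [hVidx] at h1
    have hNpos : 0 < Nat.card N := Nat.card_pos
    have hTidx : 0 < T.index := Nat.pos_of_ne_zero Subgroup.index_ne_zero_of_finite
    have h3 : Nat.card V * (T.index * Nat.card N) = 4 * (T.index * Nat.card N) := by
      calc Nat.card V * (T.index * Nat.card N) = (Nat.card V * T.index) * Nat.card N := by ring
        _ = Nat.card (G ⧸ N) * Nat.card N := by rw [h1]
        _ = Nat.card G := hGN.symm
        _ = Nat.card T * T.index := h2.symm
        _ = 4 * (T.index * Nat.card N) := by rw [hcard]; ring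
    exact Nat.eq_of_mul_eq_mul_right (Nat.mul_pos hTidx hNpos) h3
  have hexp : ∀ v ∈ V, v * v = 1 := by
    rintro _ ⟨t, ht, rfl⟩
    rw [← map_mul]
    exact (QuotientGroup.eq_one_iff _).mpr (hsq t ht)
  have hC : centralizer (V : Set (G ⧸ N)) ≤ V := by
    intro x hx
    obtain ⟨g, rfl⟩ := hπ x
    refine ⟨g, hD g ?_, rfl⟩
    intro t ht
    have h1 := (mem_centralizer_iff.mp hx) (QuotientGroup.mk' N t) ⟨t, ht, rfl⟩
    rw [← QuotientGroup.eq_one_iff]
    change QuotientGroup.mk' N (g * t * g⁻¹ * t⁻¹) = 1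
    rw [map_mul, map_mul, map_mul, map_inv, map_inv, ← h1]
    group
  have h2 : V.index ≠ 2 := by
    intro h
    rw [hVidx] at h
    have h1 := hW ⊤ inferInstance le_top ⟨1, by
      rw [Subgroup.card_top, ← Subgroup.card_mul_index T, h]; ring⟩
    rw [← h1, Subgroup.index_top] at h
    omega
  rcases recX V hV4 hexp hC h2 with h | h | h
  · obtain ⟨e⟩ := h
    exact Or.inl ⟨_, (ker_comp_iso N e).1, (ker_comp_iso N e).2⟩
  · obtain ⟨e⟩ := h
    exact Or.inr (Or.inl ⟨_, (ker_comp_iso N e).1, (ker_comp_iso N e).2⟩)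
  · obtain ⟨e⟩ := h
    exact Or.inr (Or.inr ⟨_, (ker_comp_iso N e).1, (ker_comp_iso N e).2⟩)

end Cfsg.Agent.H39.Fc
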