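import Cfsg.Agent.H39.FcDefs
import Cfsg.Agent.H41.AutAlt

/-!
# S4291-S5AUT: `Aut(A₅) = S₅` (helper39)
-/

set_option autoImplicit false

namespace Cfsg.Agent.H39.Fc

open Equiv

/-- a 3-cycle -/
def c3 : Perm (Fin 5) := swap 0 1 * swap 1 2

/-- a 5-cycle -/
def c5 : Perm (Fin 5) := swap 0 1 * swap 1 2 * swap 2 3 * swap 3 4

theorem c3_mem : c3 ∈ alternatingGroup (Fin 5) := by
  rw [Equiv.Perm.mem_alternatingGroup]; decide

theorem c5_mem : c5 ∈ alternatingGroup (Fin 5) := by
  rw [Equiv.Perm.mem_alternatingGroup]; decide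

theorem s5_centralizer : ∀ σ : Perm (Fin 5), σ * c3 = c3 * σ → σ * c5 = c5 * σ → σ = 1 := by
  decide +kernel

theorem stS5Aut : StS5Aut := by
  have hinj : Function.Injective
      (MulAut.conjNormal : Perm (Fin 5) →* MulAut (alternatingGroup (Fin 5))) := by
    rw [injective_iff_map_eq_one]
    intro σ hσ
    have h3 := congrArg (fun φ : MulAut (alternatingGroup (Fin 5)) =>
      ((φ ⟨c3, c3_mem⟩ : alternatingGroup (Fin 5)) : Perm (Fin 5))) hσ
    have h5 := congrArg (fun φ : MulAut (alternatingGroup (Fin 5)) =>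
      ((φ ⟨c5, c5_mem⟩ : alternatingGroup (Fin 5)) : Perm (Fin 5))) hσ
    simp only [MulAut.conjNormal_apply, MulAut.one_apply] at h3 h5
    apply s5_centralizer σ
    · calc σ * c3 = (σ * c3 * σ⁻¹) * σ := by group
        _ = c3 * σ := by rw [h3]
    · calc σ * c5 = (σ * c5 * σ⁻¹) * σ := by group
        _ = c5 * σ := by rw [h5]
  have hsurj : Function.Surjective
      (MulAut.conjNormal : Perm (Fin 5) →* MulAut (alternatingGroup (Fin 5))) := by
    intro φ
    exact Cfsg.Agent.H41.aut_alt_surj (by simp) (by simp) φ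
  refine ⟨MulEquiv.ofBijective _ ⟨hinj, hsurj⟩, ?_⟩
  intro σ g
  exact MulAut.conjNormal_apply σ g

end Cfsg.Agent.H39.Fc
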