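import Mathlib
import Cfsg.Agent.H95.FlagDefs

set_option autoImplicit false
open Cfsg.Agent.H95.Flag

namespace Cfsg.Agent.H39.Flag

/-- A sum over a fintype of a function vanishing outside `p` is the sum over the subtype. -/
theorem sum_eq_sum_subtype_of_zero {ι : Type*} [Fintype ι] {M : Type*} [AddCommMonoid M]
    (p : ι → Prop) [DecidablePred p] (f : ι → M) (hf : ∀ k, ¬ p k → f k = 0) :
    ∑ k, f k = ∑ k : {k // p k}, f k.1 := by
  rw [← Finset.sum_filter_of_ne (p := p)]
  · exact Finset.sum_subtype _ (by simp) f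
  · intro x _ hx
    by_contra h
    exact hx (hf x h)

/-- Multiplying by block triangular matrices does not increase the rank invariant. -/
theorem rkInv_mul_mul_le {n : ℕ} {F : Type*} [Field F] (a b : Fin n → ℕ)
    (p g p' : Matrix (Fin n) (Fin n) F)
    (hp : p.BlockTriangular a) (hp' : p'.BlockTriangular b) (s t : ℕ) :
    rkInv a b (p * g * p') s t ≤ rkInv a b g s t := by
  classical
  unfold rkInv
  have key : (p * g * p').submatrix (fun i : {i : Fin n // s ≤ a i} => i.1)
        (fun j : {j : Fin n // b j ≤ t} => j.1) =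
      p.submatrix (fun i : {i : Fin n // s ≤ a i} => i.1)
          (fun i : {i : Fin n // s ≤ a i} => i.1) *
        g.submatrix (fun i : {i : Fin n // s ≤ a i} => i.1)
          (fun j : {j : Fin n // b j ≤ t} => j.1) *
        p'.submatrix (fun j : {j : Fin n // b j ≤ t} => j.1)
          (fun j : {j : Fin n // b j ≤ t} => j.1) := by
    ext i j
    simp only [Matrix.submatrix_apply, Matrix.mul_apply]
    rw [sum_eq_sum_subtype_of_zero (fun l => b l ≤ t)]
    · apply Finset.sum_congr rfl
      intro l _
      congr 1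
      rw [sum_eq_sum_subtype_of_zero (fun k => s ≤ a k)]
      intro k hk
      have hik : a k < a i.1 := lt_of_lt_of_le (not_le.mp hk) i.2
      rw [hp hik]
      exact zero_mul _
    · intro l hl
      have hjl : b j.1 < b l := lt_of_le_of_lt j.2 (not_le.mp hl)
      rw [hp' hjl]
      exact mul_zero _
  rw [key]
  exact (Matrix.rank_mul_le_left _ _).trans (Matrix.rank_mul_le_right _ _)

/-- Rank invariance (piece S2423-RK1, exact statement posted by helper95). -/
theorem rkInv_mul_mul {n : ℕ} {F : Type*} [Field F] (a b : Fin n → ℕ)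
    (p g p' : Matrix (Fin n) (Fin n) F)
    (hp : p.BlockTriangular a) (hpu : IsUnit p.det) (hp' : p'.BlockTriangular b)
    (hpu' : IsUnit p'.det) :
    rkInv a b (p * g * p') = rkInv a b g := by
  funext s t
  apply le_antisymm (rkInv_mul_mul_le a b p g p' hp hp' s t)
  have hpi : (p⁻¹).BlockTriangular a := by
    letI := Matrix.invertibleOfIsUnitDet p hpu
    exact Matrix.blockTriangular_inv_of_blockTriangular hp
  have hpi' : (p'⁻¹).BlockTriangular b := by
    letI := Matrix.invertibleOfIsUnitDet p' hpu'
    exact Matrix.blockTriangular_inv_of_blockTriangular hp'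
  have h := rkInv_mul_mul_le a b p⁻¹ (p * g * p') p'⁻¹ hpi hpi' s t
  have h2 : p⁻¹ * (p * g * p') * p'⁻¹ = g := by
    rw [Matrix.mul_assoc p g p', ← Matrix.mul_assoc p⁻¹, Matrix.nonsing_inv_mul _ hpu,
      Matrix.one_mul, Matrix.mul_assoc, Matrix.mul_nonsing_inv _ hpu', Matrix.mul_one]
  rw [h2] at h
  exact h

/-- Rank of a sub-permutation matrix (piece S2423-RK2, exact statement posted by helper95). -/
theorem rkInv_pmat {n : ℕ} {F : Type*} [Field F] (a b : Fin n → ℕ) (σ : Equiv.Perm (Fin n)) :
    rkInv a b (pmat F σ) = cntInv a b σ := by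
  classical
  funext s t
  unfold rkInv cntInv
  rw [← Fintype.card_subtype]
  apply le_antisymm
  · let c : {j : Fin n // s ≤ a (σ j) ∧ b j ≤ t} → {j : Fin n // b j ≤ t} :=
      fun k => ⟨k.1, k.2.2⟩
    let V : Matrix {j : Fin n // s ≤ a (σ j) ∧ b j ≤ t} {j : Fin n // b j ≤ t} F :=
      Matrix.of fun k j => if k.1 = j.1 then 1 else 0
    have hSV : (pmat F σ).submatrix (fun i : {i : Fin n // s ≤ a i} => i.1)
          (fun j : {j : Fin n // b j ≤ t} => j.1) =
        ((pmat F σ).submatrix (fun i : {i : Fin n // s ≤ a i} => i.1)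
          (fun j : {j : Fin n // b j ≤ t} => j.1)).submatrix id c * V := by
      ext i j
      rw [Matrix.mul_apply]
      by_cases hj : s ≤ a (σ j.1)
      · rw [Finset.sum_eq_single (⟨j.1, hj, j.2⟩ : {j : Fin n // s ≤ a (σ j) ∧ b j ≤ t})]
        · simp [V, c]
        · intro k _ hk
          have hkj : k.1 ≠ j.1 := fun h => hk (Subtype.ext h)
          simp [V, hkj]
        · intro h; exact absurd (Finset.mem_univ _) h
      · rw [Finset.sum_eq_zero]
        · have hij : i.1 ≠ σ j.1 := by
            intro h; apply hj; rw [← h]; exact i.2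
          simp [pmat_apply, hij]
        · intro k _
          have hkj : k.1 ≠ j.1 := by
            intro h; apply hj; rw [← h]; exact k.2.1
          simp [V, hkj]
    rw [hSV]
    exact (Matrix.rank_mul_le_left _ _).trans (Matrix.rank_le_card_width _)
  · let r : {j : Fin n // s ≤ a (σ j) ∧ b j ≤ t} → {i : Fin n // s ≤ a i} :=
      fun k => ⟨σ k.1, k.2.1⟩
    let c : {j : Fin n // s ≤ a (σ j) ∧ b j ≤ t} → {j : Fin n // b j ≤ t} :=
      fun k => ⟨k.1, k.2.2⟩
    have h1 : ((pmat F σ).submatrix (fun i : {i : Fin n // s ≤ a i} => i.1)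
          (fun j : {j : Fin n // b j ≤ t} => j.1)).submatrix r c = 1 := by
      ext k k'
      simp only [Matrix.submatrix_apply, pmat_apply, Matrix.one_apply, r, c]
      by_cases h : k = k'
      · simp [h]
      · have h' : σ k.1 ≠ σ k'.1 := fun h' => h (Subtype.ext (σ.injective h'))
        simp [h, h']
    have h2 := Matrix.rank_submatrix_le ((pmat F σ).submatrix
      (fun i : {i : Fin n // s ≤ a i} => i.1) (fun j : {j : Fin n // b j ≤ t} => j.1)) r c
    rw [h1, Matrix.rank_one] at h2
    exact h2

end Cfsg.Agent.H39.Flag
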