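import Mathlib
import Cfsg.Prelude.Def_CaseTheorems
import Cfsg.Agent.H39.CoreOf
import Cfsg.Agent.H54.Gen
import Cfsg.Agent.H3.Critical

set_option autoImplicit false

namespace Cfsg.Agent.H39

open Cfsg

local notation "cj(" g ", " Q ")" => Subgroup.map (MulEquiv.toMonoidHom (MulAut.conj g)) Q
local notation "N(" Q ")" => Subgroup.normalizer (SetLike.coe (Q : Subgroup _))

theorem mem_zpowers_of_sq {X : Type*} [Group X] {u x : X} (hu2 : u ^ 2 = 1)
    (hx : x ∈ Subgroup.zpowers u) : x = 1 ∨ x = u := by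
  obtain ⟨k, rfl⟩ := Subgroup.mem_zpowers_iff.mp hx
  have h2 : u ^ (2 : ℤ) = 1 := by
    have : u ^ (2 : ℤ) = u ^ (2 : ℕ) := by norm_cast
    rw [this, hu2]
  rcases Int.emod_two_eq_zero_or_one k with h | h
  · left
    have hk : k = 2 * (k / 2) := by omega
    rw [hk, zpow_mul, h2, one_zpow]
  · right
    have hk : k = 2 * (k / 2) + 1 := by omega
    rw [hk, zpow_add, zpow_mul, h2, one_zpow, one_mul, zpow_one]

theorem card_mul_relIndex_of_le {G : Type*} [Group G] {H K : Subgroup G} (h : H ≤ K) :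
    Nat.card H * H.relIndex K = Nat.card K := by
  have h1 := Subgroup.card_mul_index (H.subgroupOf K)
  rw [Nat.card_congr (Subgroup.subgroupOfEquivOfLe h).toEquiv] at h1
  exact h1

/-- In a group of characteristic 2 an element acting on `O_2` with commutators in a central
subgroup of order at most `2` lies in `O_2`. -/
theorem mem_pCore_two_of_comm {X : Type*} [Group X] [Finite X]
    (hchar : Subgroup.centralizer (Cfsg.pCore 2 X : Set X) ≤ Cfsg.pCore 2 X) (u : X)
    (hu2 : u ^ 2 = 1) (hucen : u ∈ Subgroup.center X) (v : X)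
    (hv : ∀ r ∈ Cfsg.pCore 2 X, v * r * v⁻¹ * r⁻¹ ∈ Subgroup.zpowers u) :
    v ∈ Cfsg.pCore 2 X := by
  haveI : Fact (Nat.Prime 2) := ⟨Nat.prime_two⟩
  have huc := Subgroup.mem_center_iff.mp hucen
  haveI hZn : (Subgroup.zpowers u).Normal := by
    refine ⟨fun x hx g => ?_⟩
    have hxc : x ∈ Subgroup.center X := (Subgroup.zpowers_le.mpr hucen) hx
    rw [Subgroup.mem_center_iff] at hxc
    have h1 : g * x * g⁻¹ = x := by rw [hxc g]; group
    rw [h1]
    exact hx
  have hRn : (Cfsg.pCore 2 X).Normal := pCore_normal' 2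
  set M := H54.commSub (Subgroup.zpowers u) (Cfsg.pCore 2 X) with hM
  have hMn : M.Normal := by
    refine ⟨fun g hg x => ?_⟩
    rw [hM, H54.mem_commSub] at hg ⊢
    intro r hr
    have hr' : x⁻¹ * r * x ∈ Cfsg.pCore 2 X := by
      have h0 := hRn.conj_mem r hr x⁻¹
      simpa using h0
    have h1 := hZn.conj_mem _ (hg _ hr') x
    convert h1 using 1
    group
  have hMp : IsPGroup 2 M := by
    rintro ⟨g, hg⟩
    have hg2 : g ^ 2 ∈ Subgroup.centralizer (Cfsg.pCore 2 X : Set X) := by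
      rw [Subgroup.mem_centralizer_iff]
      intro r hr
      have h1 := (H54.mem_commSub.mp hg) r hr
      rcases mem_zpowers_of_sq hu2 h1 with h | h
      · have h2 : g * r = r * g := by
          have h3 : g * r = (g * r * g⁻¹ * r⁻¹) * r * g := by group
          rw [h3, h, one_mul]
        have hc : Commute g r := h2
        exact (hc.pow_left 2).eq.symm
      · have h2 : g * r = u * r * g := by
          have h3 : g * r = (g * r * g⁻¹ * r⁻¹) * r * g := by group
          rw [h3, h]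
        have hu2' : u * u = 1 := by rw [← pow_two, hu2]
        calc r * g ^ 2 = (u * u) * r * (g * g) := by rw [hu2', one_mul, pow_two]
          _ = u * (u * r * g) * g := by group
          _ = u * (g * r) * g := by rw [h2]
          _ = (u * g) * r * g := by group
          _ = (g * u) * r * g := by rw [huc g]
          _ = g * (u * r * g) := by group
          _ = g * (g * r) := by rw [h2]
          _ = g ^ 2 * r := by rw [pow_two]; group
    have hg2' := hchar hg2
    obtain ⟨k, hk⟩ := (pCore_isPGroup (G := X) 2) ⟨g ^ 2, hg2'⟩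
    refine ⟨k + 1, ?_⟩
    apply Subtype.ext
    have hk' := congrArg Subtype.val hk
    push_cast at hk' ⊢
    rw [pow_succ', pow_mul]
    exact hk'
  exact (le_pCore hMn hMp) (H54.mem_commSub.mpr hv)

theorem centralizer_le_normalizer_zpowers {G : Type*} [Group G] [Finite G] {u a : G}
    (h : a * u = u * a) : a ∈ Subgroup.normalizer (Subgroup.zpowers u : Set G) := by
  apply mem_normalizer_of_conjMap_le
  rintro _ ⟨x, hx, rfl⟩
  obtain ⟨k, rfl⟩ := Subgroup.mem_zpowers_iff.mp hx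
  have hc : Commute a (u ^ k) := Commute.zpow_right h k
  show a * u ^ k * a⁻¹ ∈ Subgroup.zpowers u
  rw [hc.eq, mul_inv_cancel_right]
  exact Subgroup.zpow_mem_zpowers u k

theorem comm_of_mem_normalizer_zpowers {G : Type*} [Group G] {u g : G} (hu1 : u ≠ 1)
    (hu2 : u ^ 2 = 1) (hg : g ∈ Subgroup.normalizer (Subgroup.zpowers u : Set G)) :
    g * u = u * g := by
  have h1 := (Subgroup.mem_normalizer_iff.mp hg u).mp (Subgroup.mem_zpowers u)
  rcases mem_zpowers_of_sq hu2 h1 with h | h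
  · exfalso
    apply hu1
    have h2 : u = g⁻¹ * (g * u * g⁻¹) * g := by group
    rw [h2, h]
    group
  · have h2 : g * u = (g * u * g⁻¹) * g := by group
    rw [h2, h]

/-- A subgroup `U` of order `4` containing the involution `u`, centralizing `u` and normalized by
`O_2(N(⟨u⟩))`, lies in `O_2(N(⟨u⟩))` when `N(⟨u⟩)` has characteristic `2`. -/
theorem four_le_pCoreOf {G : Type*} [Group G] [Finite G] (u : G) (hu1 : u ≠ 1) (hu2 : u ^ 2 = 1)
    (hchar : Cfsg.IsOfCharacteristicTwo ↥(Subgroup.normalizer (Subgroup.zpowers u : Set G)))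
    (U : Subgroup G) (hU4 : Nat.card U = 4) (hUab : ∀ a ∈ U, a * u = u * a) (huU : u ∈ U)
    (hRU : ∀ r ∈ Cfsg.pCoreOf 2 (Subgroup.normalizer (Subgroup.zpowers u : Set G)),
      ∀ v ∈ U, r * v * r⁻¹ ∈ U) :
    U ≤ Cfsg.pCoreOf 2 (Subgroup.normalizer (Subgroup.zpowers u : Set G)) := by
  haveI : Fact (Nat.Prime 2) := ⟨Nat.prime_two⟩
  set N := Subgroup.normalizer (Subgroup.zpowers u : Set G) with hN
  set R := Cfsg.pCoreOf 2 N with hR
  have hcenN : ∀ g ∈ N, g * u = u * g := fun g hg => comm_of_mem_normalizer_zpowers hu1 hu2 hg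
  have hUN : U ≤ N := fun a ha => centralizer_le_normalizer_zpowers (hUab a ha)
  have huN : u ∈ N := hUN huU
  have hord : orderOf u = 2 := orderOf_eq_prime hu2 hu1
  have hcardZ : Nat.card (Subgroup.zpowers u) = 2 := by rw [Nat.card_zpowers, hord]
  have hZN : Subgroup.zpowers u ≤ N := Subgroup.zpowers_le.mpr huN
  have hZU : Subgroup.zpowers u ≤ U := Subgroup.zpowers_le.mpr huU
  have hZ2 : IsPGroup 2 (Subgroup.zpowers u) := IsPGroup.of_card (n := 1) (by rw [hcardZ, pow_one])
  have hZR : Subgroup.zpowers u ≤ R := le_pCoreOf hZN le_rfl hZ2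
  by_contra hcon
  obtain ⟨v₀, hv₀U, hv₀R⟩ := SetLike.not_le_iff_exists.mp hcon
  have hinf : U ⊓ R = Subgroup.zpowers u := by
    have h1 : Nat.card ↥(U ⊓ R) ∣ 4 := by
      rw [← hU4]
      exact Subgroup.card_dvd_of_le inf_le_left
    have h2 : 2 ≤ Nat.card ↥(U ⊓ R) := by
      rw [← hcardZ]
      exact Subgroup.card_le_of_le (le_inf hZU hZR)
    have h3 : Nat.card ↥(U ⊓ R) ≠ 4 := by
      intro h4
      have h5 : U ⊓ R = U := Subgroup.eq_of_le_of_card_ge inf_le_left (by rw [h4, hU4])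
      have h6 : v₀ ∈ U ⊓ R := by rw [h5]; exact hv₀U
      exact hv₀R (Subgroup.mem_inf.mp h6).2
    have h4 : Nat.card ↥(U ⊓ R) ≤ 4 := Nat.le_of_dvd (by norm_num) h1
    have h5 : Nat.card ↥(U ⊓ R) = 2 := by
      interval_cases (Nat.card ↥(U ⊓ R)) <;> simp_all
    exact (Subgroup.eq_of_le_of_card_ge (le_inf hZU hZR) (by rw [h5, hcardZ])).symm
  apply hv₀R
  have hv₀N : v₀ ∈ N := hUN hv₀U
  have key : (⟨v₀, hv₀N⟩ : ↥N) ∈ Cfsg.pCore 2 ↥N := by
    apply mem_pCore_two_of_comm hchar ⟨u, huN⟩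
    · apply Subtype.ext
      push_cast
      exact hu2
    · rw [Subgroup.mem_center_iff]
      rintro ⟨g, hg⟩
      apply Subtype.ext
      exact hcenN g hg
    · intro r hr
      have hrR : (r : G) ∈ R := ⟨r, hr, rfl⟩
      have h1 : v₀ * (r : G) * v₀⁻¹ * (r : G)⁻¹ ∈ U := by
        have h2 := hRU _ hrR _ (U.inv_mem hv₀U)
        have h3 := U.mul_mem hv₀U h2
        have h4 : v₀ * ((r : G) * v₀⁻¹ * (r : G)⁻¹) = v₀ * (r : G) * v₀⁻¹ * (r : G)⁻¹ := by group
        rwa [h4] at h3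
      have h2 : v₀ * (r : G) * v₀⁻¹ * (r : G)⁻¹ ∈ R :=
        R.mul_mem (conj_mem_pCoreOf 2 hv₀N hrR) (R.inv_mem hrR)
      have h3 : v₀ * (r : G) * v₀⁻¹ * (r : G)⁻¹ ∈ Subgroup.zpowers u := by
        rw [← hinf]
        exact Subgroup.mem_inf.mpr ⟨h1, h2⟩
      obtain ⟨k, hk⟩ := Subgroup.mem_zpowers_iff.mp h3
      rw [Subgroup.mem_zpowers_iff]
      refine ⟨k, ?_⟩
      apply Subtype.ext
      push_cast
      exact hk
  exact ⟨⟨v₀, hv₀N⟩, key, rfl⟩

end Cfsg.Agent.H39
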