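import Mathlib
import Cfsg.Agent.H39.FourCore

set_option autoImplicit false

namespace Cfsg.Agent.H39

open Cfsg

local notation "cj(" g ", " Q ")" => Subgroup.map (MulEquiv.toMonoidHom (MulAut.conj g)) Q
local notation "N(" Q ")" => Subgroup.normalizer (SetLike.coe (Q : Subgroup _))

theorem cyclic_invol {G : Type*} [Group G] [Finite G] (C : Subgroup G) (hC : IsCyclic ↥C)
    {z s : G} (hz : z ∈ C) (hz1 : z ≠ 1) (hz2 : z ^ 2 = 1) (hs : s ∈ C) (hs2 : s ^ 2 = 1) :
    s = 1 ∨ s = z := by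
  classical
  by_contra hcon
  push Not at hcon
  haveI : Fintype ↥C := Fintype.ofFinite _
  have h1 := IsCyclic.card_pow_eq_one_le (α := ↥C) (n := 2) (by norm_num)
  have h2 : ({1, ⟨z, hz⟩, ⟨s, hs⟩} : Finset ↥C) ⊆
      Finset.univ.filter (fun a : ↥C => a ^ 2 = 1) := by
    intro a ha
    simp only [Finset.mem_insert, Finset.mem_singleton] at ha
    rw [Finset.mem_filter]
    refine ⟨Finset.mem_univ _, ?_⟩
    rcases ha with rfl | rfl | rfl
    · exact one_pow 2
    · exact Subtype.ext hz2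
    · exact Subtype.ext hs2
  have h3 : ({1, ⟨z, hz⟩, ⟨s, hs⟩} : Finset ↥C).card = 3 := by
    rw [Finset.card_eq_three]
    refine ⟨1, ⟨z, hz⟩, ⟨s, hs⟩, ?_, ?_, ?_, rfl⟩
    · intro h
      exact hz1 (congrArg Subtype.val h).symm
    · intro h
      exact hcon.1 (congrArg Subtype.val h).symm
    · intro h
      exact hcon.2 (congrArg Subtype.val h).symm
  have h4 := Finset.card_le_card h2
  rw [h3] at h4
  have h5 := le_trans h4 (by convert h1)
  omega

theorem four_elts {G : Type*} [Group G] (U : Subgroup G) (hU4 : Nat.card U = 4) {z u : G}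
    (hz : z ∈ U) (hu : u ∈ U) (hz1 : z ≠ 1) (hu1 : u ≠ 1) (hzu : z ≠ u) (hz2 : z ^ 2 = 1)
    (hu2 : u ^ 2 = 1) : ∀ a ∈ U, a = 1 ∨ a = z ∨ a = u ∨ a = z * u := by
  have hord : orderOf z = 2 := orderOf_eq_prime hz2 hz1
  have hcardZ : Nat.card (Subgroup.zpowers z) = 2 := by rw [Nat.card_zpowers, hord]
  have hZU : Subgroup.zpowers z ≤ U := Subgroup.zpowers_le.mpr hz
  have hrel : (Subgroup.zpowers z).relIndex U = 2 := by
    have h1 := card_mul_relIndex_of_le hZU
    rw [hcardZ, hU4] at h1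
    omega
  have huZ : u ∉ Subgroup.zpowers z := by
    intro h
    rcases mem_zpowers_of_sq hz2 h with h | h
    · exact hu1 h
    · exact hzu h.symm
  have huu : u * u = 1 := by rw [← pow_two, hu2]
  intro a ha
  by_cases haZ : a ∈ Subgroup.zpowers z
  · rcases mem_zpowers_of_sq hz2 haZ with h | h
    · exact Or.inl h
    · exact Or.inr (Or.inl h)
  · have h1 := Subgroup.mul_mem_iff_of_index_two (H := (Subgroup.zpowers z).subgroupOf U) hrel
      (a := ⟨a, ha⟩) (b := ⟨u, hu⟩)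
    have h2 : a * u ∈ Subgroup.zpowers z := by
      have h3 : (⟨a, ha⟩ : ↥U) * ⟨u, hu⟩ ∈ (Subgroup.zpowers z).subgroupOf U := by
        rw [h1]
        constructor
        · intro h
          exact absurd (Subgroup.mem_subgroupOf.mp h) haZ
        · intro h
          exact absurd (Subgroup.mem_subgroupOf.mp h) huZ
      exact Subgroup.mem_subgroupOf.mp h3
    have h4 : a = (a * u) * u := by rw [mul_assoc, huu, mul_one]
    rcases mem_zpowers_of_sq hz2 h2 with h | h
    · right; right; left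
      rw [h4, h, one_mul]
    · right; right; right
      rw [h4, h]

theorem case2_struct {G : Type*} [Group G] [Finite G] (P U : Subgroup G) (hUP : U ≤ P)
    (hUn : P ≤ Subgroup.normalizer (U : Set G))
    (hUab : ∀ a ∈ U, ∀ b ∈ U, a * b = b * a)
    {z u w₀ : G} (hzU : z ∈ U) (huU : u ∈ U) (hz2 : z ^ 2 = 1) (hu2 : u ^ 2 = 1)
    (hzc : ∀ x ∈ P, x * z = z * x) (hw₀ : w₀ ∈ P) (hw₀u : w₀ * u ≠ u * w₀)
    (hUelts : ∀ a ∈ U, a = 1 ∨ a = z ∨ a = u ∨ a = z * u)
    (hcentP : ∀ s ∈ P, (∀ x ∈ P, x * s = s * x) → s ^ 2 = 1 → s = 1 ∨ s = z) :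
    (P ⊓ Subgroup.centralizer (U : Set G)).relIndex P = 2 ∧
    ∀ t ∈ P ⊓ Subgroup.centralizer (U : Set G),
      (∀ x ∈ P ⊓ Subgroup.centralizer (U : Set G), x * t = t * x) → t ^ 2 = 1 → t ∈ U := by
  set T := P ⊓ Subgroup.centralizer (U : Set G) with hT
  have hu1 : u ≠ 1 := by
    rintro rfl
    exact hw₀u (by rw [mul_one, one_mul])
  have hzu : z ≠ u := by
    rintro rfl
    exact hw₀u (hzc w₀ hw₀)
  have hzz : z * z = 1 := by rw [← pow_two, hz2]
  have huu : u * u = 1 := by rw [← pow_two, hu2]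
  have hconjU : ∀ w ∈ P, ∀ a ∈ U, w * a * w⁻¹ ∈ U := fun w hw a ha =>
    (Subgroup.mem_normalizer_iff.mp (hUn hw) a).mp ha
  have hconj : ∀ w ∈ P, w * u * w⁻¹ = u ∨ w * u * w⁻¹ = z * u := by
    intro w hw
    rcases hUelts _ (hconjU w hw u huU) with h | h | h | h
    · exfalso
      apply hu1
      have e : u = w⁻¹ * (w * u * w⁻¹) * w := by group
      rw [e, h]
      group
    · exfalso
      apply hzu
      have e : u = w⁻¹ * (w * u * w⁻¹) * w := by group
      rw [e, h]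
      have h1 := hzc w hw
      have h2 : w⁻¹ * z * w = w⁻¹ * (z * w) := by group
      rw [h2, ← h1]
      group
    · exact Or.inl h
    · exact Or.inr h
  have hmemT : ∀ x ∈ P, x * u = u * x → x ∈ T := by
    intro x hx hxu
    refine Subgroup.mem_inf.mpr ⟨hx, ?_⟩
    rw [Subgroup.mem_centralizer_iff]
    intro a ha
    rcases hUelts a ha with rfl | rfl | rfl | rfl
    · rw [one_mul, mul_one]
    · exact (hzc x hx).symm
    · exact hxu.symm
    · calc z * u * x = z * (u * x) := by group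
        _ = z * (x * u) := by rw [hxu]
        _ = (z * x) * u := by group
        _ = (x * z) * u := by rw [hzc x hx]
        _ = x * (z * u) := by group
  have hTu : ∀ x ∈ T, x * u = u * x := fun x hx =>
    ((Subgroup.mem_centralizer_iff.mp (Subgroup.mem_inf.mp hx).2) u huU).symm
  have hw₀T : w₀ ∉ T := fun h => hw₀u (hTu w₀ h)
  have hw₀conj : w₀ * u * w₀⁻¹ = z * u := by
    rcases hconj w₀ hw₀ with h | h
    · exfalso
      apply hw₀u
      have e : w₀ * u = (w₀ * u * w₀⁻¹) * w₀ := by group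
      rw [e, h]
    · exact h
  have hcoset : ∀ b ∈ P, b * w₀ ∈ T ∨ b ∈ T := by
    intro b hb
    by_cases hbu : b * u = u * b
    · exact Or.inr (hmemT b hb hbu)
    · left
      apply hmemT _ (P.mul_mem hb hw₀)
      have hb' : b * u * b⁻¹ = z * u := by
        rcases hconj b hb with h | h
        · exfalso
          apply hbu
          have e : b * u = (b * u * b⁻¹) * b := by group
          rw [e, h]
        · exact h
      calc b * w₀ * u = b * (w₀ * u * w₀⁻¹) * w₀ := by group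
        _ = b * (z * u) * w₀ := by rw [hw₀conj]
        _ = (b * z) * u * w₀ := by group
        _ = (z * b) * u * w₀ := by rw [hzc b hb]
        _ = z * (b * u * b⁻¹) * b * w₀ := by group
        _ = z * (z * u) * b * w₀ := by rw [hb']
        _ = (z * z) * u * b * w₀ := by group
        _ = u * (b * w₀) := by rw [hzz, one_mul]; group
  have hrel : T.relIndex P = 2 := by
    rw [Subgroup.relIndex_eq_two_iff_exists_notMem_and]
    exact ⟨w₀, hw₀, hw₀T, hcoset⟩
  refine ⟨hrel, ?_⟩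
  have hTnorm : ∀ w ∈ P, ∀ x ∈ T, w * x * w⁻¹ ∈ T := by
    intro w hw x hx
    refine Subgroup.mem_inf.mpr
      ⟨P.mul_mem (P.mul_mem hw (Subgroup.mem_inf.mp hx).1) (P.inv_mem hw), ?_⟩
    rw [Subgroup.mem_centralizer_iff]
    intro a ha
    have ha' : w⁻¹ * a * w ∈ U := by
      have h0 := hconjU w⁻¹ (P.inv_mem hw) a ha
      simpa using h0
    have h1 := (Subgroup.mem_centralizer_iff.mp (Subgroup.mem_inf.mp hx).2) _ ha'
    calc a * (w * x * w⁻¹) = w * (w⁻¹ * a * w * x) * w⁻¹ := by group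
      _ = w * (x * (w⁻¹ * a * w)) * w⁻¹ := by rw [h1]
      _ = w * x * w⁻¹ * a := by group
  have hPcomm : ∀ s, (∀ x ∈ T, x * s = s * x) → w₀ * s = s * w₀ → ∀ b ∈ P, b * s = s * b := by
    intro s hsT hsw b hb
    rcases hcoset b hb with h | h
    · have h1 := hsT _ h
      have h2 : b * s * w₀ = s * b * w₀ := by
        calc b * s * w₀ = b * (s * w₀) := by group
          _ = b * (w₀ * s) := by rw [hsw]
          _ = b * w₀ * s := by group
          _ = s * (b * w₀) := h1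
          _ = s * b * w₀ := by group
      exact mul_right_cancel h2
    · exact hsT b h
  have hv' : ∀ t ∈ T, (∀ x ∈ T, x * t = t * x) → t ^ 2 = 1 → t * (w₀ * t * w₀⁻¹) = 1 →
      t = 1 ∨ t = z := by
    intro t ht htc ht2 hprod
    have htt : t * t = 1 := by rw [← pow_two, ht2]
    have hsw : w₀ * t = t * w₀ := by
      have h1 : w₀ * t * w₀⁻¹ = t := by
        have e : w₀ * t * w₀⁻¹ = t⁻¹ * (t * (w₀ * t * w₀⁻¹)) := by group
        rw [e, hprod, mul_one]
        exact inv_eq_of_mul_eq_one_left htt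
      have e : w₀ * t = (w₀ * t * w₀⁻¹) * w₀ := by group
      rw [e, h1]
    exact hcentP t (Subgroup.mem_inf.mp ht).1 (hPcomm t htc hsw) ht2
  intro t ht htc ht2
  have htt : t * t = 1 := by rw [← pow_two, ht2]
  have ht'T : w₀ * t * w₀⁻¹ ∈ T := hTnorm w₀ hw₀ t ht
  have ht'c : ∀ x ∈ T, x * (w₀ * t * w₀⁻¹) = (w₀ * t * w₀⁻¹) * x := by
    intro x hx
    have hx' : w₀⁻¹ * x * w₀ ∈ T := by
      have h0 := hTnorm w₀⁻¹ (P.inv_mem hw₀) x hx
      simpa using h0
    have h1 := htc _ hx'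
    calc x * (w₀ * t * w₀⁻¹) = w₀ * (w₀⁻¹ * x * w₀ * t) * w₀⁻¹ := by group
      _ = w₀ * (t * (w₀⁻¹ * x * w₀)) * w₀⁻¹ := by rw [h1]
      _ = (w₀ * t * w₀⁻¹) * x := by group
  have ht't' : (w₀ * t * w₀⁻¹) * (w₀ * t * w₀⁻¹) = 1 := by
    calc w₀ * t * w₀⁻¹ * (w₀ * t * w₀⁻¹) = w₀ * (t * t) * w₀⁻¹ := by group
      _ = 1 := by rw [htt]; group
  have htt'comm : t * (w₀ * t * w₀⁻¹) = (w₀ * t * w₀⁻¹) * t := (htc _ ht'T).symm
  have hsT : t * (w₀ * t * w₀⁻¹) ∈ T := T.mul_mem ht ht'T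
  have hsc : ∀ x ∈ T, x * (t * (w₀ * t * w₀⁻¹)) = (t * (w₀ * t * w₀⁻¹)) * x := by
    intro x hx
    calc x * (t * (w₀ * t * w₀⁻¹)) = (x * t) * (w₀ * t * w₀⁻¹) := by group
      _ = (t * x) * (w₀ * t * w₀⁻¹) := by rw [htc x hx]
      _ = t * (x * (w₀ * t * w₀⁻¹)) := by group
      _ = t * ((w₀ * t * w₀⁻¹) * x) := by rw [ht'c x hx]
      _ = (t * (w₀ * t * w₀⁻¹)) * x := by group
  have hw₀2 : w₀ * w₀ ∈ T := by
    rcases hcoset w₀ hw₀ with h | h
    · exact h
    · exact absurd h hw₀T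
  have hsw : w₀ * (t * (w₀ * t * w₀⁻¹)) = (t * (w₀ * t * w₀⁻¹)) * w₀ := by
    have h1 := htc _ hw₀2
    have h2 : w₀ * (w₀ * t * w₀⁻¹) * w₀⁻¹ = t := by
      calc w₀ * (w₀ * t * w₀⁻¹) * w₀⁻¹ = (w₀ * w₀ * t) * w₀⁻¹ * w₀⁻¹ := by group
        _ = (t * (w₀ * w₀)) * w₀⁻¹ * w₀⁻¹ := by rw [h1]
        _ = t := by group
    calc w₀ * (t * (w₀ * t * w₀⁻¹))
        = (w₀ * t * w₀⁻¹) * (w₀ * (w₀ * t * w₀⁻¹) * w₀⁻¹) * w₀ := by group
      _ = (w₀ * t * w₀⁻¹) * t * w₀ := by rw [h2]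
      _ = (t * (w₀ * t * w₀⁻¹)) * w₀ := by rw [htt'comm]
  have hs2 : (t * (w₀ * t * w₀⁻¹)) ^ 2 = 1 := by
    rw [pow_two]
    calc t * (w₀ * t * w₀⁻¹) * (t * (w₀ * t * w₀⁻¹))
        = t * ((w₀ * t * w₀⁻¹) * t) * (w₀ * t * w₀⁻¹) := by group
      _ = t * (t * (w₀ * t * w₀⁻¹)) * (w₀ * t * w₀⁻¹) := by rw [htt'comm]
      _ = (t * t) * ((w₀ * t * w₀⁻¹) * (w₀ * t * w₀⁻¹)) := by group
      _ = 1 := by rw [htt, ht't', one_mul]
  rcases hcentP _ (Subgroup.mem_inf.mp hsT).1 (hPcomm _ hsc hsw) hs2 with h | h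
  · rcases hv' t ht htc ht2 h with h' | h'
    · rw [h']
      exact U.one_mem
    · rw [h']
      exact hzU
  · have huT : u ∈ T := hmemT u (hUP huU) rfl
    have h3 : t * u = 1 ∨ t * u = z := by
      apply hv' (t * u) (T.mul_mem ht huT)
      · intro x hx
        calc x * (t * u) = (x * t) * u := by group
          _ = (t * x) * u := by rw [htc x hx]
          _ = t * (x * u) := by group
          _ = t * (u * x) := by rw [hTu x hx]
          _ = t * u * x := by group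
      · rw [pow_two]
        have e : u * t = t * u := htc u huT
        calc t * u * (t * u) = t * (u * t) * u := by group
          _ = t * (t * u) * u := by rw [e]
          _ = (t * t) * (u * u) := by group
          _ = 1 := by rw [htt, huu, one_mul]
      · calc t * u * (w₀ * (t * u) * w₀⁻¹)
            = t * (u * (w₀ * t * w₀⁻¹)) * (w₀ * u * w₀⁻¹) := by group
          _ = t * ((w₀ * t * w₀⁻¹) * u) * (z * u) := by rw [← hTu _ ht'T, hw₀conj]
          _ = (t * (w₀ * t * w₀⁻¹)) * (u * z) * u := by group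
          _ = z * (z * u) * u := by rw [h, hzc u (hUP huU)]
          _ = (z * z) * (u * u) := by group
          _ = 1 := by rw [hzz, huu, one_mul]
    have e : t = (t * u) * u := by rw [mul_assoc, huu, mul_one]
    rcases h3 with h' | h'
    · rw [e, h', one_mul]
      exact huU
    · rw [e, h']
      exact U.mul_mem hzU huU

end Cfsg.Agent.H39
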