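import Mathlib
import Cfsg.Agent.H39.FourCore2

set_option autoImplicit false

namespace Cfsg.Agent.H39

open Cfsg

local notation "cj(" g ", " Q ")" => Subgroup.map (MulEquiv.toMonoidHom (MulAut.conj g)) Q
local notation "N(" Q ")" => Subgroup.normalizer (SetLike.coe (Q : Subgroup _))

/-- In a group of characteristic 2 type, a four-group normal in a Sylow 2-subgroup `P` (central
in `P` when `Z(P)` is not cyclic) centralizes every odd-order subgroup it normalizes. -/
theorem four_centralizes_odd {G : Type*} [Group G] [Finite G]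
    (h2 : Cfsg.IsCharacteristicTwoType G)
    (P : Sylow 2 G) (U : Subgroup G) (hUP : U ≤ (P : Subgroup G))
    (hUn : (P : Subgroup G) ≤ Subgroup.normalizer (U : Set G))
    (hU4 : IsKleinFour ↥U)
    (hUZ : ¬ IsCyclic ↥((P : Subgroup G) ⊓ Subgroup.centralizer ((P : Subgroup G) : Set G)) →
      U ≤ Subgroup.centralizer ((P : Subgroup G) : Set G))
    (K : Subgroup G) (hK : Odd (Nat.card K)) (hUK : U ≤ Subgroup.normalizer (K : Set G)) :
    U ≤ Subgroup.centralizer (K : Set G) := by
  haveI : Fact (Nat.Prime 2) := ⟨Nat.prime_two⟩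
  have hcard : Nat.card U = 4 := hU4.card_four
  have hexp : ∀ a ∈ U, a ^ 2 = 1 := by
    intro a ha
    have h1 : (⟨a, ha⟩ : ↥U) ^ 2 = 1 := by
      have h0 := Monoid.pow_exponent_eq_one (⟨a, ha⟩ : ↥U)
      rwa [hU4.exponent_two] at h0
    have h3 := congrArg Subtype.val h1
    push_cast at h3
    exact h3
  have hUab : ∀ a ∈ U, ∀ b ∈ U, a * b = b * a := by
    intro a ha b hb
    have h0 := mul_comm_of_exponent_two hU4.exponent_two (⟨a, ha⟩ : ↥U) ⟨b, hb⟩
    exact congrArg Subtype.val h0
  have hEA : Cfsg.IsElementaryAbelian 2 U :=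
    ⟨⟨⟨fun a b => Subtype.ext (hUab a a.2 b b.2)⟩⟩, hexp⟩
  rw [Subgroup.le_centralizer_iff]
  apply H54.le_of_centralizer_elt_le (p := 2) U K _ hEA (by rw [hcard]; norm_num) ?_ hUK
  · intro u huU hu1
    have hu2 := hexp u huU
    set N := Subgroup.normalizer (Subgroup.zpowers u : Set G) with hN
    set R := Cfsg.pCoreOf 2 N with hR
    have hord : orderOf u = 2 := orderOf_eq_prime hu2 hu1
    have hcardZ : Nat.card (Subgroup.zpowers u) = 2 := by rw [Nat.card_zpowers, hord]
    have hZ2 : IsPGroup 2 (Subgroup.zpowers u) :=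
      IsPGroup.of_card (n := 1) (by rw [hcardZ, pow_one])
    have hZne : Subgroup.zpowers u ≠ ⊥ := Subgroup.zpowers_ne_bot.mpr hu1
    have hchar : Cfsg.IsOfCharacteristicTwo ↥N := h2.2 (Subgroup.zpowers u) hZ2 hZne
    have hstar : ∀ r ∈ R, ∀ v ∈ U, r * v * r⁻¹ ∈ U := by
      by_cases hc : ∀ x ∈ (P : Subgroup G), x * u = u * x
      · have hPN : (P : Subgroup G) ≤ N := fun x hx =>
          centralizer_le_normalizer_zpowers (hc x hx)
        have hRP : R ≤ (P : Subgroup G) := by
          have h1 : IsPGroup 2 ↥((P : Subgroup G) ⊔ R) :=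
            IsPGroup.to_sup_of_normal_right' P.isPGroup' (pCoreOf_isPGroup 2 N)
              (hPN.trans (le_normalizer_pCoreOf 2 N))
          have h3 := P.is_maximal' h1 le_sup_left
          rw [← h3]
          exact le_sup_right
        intro r hr v hv
        exact (Subgroup.mem_normalizer_iff.mp (hUn (hRP hr)) v).mp hv
      · push Not at hc
        obtain ⟨w₀, hw₀, hw₀u⟩ := hc
        have hcyc : IsCyclic ↥((P : Subgroup G) ⊓
            Subgroup.centralizer ((P : Subgroup G) : Set G)) := by
          by_contra hnc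
          have h0 := hUZ hnc huU
          rw [Subgroup.mem_centralizer_iff] at h0
          exact hw₀u (h0 w₀ hw₀)
        have hUne : U.subgroupOf (P : Subgroup G) ≠ ⊥ := by
          intro hbot
          have h0 : (⟨u, hUP huU⟩ : ↥(P : Subgroup G)) ∈ U.subgroupOf (P : Subgroup G) :=
            Subgroup.mem_subgroupOf.mpr huU
          rw [hbot, Subgroup.mem_bot] at h0
          exact hu1 (congrArg Subtype.val h0)
        haveI hUnorm : (U.subgroupOf (P : Subgroup G)).Normal :=
          (Subgroup.normal_subgroupOf_iff_le_normalizer hUP).mpr hUn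
        obtain ⟨z', hz'U, hz'c, hz'1⟩ :=
          H3.normal_inf_center_ne_bot (P.isPGroup') (U.subgroupOf (P : Subgroup G)) hUne
        have hzU : (z' : G) ∈ U := Subgroup.mem_subgroupOf.mp hz'U
        have hzc : ∀ x ∈ (P : Subgroup G), x * (z' : G) = (z' : G) * x := by
          intro x hx
          have h0 := Subgroup.mem_center_iff.mp hz'c ⟨x, hx⟩
          exact congrArg Subtype.val h0
        have hz1 : (z' : G) ≠ 1 := fun h => hz'1 (Subtype.ext h)
        have hzu : (z' : G) ≠ u := by
          intro h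
          apply hw₀u
          rw [← h]
          exact hzc w₀ hw₀
        have hUelts := four_elts U hcard hzU huU hz1 hu1 hzu (hexp _ hzU) hu2
        have hcentP : ∀ s ∈ (P : Subgroup G), (∀ x ∈ (P : Subgroup G), x * s = s * x) →
            s ^ 2 = 1 → s = 1 ∨ s = (z' : G) := by
          intro s hs hsc hs2
          refine cyclic_invol _ hcyc (z := (z' : G)) ?_ hz1 (hexp _ hzU) ?_ hs2
          · exact Subgroup.mem_inf.mpr ⟨hUP hzU,
              Subgroup.mem_centralizer_iff.mpr (fun x hx => hzc x hx)⟩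
          · exact Subgroup.mem_inf.mpr ⟨hs,
              Subgroup.mem_centralizer_iff.mpr (fun x hx => hsc x hx)⟩
        obtain ⟨hrel, hOmega⟩ := case2_struct (P : Subgroup G) U hUP hUn hUab hzU huU
          (hexp _ hzU) hu2 hzc hw₀ hw₀u hUelts hcentP
        set T := (P : Subgroup G) ⊓ Subgroup.centralizer (U : Set G) with hT
        have hTN : T ≤ N := by
          intro x hx
          apply centralizer_le_normalizer_zpowers
          exact ((Subgroup.mem_centralizer_iff.mp (Subgroup.mem_inf.mp hx).2) u huU).symm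
        have hT2 : IsPGroup 2 ↥T := P.isPGroup'.to_le inf_le_left
        have hTR : IsPGroup 2 ↥(T ⊔ R) :=
          IsPGroup.to_sup_of_normal_right' hT2 (pCoreOf_isPGroup 2 N)
            (hTN.trans (le_normalizer_pCoreOf 2 N))
        obtain ⟨S₁, hS₁⟩ := hTR.exists_le_sylow
        have hTS : T ≤ (S₁ : Subgroup G) := le_sup_left.trans hS₁
        have hRS : R ≤ (S₁ : Subgroup G) := le_sup_right.trans hS₁
        have hcardS : Nat.card (S₁ : Subgroup G) = Nat.card (P : Subgroup G) := by
          have h1 := Sylow.card_eq_multiplicity S₁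
          have h3 := Sylow.card_eq_multiplicity P
          exact h1.trans h3.symm
        have hrelS : T.relIndex (S₁ : Subgroup G) = 2 := by
          have h1 := card_mul_relIndex_of_le hTS
          have h3 := card_mul_relIndex_of_le (inf_le_left : T ≤ (P : Subgroup G))
          rw [hrel] at h3
          rw [hcardS, ← h3] at h1
          exact Nat.eq_of_mul_eq_mul_left Nat.card_pos h1
        have hTnS : (T.subgroupOf (S₁ : Subgroup G)).Normal :=
          Subgroup.normal_of_index_eq_two hrelS
        have hSnorm : ∀ s ∈ (S₁ : Subgroup G), ∀ x ∈ T, s * x * s⁻¹ ∈ T := by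
          intro s hs x hx
          have h0 := hTnS.conj_mem ⟨x, hTS hx⟩ (Subgroup.mem_subgroupOf.mpr hx) ⟨s, hs⟩
          exact Subgroup.mem_subgroupOf.mp h0
        intro r hr v hv
        have hvT : v ∈ T := Subgroup.mem_inf.mpr ⟨hUP hv,
          Subgroup.mem_centralizer_iff.mpr (fun a ha => hUab a ha v hv)⟩
        apply hOmega _ (hSnorm r (hRS hr) v hvT)
        · intro x hx
          have hx' : r⁻¹ * x * r ∈ T := by
            have h0 := hSnorm r⁻¹ (Subgroup.inv_mem _ (hRS hr)) x hx
            simpa using h0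
          have h1 := (Subgroup.mem_centralizer_iff.mp (Subgroup.mem_inf.mp hx').2) v hv
          calc x * (r * v * r⁻¹) = r * ((r⁻¹ * x * r) * v) * r⁻¹ := by group
            _ = r * (v * (r⁻¹ * x * r)) * r⁻¹ := by rw [h1]
            _ = r * v * r⁻¹ * x := by group
        · have hvv : v * v = 1 := by rw [← pow_two, hexp v hv]
          rw [pow_two]
          calc r * v * r⁻¹ * (r * v * r⁻¹) = r * (v * v) * r⁻¹ := by group
            _ = 1 := by rw [hvv]; group
    have hUR : U ≤ R :=
      four_le_pCoreOf u hu1 hu2 hchar U hcard (fun a ha => hUab a ha u huU) huU hstar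
    intro k hk
    obtain ⟨hkK, hku⟩ := Subgroup.mem_inf.mp hk
    rw [Subgroup.mem_centralizer_iff]
    intro v hv
    have hku' : k * u = u * k :=
      ((Subgroup.mem_centralizer_iff.mp hku) u (Set.mem_singleton u)).symm
    have hkN : k ∈ N := centralizer_le_normalizer_zpowers hku'
    have hcR : k * v * k⁻¹ * v⁻¹ ∈ R :=
      R.mul_mem (conj_mem_pCoreOf 2 hkN (hUR hv)) (R.inv_mem (hUR hv))
    have hcK : k * v * k⁻¹ * v⁻¹ ∈ K := by
      have h1 : v * k⁻¹ * v⁻¹ ∈ K :=
        (Subgroup.mem_normalizer_iff.mp (hUK hv) k⁻¹).mp (K.inv_mem hkK)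
      have h3 := K.mul_mem hkK h1
      have h4 : k * (v * k⁻¹ * v⁻¹) = k * v * k⁻¹ * v⁻¹ := by group
      rwa [h4] at h3
    have hc1 : k * v * k⁻¹ * v⁻¹ = 1 := by
      obtain ⟨j, hj⟩ := (pCoreOf_isPGroup 2 N) ⟨_, hcR⟩
      have hj' : (k * v * k⁻¹ * v⁻¹) ^ 2 ^ j = 1 := by
        have h0 := congrArg Subtype.val hj
        push_cast at h0
        exact h0
      have h1 : orderOf (k * v * k⁻¹ * v⁻¹) ∣ 2 ^ j := orderOf_dvd_of_pow_eq_one hj'
      have h3 : orderOf (k * v * k⁻¹ * v⁻¹) ∣ Nat.card K := by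
        have h0 := orderOf_dvd_natCard (⟨_, hcK⟩ : ↥K)
        rwa [Subgroup.orderOf_mk] at h0
      have h4 : Nat.Coprime (2 ^ j) (Nat.card K) :=
        Nat.Coprime.pow_left j (Nat.coprime_two_left.mpr hK)
      exact orderOf_eq_one_iff.mp (Nat.eq_one_of_dvd_coprimes h4 h1 h3)
    have e : k * v = (k * v * k⁻¹ * v⁻¹) * v * k := by group
    rw [e, hc1, one_mul]
  · exact hK.not_two_dvd_nat

end Cfsg.Agent.H39
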