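import Mathlib
import Cfsg.Agent.H81.GL23Defs

/-!
# S0197-LAT (helper39, for helper81): the lattice classification

From the abstract hypotheses `AbsHyp` (Gram matrix `Gm`, degree orthogonality, the involution
`bar`) the coefficient matrix has the shape `Shape`.
-/

set_option autoImplicit false

namespace Cfsg.Agent.H39.GL23

open Cfsg.Agent.H81.GL23

universe u

section Lemmas

variable {ι : Type*} [DecidableEq ι]

theorem int_pm_one {a : ℤ} (h0 : a ≠ 0) (h : a * a ≤ 3) : a = 1 ∨ a = -1 := by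
  have h1 : a < 2 := by nlinarith
  have h2 : -2 < a := by nlinarith
  omega

theorem abs_le_one_of_sq_le {b : ℤ} (h : b * b ≤ 3) : -1 ≤ b ∧ b ≤ 1 := by
  constructor <;> nlinarith

theorem sq_nonneg_sum (T : Finset ι) (w : ι → ℤ) : 0 ≤ ∑ i ∈ T, w i * w i :=
  Finset.sum_nonneg (fun j _ => mul_self_nonneg (w j))

theorem le_sq_sum (T : Finset ι) (w : ι → ℤ) {a : ι} (ha : a ∈ T) :
    w a * w a ≤ ∑ i ∈ T, w i * w i :=
  Finset.single_le_sum (f := fun i => w i * w i) (fun j _ => mul_self_nonneg (w j)) ha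

theorem zero_of_sum (T : Finset ι) (w : ι → ℤ) (h : ∑ i ∈ T, w i * w i = 0) :
    ∀ i ∈ T, w i = 0 := by
  intro i hi
  have h1 := (Finset.sum_eq_zero_iff_of_nonneg (fun j _ => mul_self_nonneg (w j))).1 h i hi
  exact mul_self_eq_zero.1 h1

theorem step (T : Finset ι) (w : ι → ℤ) (n : ℤ) (hn : 0 < n) (h : ∑ i ∈ T, w i * w i = n) :
    ∃ a ∈ T, w a ≠ 0 ∧ ∑ i ∈ T.erase a, w i * w i = n - w a * w a := by
  by_contra hcon
  have h0 : ∑ i ∈ T, w i * w i = 0 := by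
    apply Finset.sum_eq_zero
    intro i hi
    by_contra h0
    have hw : w i ≠ 0 := fun h' => h0 (by rw [h']; ring)
    apply hcon
    refine ⟨i, hi, hw, ?_⟩
    have := Finset.add_sum_erase T (fun i => w i * w i) hi
    linarith
  omega

theorem norm_one (T : Finset ι) (w : ι → ℤ) (h : ∑ i ∈ T, w i * w i = 1) :
    ∃ a ∈ T, (w a = 1 ∨ w a = -1) ∧ ∀ i ∈ T, i ≠ a → w i = 0 := by
  obtain ⟨a, ha, hwa, hrest⟩ := step T w 1 one_pos h
  have hle : w a * w a ≤ 1 := by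
    have := sq_nonneg_sum (T.erase a) w
    linarith
  have hpm := int_pm_one hwa (by linarith)
  have hsq : w a * w a = 1 := by rcases hpm with h | h <;> rw [h] <;> norm_num
  refine ⟨a, ha, hpm, fun i hi hia => ?_⟩
  exact zero_of_sum (T.erase a) w (by rw [hrest, hsq]; norm_num) i (Finset.mem_erase.2 ⟨hia, hi⟩)

theorem norm_two (T : Finset ι) (w : ι → ℤ) (h : ∑ i ∈ T, w i * w i = 2) :
    ∃ a ∈ T, ∃ b ∈ T, a ≠ b ∧ (w a = 1 ∨ w a = -1) ∧ (w b = 1 ∨ w b = -1) ∧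
      ∀ i ∈ T, i ≠ a → i ≠ b → w i = 0 := by
  obtain ⟨a, ha, hwa, hrest⟩ := step T w 2 two_pos h
  have hle : w a * w a ≤ 2 := by
    have := sq_nonneg_sum (T.erase a) w
    linarith
  have hpm := int_pm_one hwa (by linarith)
  have hsq : w a * w a = 1 := by rcases hpm with h | h <;> rw [h] <;> norm_num
  obtain ⟨b, hb, hwb, hz⟩ := norm_one (T.erase a) w (by rw [hrest, hsq]; norm_num)
  have hb' := Finset.mem_erase.1 hb
  refine ⟨a, ha, b, hb'.2, hb'.1.symm, hpm, hwb, fun i hi hia hib => ?_⟩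
  exact hz i (Finset.mem_erase.2 ⟨hia, hi⟩) hib

theorem sum_two [Fintype ι] (f : ι → ℤ) (a b : ι) (hab : a ≠ b)
    (h0 : ∀ x, x ≠ a → x ≠ b → f x = 0) : ∑ x, f x = f a + f b :=
  Fintype.sum_eq_add a b hab (fun x hx => h0 x hx.1 hx.2)

theorem sum_three [Fintype ι] (f : ι → ℤ) (a b c : ι) (hab : a ≠ b) (hac : a ≠ c) (hbc : b ≠ c)
    (h0 : ∀ x, x ≠ a → x ≠ b → x ≠ c → f x = 0) : ∑ x, f x = f a + f b + f c := by
  have h1 : ∑ x, f x = ∑ x ∈ ({a, b, c} : Finset ι), f x := by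
    symm
    apply Finset.sum_subset (Finset.subset_univ _)
    intro x _ hx
    simp only [Finset.mem_insert, Finset.mem_singleton, not_or] at hx
    exact h0 x hx.1 hx.2.1 hx.2.2
  rw [h1, Finset.sum_insert (by simp [hab, hac]), Finset.sum_pair hbc]
  ring

/-- Splitting off the entries on a finite set `S`. -/
theorem split_sum [Fintype ι] (S : Finset ι) (w : ι → ℤ) :
    ∑ i, w i * w i = ∑ i ∈ S, w i * w i + ∑ i ∈ Sᶜ, w i * w i :=
  (Finset.sum_add_sum_compl S _).symm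

theorem sumS3 (f : ι → ℤ) {a b c : ι} (hab : a ≠ b) (hac : a ≠ c) (hbc : b ≠ c) :
    ∑ i ∈ ({a, b, c} : Finset ι), f i = f a + f b + f c := by
  rw [Finset.sum_insert (by simp [hab, hac]), Finset.sum_pair hbc]
  ring

theorem sumS4 (f : ι → ℤ) {a b c d : ι} (hab : a ≠ b) (hac : a ≠ c) (had : a ≠ d) (hbc : b ≠ c)
    (hbd : b ≠ d) (hcd : c ≠ d) :
    ∑ i ∈ ({a, b, c, d} : Finset ι), f i = f a + f b + f c + f d := by
  rw [Finset.sum_insert (by simp [hab, hac, had]), Finset.sum_insert (by simp [hbc, hbd]),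
    Finset.sum_pair hcd]
  ring

theorem rest_list [Fintype ι] (l : List ι) (hl : l.Nodup) (f : ι → ℤ) (n : ℤ)
    (h : ∑ i, f i = n) : ∑ i ∈ l.toFinsetᶜ, f i = n - (l.map f).sum := by
  have h1 := Finset.sum_add_sum_compl l.toFinset f
  rw [List.sum_toFinset f hl] at h1
  linarith

theorem sum_list [Fintype ι] (l : List ι) (hl : l.Nodup) (f : ι → ℤ)
    (h0 : ∀ x, x ∉ l → f x = 0) : ∑ i, f i = (l.map f).sum := by
  rw [← List.sum_toFinset f hl]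
  symm
  apply Finset.sum_subset (Finset.subset_univ _)
  intro x _ hx
  exact h0 x (by simpa using hx)

theorem zero_compl [Fintype ι] (l : List ι) (w : ι → ℤ)
    (h : ∑ i ∈ l.toFinsetᶜ, w i * w i = 0) : ∀ i, i ∉ l → w i = 0 :=
  fun i hi => zero_of_sum _ w h i (by simpa using hi)

end Lemmas

/-- Step 1: the first two columns. -/
theorem step1 {ι : Type u} [Fintype ι] [DecidableEq ι] (N : ℕ) (i₀ : ι) (bar : ι → ι)
    (d : ι → ℕ) (u : ι → Fin 5 → ℤ) (P : ℕ) (h : AbsHyp N i₀ bar d u P) :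
    ∃ (e : ℤ) (L R : ι), (e = 1 ∨ e = -1) ∧ L ≠ R ∧ u L 0 = e ∧ u R 0 = -e ∧
      (∀ i, i ≠ L → i ≠ R → u i 0 = 0) ∧ bar R = R ∧ bar L ≠ L ∧ d L = d R := by
  have g00 : ∑ i, u i 0 * u i 0 = 2 := h.gram 0 0
  have g01 : ∑ i, u i 0 * u i 1 = 1 := h.gram 0 1
  have hd0 := h.deg 0
  obtain ⟨A, -, B, -, hAB, hA, hB, hz⟩ := norm_two Finset.univ (fun i => u i 0) g00
  have hz' : ∀ i, i ≠ A → i ≠ B → u i 0 = 0 := fun i h1 h2 => hz i (Finset.mem_univ i) h1 h2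
  -- the degree relation
  have hdsum : u A 0 * (d A : ℤ) + u B 0 * (d B : ℤ) = 0 := by
    rw [← hd0]
    symm
    exact sum_two (fun i => u i 0 * (d i : ℤ)) A B hAB (fun x h1 h2 => by
      show u x 0 * (d x : ℤ) = 0
      rw [hz' x h1 h2]; ring)
  have hdA := h.dpos A
  have hdB := h.dpos B
  -- the inner product of the first two columns
  have hbar1 : ∀ i, u i 1 = u (bar i) 0 := fun i => ((h.ubar i).1).symm
  have hip : u A 0 * u (bar A) 0 + u B 0 * u (bar B) 0 = 1 := by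
    rw [← g01]
    symm
    have := sum_two (fun i => u i 0 * u i 1) A B hAB (fun x h1 h2 => by
      show u x 0 * u x 1 = 0
      rw [hz' x h1 h2]; ring)
    rw [this, hbar1 A, hbar1 B]
  have hinv := h.bar_invol
  -- normalise the signs
  have hsign : (u A 0 = 1 ∧ u B 0 = -1) ∨ (u A 0 = -1 ∧ u B 0 = 1) := by
    rcases hA with hA | hA <;> rcases hB with hB | hB
    · rw [hA, hB] at hdsum; omega
    · exact Or.inl ⟨hA, hB⟩
    · exact Or.inr ⟨hA, hB⟩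
    · rw [hA, hB] at hdsum; omega
  have hdAB : d A = d B := by
    rcases hsign with ⟨hA, hB⟩ | ⟨hA, hB⟩ <;> rw [hA, hB] at hdsum <;> omega
  have hAB0 : u B 0 = -u A 0 := by
    rcases hsign with ⟨hA, hB⟩ | ⟨hA, hB⟩ <;> rw [hA, hB] <;> norm_num
  have hAsq : u A 0 * u A 0 = 1 := by
    rcases hsign with ⟨hA, hB⟩ | ⟨hA, hB⟩ <;> rw [hA] <;> norm_num
  by_cases hbA : bar A = A
  · by_cases hbB : bar B = B
    · rw [hbA, hbB, hAB0] at hip
      nlinarith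
    · -- `R = A`, `L = B`
      refine ⟨u B 0, B, A, ?_, hAB.symm, rfl, ?_, fun i h1 h2 => hz' i h2 h1, hbA, hbB,
        hdAB.symm⟩
      · rcases hsign with ⟨hA, hB⟩ | ⟨hA, hB⟩
        · exact Or.inr hB
        · exact Or.inl hB
      · rw [hAB0]; ring
  · by_cases hbB : bar B = B
    · -- `R = B`, `L = A`
      refine ⟨u A 0, A, B, ?_, hAB, rfl, hAB0, hz', hbB, hbA, hdAB⟩
      rcases hsign with ⟨hA, hB⟩ | ⟨hA, hB⟩
      · exact Or.inl hA
      · exact Or.inr hA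
    · exfalso
      by_cases hAB' : bar A = B
      · have hBA' : bar B = A := by rw [← hAB', hinv]
        rw [hAB', hBA', hAB0] at hip
        nlinarith
      · have hBA' : bar B ≠ A := fun h' => hAB' (by rw [← h', hinv])
        rw [hz' (bar A) hbA hAB', hz' (bar B) hBA' hbB] at hip
        norm_num at hip

/-- The facts about the first two columns. -/
structure C01 {ι : Type u} (i₀ : ι) (bar : ι → ι) (d : ι → ℕ) (u : ι → Fin 5 → ℤ) (e : ℤ)
    (L R : ι) : Prop where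
  he : e = 1 ∨ e = -1
  hLR : L ≠ R
  hbLR : bar L ≠ R
  hbLL : bar L ≠ L
  h0L : i₀ ≠ L
  h0R : i₀ ≠ R
  h0bL : i₀ ≠ bar L
  uL0 : u L 0 = e
  uR0 : u R 0 = -e
  z0 : ∀ i, i ≠ L → i ≠ R → u i 0 = 0
  uR1 : u R 1 = -e
  ubL1 : u (bar L) 1 = e
  z1 : ∀ i, i ≠ R → i ≠ bar L → u i 1 = 0
  dLR : d L = d R

theorem mkC01 {ι : Type u} [Fintype ι] [DecidableEq ι] {N : ℕ} {i₀ : ι} {bar : ι → ι}
    {d : ι → ℕ} {u : ι → Fin 5 → ℤ} {P : ℕ} (h : AbsHyp N i₀ bar d u P) :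
    ∃ (e : ℤ) (L R : ι), C01 i₀ bar d u e L R := by
  obtain ⟨e, L, R, he, hLR, hL0, hR0, hz0, hbR, hbL, hd⟩ := step1 N i₀ bar d u P h
  have hen : e ≠ 0 := by rcases he with h1 | h1 <;> rw [h1] <;> norm_num
  have h00 : u i₀ 0 = 0 := by rw [h.u0]; rfl
  have h01 : u i₀ 1 = 0 := by rw [h.u0]; rfl
  have hbLR : bar L ≠ R := by
    intro h'
    apply hLR
    have := h.bar_invol L
    rw [h', hbR] at this
    exact this.symm
  have ubL1 : u (bar L) 1 = e := by rw [(h.ubar L).2.1, hL0]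
  refine ⟨e, L, R, he, hLR, hbLR, hbL, ?_, ?_, ?_, hL0, hR0, hz0, ?_, ubL1, ?_, hd⟩
  · intro h'
    rw [h', hL0] at h00
    exact hen h00
  · intro h'
    rw [h', hR0] at h00
    omega
  · intro h'
    rw [h', ubL1] at h01
    exact hen h01
  · have := (h.ubar R).1
    rw [hbR, hR0] at this
    exact this.symm
  · intro i h1 h2
    rw [← (h.ubar i).1]
    apply hz0
    · intro h'
      apply h2
      rw [← h', h.bar_invol]
    · intro h'
      apply h1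
      have := h.bar_invol i
      rw [h', hbR] at this
      exact this.symm

/-- The inner product of a column with the first column. -/
theorem colk {ι : Type u} [Fintype ι] [DecidableEq ι] {i₀ : ι} {bar : ι → ι} {d : ι → ℕ}
    {u : ι → Fin 5 → ℤ} {e : ℤ} {L R : ι} (c : C01 i₀ bar d u e L R) (k : Fin 5)
    (hk : ∑ i, u i k * u i 0 = -1) : e * (u L k - u R k) = -1 := by
  have := sum_two (fun i => u i k * u i 0) L R c.hLR (fun x h1 h2 => by
    show u x k * u x 0 = 0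
    rw [c.z0 x h1 h2]; ring)
  rw [hk, c.uL0, c.uR0] at this
  linarith

/-- The facts about the third column. -/
structure C2 {ι : Type u} (i₀ : ι) (bar : ι → ι) (d : ι → ℕ) (u : ι → Fin 5 → ℤ) (e : ℤ)
    (L R : ι) (e₃ : ℤ) (Y : ι) : Prop where
  he₃ : e₃ = 1 ∨ e₃ = -1
  hY0 : Y ≠ i₀
  hYR : Y ≠ R
  hYL : Y ≠ L
  hYbL : Y ≠ bar L
  uL2 : u L 2 = 0
  uR2 : u R 2 = e
  uY2 : u Y 2 = e₃
  z2 : ∀ i, i ≠ i₀ → i ≠ R → i ≠ Y → u i 2 = 0
  deg2 : 1 + e * (d R : ℤ) + e₃ * (d Y : ℤ) = 0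

theorem mkC2 {ι : Type u} [Fintype ι] [DecidableEq ι] {N : ℕ} {i₀ : ι} {bar : ι → ι}
    {d : ι → ℕ} {u : ι → Fin 5 → ℤ} {P : ℕ} (h : AbsHyp N i₀ bar d u P) {e : ℤ} {L R : ι}
    (c : C01 i₀ bar d u e L R) : ∃ (e₃ : ℤ) (Y : ι), C2 i₀ bar d u e L R e₃ Y := by
  have hn : ∑ i, u i 2 * u i 2 = 3 := h.gram 2 2
  have hg : e * (u L 2 - u R 2) = -1 := colk c 2 (h.gram 2 0)
  have hu0 : u i₀ 2 = 1 := by rw [h.u0]; rfl
  have hbar : u (bar L) 2 = u L 2 := (h.ubar L).2.2.1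
  have hdeg := h.deg 2
  have hee : e * e = 1 := by rcases c.he with he | he <;> rw [he] <;> norm_num
  have ha : u L 2 = 0 := by
    by_contra ha
    have hnd : [i₀, L, bar L].Nodup := by simp [c.h0L, c.h0bL, c.hbLL.symm]
    have hr := rest_list [i₀, L, bar L] hnd (fun i => u i 2 * u i 2) 3 hn
    simp only [List.map_cons, List.map_nil, List.sum_cons, List.sum_nil] at hr
    rw [hu0, hbar] at hr
    have hnn := sq_nonneg_sum ([i₀, L, bar L].toFinsetᶜ) (fun i => u i 2)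
    have hpm := int_pm_one ha (by linarith)
    have hsq : u L 2 * u L 2 = 1 := by rcases hpm with h1 | h1 <;> rw [h1] <;> norm_num
    have hz := zero_compl [i₀, L, bar L] (fun i => u i 2) (by rw [hr, hsq]; norm_num)
    have hd := sum_list [i₀, L, bar L] hnd (fun i => u i 2 * (d i : ℤ)) (fun x hx => by
      show u x 2 * (d x : ℤ) = 0
      rw [hz x hx]; ring)
    simp only [List.map_cons, List.map_nil, List.sum_cons, List.sum_nil] at hd
    rw [hdeg, hu0, hbar, h.d0, h.dbar L] at hd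
    rcases hpm with h1 | h1 <;> rw [h1] at hd <;> push_cast at hd <;> omega
  have hb : u R 2 = e := by
    rw [ha] at hg
    rcases c.he with he | he <;> rw [he] at hg ⊢ <;> omega
  have hr := rest_list [i₀, R] (by simp [c.h0R]) (fun i => u i 2 * u i 2) 3 hn
  simp only [List.map_cons, List.map_nil, List.sum_cons, List.sum_nil] at hr
  rw [hu0, hb, hee] at hr
  obtain ⟨Y, hY, hpmY, hzY⟩ := norm_one ([i₀, R].toFinsetᶜ) (fun i => u i 2)
    (by rw [hr]; norm_num)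
  have hY' : Y ≠ i₀ ∧ Y ≠ R := by simpa using hY
  have hYne : u Y 2 ≠ 0 := by rcases hpmY with h1 | h1 <;> rw [h1] <;> norm_num
  have hYL : Y ≠ L := fun h' => hYne (by rw [h', ha])
  have hYbL : Y ≠ bar L := fun h' => hYne (by rw [h', hbar, ha])
  have hz2 : ∀ i, i ≠ i₀ → i ≠ R → i ≠ Y → u i 2 = 0 :=
    fun i h1 h2 h3 => hzY i (by simp [h1, h2]) h3
  have hd := sum_list [i₀, R, Y] (by simp [c.h0R, hY'.1.symm, hY'.2.symm])
    (fun i => u i 2 * (d i : ℤ)) (fun x hx => by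
      show u x 2 * (d x : ℤ) = 0
      have hx' : x ≠ i₀ ∧ x ≠ R ∧ x ≠ Y := by simpa using hx
      rw [hz2 x hx'.1 hx'.2.1 hx'.2.2]; ring)
  simp only [List.map_cons, List.map_nil, List.sum_cons, List.sum_nil] at hd
  rw [hdeg, hu0, hb, h.d0] at hd
  refine ⟨u Y 2, Y, hpmY, hY'.1, hY'.2, hYL, hYbL, ha, hb, rfl, hz2, ?_⟩
  push_cast at hd
  linarith

/-- The facts about the fourth column. -/
structure C3 {ι : Type u} (i₀ : ι) (bar : ι → ι) (u : ι → Fin 5 → ℤ) (e : ℤ)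
    (L R : ι) (Y : ι) (e₄ e₄' : ℤ) (Z W : ι) : Prop where
  he₄ : e₄ = 1 ∨ e₄ = -1
  he₄' : e₄' = 1 ∨ e₄' = -1
  hZW : Z ≠ W
  hZR : Z ≠ R
  hWR : W ≠ R
  hZ0 : Z ≠ i₀
  hZL : Z ≠ L
  hZbL : Z ≠ bar L
  hZY : Z ≠ Y
  hW0 : W ≠ i₀
  hWL : W ≠ L
  hWbL : W ≠ bar L
  hWY : W ≠ Y
  uL3 : u L 3 = 0
  uR3 : u R 3 = e
  uY3 : u Y 3 = 0
  uZ3 : u Z 3 = e₄
  uW3 : u W 3 = e₄'
  z3 : ∀ i, i ≠ R → i ≠ Z → i ≠ W → u i 3 = 0

theorem C3.swap {ι : Type u} {i₀ : ι} {bar : ι → ι} {u : ι → Fin 5 → ℤ} {e : ℤ}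
    {L R : ι} {Y : ι} {e₄ e₄' : ℤ} {Z W : ι} (c : C3 i₀ bar u e L R Y e₄ e₄' Z W) :
    C3 i₀ bar u e L R Y e₄' e₄ W Z :=
  ⟨c.he₄', c.he₄, c.hZW.symm, c.hWR, c.hZR, c.hW0, c.hWL, c.hWbL, c.hWY, c.hZ0, c.hZL, c.hZbL,
    c.hZY, c.uL3, c.uR3, c.uY3, c.uW3, c.uZ3, fun i h1 h2 h3 => c.z3 i h1 h3 h2⟩

theorem mkC3 {ι : Type u} [Fintype ι] [DecidableEq ι] {N : ℕ} {i₀ : ι} {bar : ι → ι}
    {d : ι → ℕ} {u : ι → Fin 5 → ℤ} {P : ℕ} (h : AbsHyp N i₀ bar d u P) {e : ℤ} {L R : ι}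
    (c : C01 i₀ bar d u e L R) {e₃ : ℤ} {Y : ι} (c2 : C2 i₀ bar d u e L R e₃ Y) :
    ∃ (e₄ e₄' : ℤ) (Z W : ι), C3 i₀ bar u e L R Y e₄ e₄' Z W := by
  have hn : ∑ i, u i 3 * u i 3 = 3 := h.gram 3 3
  have hg : e * (u L 3 - u R 3) = -1 := colk c 3 (h.gram 3 0)
  have hu0 : u i₀ 3 = 0 := by rw [h.u0]; rfl
  have hbar : u (bar L) 3 = u L 3 := (h.ubar L).2.2.2.1
  have hdeg := h.deg 3
  have hee : e * e = 1 := by rcases c.he with he | he <;> rw [he] <;> norm_num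
  have he₃e₃ : e₃ * e₃ = 1 := by rcases c2.he₃ with he | he <;> rw [he] <;> norm_num
  have hg2 : u R 3 * e + u Y 3 * e₃ = 1 := by
    have h32 : ∑ i, u i 3 * u i 2 = 1 := h.gram 3 2
    have hs := sum_list [i₀, R, Y] (by simp [c.h0R, c2.hY0.symm, c2.hYR.symm])
      (fun i => u i 3 * u i 2) (fun x hx => by
        show u x 3 * u x 2 = 0
        have hx' : x ≠ i₀ ∧ x ≠ R ∧ x ≠ Y := by simpa using hx
        rw [c2.z2 x hx'.1 hx'.2.1 hx'.2.2]; ring)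
    simp only [List.map_cons, List.map_nil, List.sum_cons, List.sum_nil] at hs
    rw [h32, hu0, c2.uR2, c2.uY2] at hs
    linarith
  have ha : u L 3 = 0 := by
    by_contra ha
    have hnd : [L, bar L, R, Y].Nodup := by
      simp [c.hbLL.symm, c.hLR, c2.hYL.symm, c.hbLR, c2.hYbL.symm, c2.hYR.symm]
    have hr := rest_list [L, bar L, R, Y] hnd (fun i => u i 3 * u i 3) 3 hn
    simp only [List.map_cons, List.map_nil, List.sum_cons, List.sum_nil] at hr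
    rw [hbar] at hr
    have hnn := sq_nonneg_sum ([L, bar L, R, Y].toFinsetᶜ) (fun i => u i 3)
    have hbb := mul_self_nonneg (u R 3)
    have hcc := mul_self_nonneg (u Y 3)
    have hpm := int_pm_one ha (by linarith)
    have hsq : u L 3 * u L 3 = 1 := by rcases hpm with h1 | h1 <;> rw [h1] <;> norm_num
    have hb1 := abs_le_one_of_sq_le (b := u R 3) (by linarith)
    have hb : u R 3 = 0 := by
      rcases c.he with he | he <;> rcases hpm with h1 | h1 <;> rw [he, h1] at hg <;> omega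
    rw [hb] at hg hg2 hr
    have hc : u Y 3 = e₃ := by
      have hc1 := abs_le_one_of_sq_le (b := u Y 3) (by linarith)
      rcases c2.he₃ with h3 | h3 <;> rw [h3] at hg2 ⊢ <;> omega
    have hz := zero_compl [L, bar L, R, Y] (fun i => u i 3)
      (by rw [hr, hsq, hc, he₃e₃]; norm_num)
    have hd := sum_list [L, bar L, R, Y] hnd (fun i => u i 3 * (d i : ℤ)) (fun x hx => by
      show u x 3 * (d x : ℤ) = 0
      rw [hz x hx]; ring)
    simp only [List.map_cons, List.map_nil, List.sum_cons, List.sum_nil] at hd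
    rw [hdeg, hbar, hb, hc, h.dbar L, c.dLR] at hd
    have hd2 := c2.deg2
    rcases c.he with he | he <;> rcases hpm with h1 | h1 <;> rcases c2.he₃ with h3 | h3 <;>
      rw [he, h1] at hg <;> rw [h1, h3] at hd <;> rw [he, h3] at hd2 <;> omega
  have hb : u R 3 = e := by
    rw [ha] at hg
    rcases c.he with he | he <;> rw [he] at hg ⊢ <;> omega
  have hc : u Y 3 = 0 := by
    rw [hb, hee] at hg2
    rcases c2.he₃ with h3 | h3 <;> rw [h3] at hg2 <;> omega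
  have hr := rest_list [R] (by simp) (fun i => u i 3 * u i 3) 3 hn
  simp only [List.map_cons, List.map_nil, List.sum_cons, List.sum_nil] at hr
  rw [hb, hee] at hr
  obtain ⟨Z, hZ, W, hW, hZW, hpmZ, hpmW, hzZW⟩ := norm_two ([R].toFinsetᶜ) (fun i => u i 3)
    (by rw [hr]; norm_num)
  have hZR : Z ≠ R := by simpa using hZ
  have hWR : W ≠ R := by simpa using hW
  have hZne : u Z 3 ≠ 0 := by rcases hpmZ with h1 | h1 <;> rw [h1] <;> norm_num
  have hWne : u W 3 ≠ 0 := by rcases hpmW with h1 | h1 <;> rw [h1] <;> norm_num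
  exact ⟨u Z 3, u W 3, Z, W, hpmZ, hpmW, hZW, hZR, hWR,
    fun h' => hZne (by rw [h', hu0]), fun h' => hZne (by rw [h', ha]),
    fun h' => hZne (by rw [h', hbar, ha]), fun h' => hZne (by rw [h', hc]),
    fun h' => hWne (by rw [h', hu0]), fun h' => hWne (by rw [h', ha]),
    fun h' => hWne (by rw [h', hbar, ha]), fun h' => hWne (by rw [h', hc]),
    ha, hb, hc, rfl, rfl, fun i h1 h2 h3 => hzZW i (by simpa using h1) h2 h3⟩

/-- The facts about the fifth column. -/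
structure C4 {ι : Type u} (i₀ : ι) (bar : ι → ι) (u : ι → Fin 5 → ℤ) (e : ℤ)
    (L R : ι) (Y : ι) (e₄ : ℤ) (Z W : ι) (e₅ : ℤ) (U : ι) : Prop where
  he₅ : e₅ = 1 ∨ e₅ = -1
  hU0 : U ≠ i₀
  hUR : U ≠ R
  hUZ : U ≠ Z
  hUW : U ≠ W
  hUL : U ≠ L
  hUbL : U ≠ bar L
  hUY : U ≠ Y
  uR4 : u R 4 = e
  uZ4 : u Z 4 = e₄
  uU4 : u U 4 = e₅
  z4 : ∀ i, i ≠ i₀ → i ≠ R → i ≠ Z → i ≠ U → u i 4 = 0

theorem mkC4 {ι : Type u} [Fintype ι] [DecidableEq ι] {N : ℕ} {i₀ : ι} {bar : ι → ι}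
    {d : ι → ℕ} {u : ι → Fin 5 → ℤ} {P : ℕ} (h : AbsHyp N i₀ bar d u P) {e : ℤ} {L R : ι}
    (c : C01 i₀ bar d u e L R) {e₃ : ℤ} {Y : ι} (c2 : C2 i₀ bar d u e L R e₃ Y)
    {e₄ e₄' : ℤ} {Z W : ι} (c3 : C3 i₀ bar u e L R Y e₄ e₄' Z W) :
    ∃ (e₅ : ℤ) (U : ι), C4 i₀ bar u e L R Y e₄ Z W e₅ U ∨ C4 i₀ bar u e L R Y e₄' W Z e₅ U := by
  have hn : ∑ i, u i 4 * u i 4 = 4 := h.gram 4 4
  have hg : e * (u L 4 - u R 4) = -1 := colk c 4 (h.gram 4 0)
  have hu0 : u i₀ 4 = 1 := by rw [h.u0]; rfl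
  have hu02 : u i₀ 2 = 1 := by rw [h.u0]; rfl
  have hbar : u (bar L) 4 = u L 4 := (h.ubar L).2.2.2.2
  have hee : e * e = 1 := by rcases c.he with he | he <;> rw [he] <;> norm_num
  have he₃e₃ : e₃ * e₃ = 1 := by rcases c2.he₃ with he | he <;> rw [he] <;> norm_num
  have he₄e₄ : e₄ * e₄ = 1 := by rcases c3.he₄ with he | he <;> rw [he] <;> norm_num
  have he₄e₄' : e₄' * e₄' = 1 := by rcases c3.he₄' with he | he <;> rw [he] <;> norm_num
  have hg2 : u R 4 * e + u Y 4 * e₃ = 1 := by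
    have h42 : ∑ i, u i 4 * u i 2 = 2 := h.gram 4 2
    have hs := sum_list [i₀, R, Y] (by simp [c.h0R, c2.hY0.symm, c2.hYR.symm])
      (fun i => u i 4 * u i 2) (fun x hx => by
        show u x 4 * u x 2 = 0
        have hx' : x ≠ i₀ ∧ x ≠ R ∧ x ≠ Y := by simpa using hx
        rw [c2.z2 x hx'.1 hx'.2.1 hx'.2.2]; ring)
    simp only [List.map_cons, List.map_nil, List.sum_cons, List.sum_nil] at hs
    rw [h42, hu0, hu02, c2.uR2, c2.uY2] at hs
    linarith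
  have hg3 : u R 4 * e + u Z 4 * e₄ + u W 4 * e₄' = 2 := by
    have h43 : ∑ i, u i 4 * u i 3 = 2 := h.gram 4 3
    have hs := sum_list [R, Z, W] (by simp [c3.hZR.symm, c3.hWR.symm, c3.hZW])
      (fun i => u i 4 * u i 3) (fun x hx => by
        show u x 4 * u x 3 = 0
        have hx' : x ≠ R ∧ x ≠ Z ∧ x ≠ W := by simpa using hx
        rw [c3.z3 x hx'.1 hx'.2.1 hx'.2.2]; ring)
    simp only [List.map_cons, List.map_nil, List.sum_cons, List.sum_nil] at hs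
    rw [h43, c3.uR3, c3.uZ3, c3.uW3] at hs
    linarith
  have ha : u L 4 = 0 := by
    by_contra ha
    have hnd : [i₀, L, bar L, R, Y].Nodup := by
      simp [c.h0L, c.h0bL, c.h0R, c2.hY0.symm, c.hbLL.symm, c.hLR, c2.hYL.symm, c.hbLR,
        c2.hYbL.symm, c2.hYR.symm]
    have hr := rest_list [i₀, L, bar L, R, Y] hnd (fun i => u i 4 * u i 4) 4 hn
    simp only [List.map_cons, List.map_nil, List.sum_cons, List.sum_nil] at hr
    rw [hu0, hbar] at hr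
    have hnn := sq_nonneg_sum ([i₀, L, bar L, R, Y].toFinsetᶜ) (fun i => u i 4)
    have hbb := mul_self_nonneg (u R 4)
    have hcc := mul_self_nonneg (u Y 4)
    have hpm := int_pm_one ha (by linarith)
    have hsq : u L 4 * u L 4 = 1 := by rcases hpm with h1 | h1 <;> rw [h1] <;> norm_num
    have hb1 := abs_le_one_of_sq_le (b := u R 4) (by linarith)
    have hb : u R 4 = 0 := by
      rcases c.he with he | he <;> rcases hpm with h1 | h1 <;> rw [he, h1] at hg <;> omega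
    rw [hb] at hg2 hg3 hr
    have hc : u Y 4 = e₃ := by
      have hc1 := abs_le_one_of_sq_le (b := u Y 4) (by linarith)
      rcases c2.he₃ with h3 | h3 <;> rw [h3] at hg2 ⊢ <;> omega
    have hz := zero_compl [i₀, L, bar L, R, Y] (fun i => u i 4)
      (by rw [hr, hsq, hc, he₃e₃]; norm_num)
    have hZ4 : u Z 4 = 0 := hz Z (by simp [c3.hZ0, c3.hZL, c3.hZbL, c3.hZR, c3.hZY])
    have hW4 : u W 4 = 0 := hz W (by simp [c3.hW0, c3.hWL, c3.hWbL, c3.hWR, c3.hWY])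
    rw [hZ4, hW4] at hg3
    norm_num at hg3
  have hb : u R 4 = e := by
    rw [ha] at hg
    rcases c.he with he | he <;> rw [he] at hg ⊢ <;> omega
  have hc : u Y 4 = 0 := by
    rw [hb, hee] at hg2
    rcases c2.he₃ with h3 | h3 <;> rw [h3] at hg2 <;> omega
  rw [hb, hee] at hg3
  have hnd : [i₀, R, Z, W].Nodup := by
    simp [c.h0R, c3.hZ0.symm, c3.hW0.symm, c3.hZR.symm, c3.hWR.symm, c3.hZW]
  have hr := rest_list [i₀, R, Z, W] hnd (fun i => u i 4 * u i 4) 4 hn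
  simp only [List.map_cons, List.map_nil, List.sum_cons, List.sum_nil] at hr
  rw [hu0, hb, hee] at hr
  have hnn := sq_nonneg_sum ([i₀, R, Z, W].toFinsetᶜ) (fun i => u i 4)
  have hzz := mul_self_nonneg (u Z 4)
  have hww := mul_self_nonneg (u W 4)
  have hz1 := abs_le_one_of_sq_le (b := u Z 4) (by linarith)
  have hw1 := abs_le_one_of_sq_le (b := u W 4) (by linarith)
  have hcase : (u Z 4 = e₄ ∧ u W 4 = 0) ∨ (u Z 4 = 0 ∧ u W 4 = e₄') := by
    rcases c3.he₄ with h4 | h4 <;> rcases c3.he₄' with h4' | h4' <;>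
      rw [h4, h4'] at hg3 ⊢ <;> omega
  have hsum1 : ∑ i ∈ [i₀, R, Z, W].toFinsetᶜ, u i 4 * u i 4 = 1 := by
    rcases hcase with ⟨h1, h2⟩ | ⟨h1, h2⟩
    · rw [hr, h1, h2, he₄e₄]; norm_num
    · rw [hr, h1, h2, he₄e₄']; norm_num
  obtain ⟨U, hU, hpmU, hzU⟩ := norm_one ([i₀, R, Z, W].toFinsetᶜ) (fun i => u i 4) hsum1
  have hU' : U ≠ i₀ ∧ U ≠ R ∧ U ≠ Z ∧ U ≠ W := by simpa using hU
  have hUne : u U 4 ≠ 0 := by rcases hpmU with h1 | h1 <;> rw [h1] <;> norm_num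
  have hUL : U ≠ L := fun h' => hUne (by rw [h', ha])
  have hUbL : U ≠ bar L := fun h' => hUne (by rw [h', hbar, ha])
  have hUY : U ≠ Y := fun h' => hUne (by rw [h', hc])
  have hz4 : ∀ i, i ≠ i₀ → i ≠ R → i ≠ Z → i ≠ W → i ≠ U → u i 4 = 0 :=
    fun i h1 h2 h3 h4 h5 => hzU i (by simp [h1, h2, h3, h4]) h5
  refine ⟨u U 4, U, ?_⟩
  rcases hcase with ⟨h1, h2⟩ | ⟨h1, h2⟩
  · left
    refine ⟨hpmU, hU'.1, hU'.2.1, hU'.2.2.1, hU'.2.2.2, hUL, hUbL, hUY, hb, h1, rfl, ?_⟩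
    intro i a1 a2 a3 a4
    by_cases hiW : i = W
    · rw [hiW]; exact h2
    · exact hz4 i a1 a2 a3 hiW a4
  · right
    refine ⟨hpmU, hU'.1, hU'.2.1, hU'.2.2.2, hU'.2.2.1, hUL, hUbL, hUY, hb, h2, rfl, ?_⟩
    intro i a1 a2 a3 a4
    by_cases hiZ : i = Z
    · rw [hiZ]; exact h1
    · exact hz4 i a1 a2 hiZ a3 a4

theorem shape_of {ι : Type u} {i₀ : ι} {bar : ι → ι} {d : ι → ℕ} {u : ι → Fin 5 → ℤ} {e : ℤ}
    {L R : ι} (c : C01 i₀ bar d u e L R) {e₃ : ℤ} {Y : ι} (c2 : C2 i₀ bar d u e L R e₃ Y)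
    {e₄ e₄' : ℤ} {Z W : ι} (c3 : C3 i₀ bar u e L R Y e₄ e₄' Z W) {e₅ : ℤ} {U : ι}
    (c4 : C4 i₀ bar u e L R Y e₄ Z W e₅ U) :
    Shape i₀ bar u R L Y Z W U e e₃ e₄ e₄' e₅ := by
  refine ⟨c.he, c2.he₃, c3.he₄, c3.he₄', c4.he₅, ?_, ?_, ?_, ?_, ?_, ?_, ?_, ?_, ?_⟩
  · simp only [List.nodup_cons, List.mem_cons, List.mem_singleton, List.not_mem_nil, not_or,
      List.nodup_nil, or_false, and_true, not_false_eq_true]
    exact ⟨⟨c.h0R, c.h0L, c.h0bL, c2.hY0.symm, c3.hZ0.symm, c3.hW0.symm, c4.hU0.symm⟩,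
      ⟨c.hLR.symm, c.hbLR.symm, c2.hYR.symm, c3.hZR.symm, c3.hWR.symm, c4.hUR.symm⟩,
      ⟨c.hbLL.symm, c2.hYL.symm, c3.hZL.symm, c3.hWL.symm, c4.hUL.symm⟩,
      ⟨c2.hYbL.symm, c3.hZbL.symm, c3.hWbL.symm, c4.hUbL.symm⟩,
      ⟨c3.hZY.symm, c3.hWY.symm, c4.hUY.symm⟩, ⟨c3.hZW, c4.hUZ.symm⟩, c4.hUW.symm⟩
  · funext k; fin_cases k
    · exact c.uR0
    · exact c.uR1
    · exact c2.uR2
    · exact c3.uR3
    · exact c4.uR4
  · funext k; fin_cases k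
    · exact c.uL0
    · exact c.z1 L c.hLR c.hbLL.symm
    · exact c2.uL2
    · exact c3.uL3
    · exact c4.z4 L c.h0L.symm c.hLR c3.hZL.symm c4.hUL.symm
  · funext k; fin_cases k
    · exact c.z0 (bar L) c.hbLL c.hbLR
    · exact c.ubL1
    · exact c2.z2 (bar L) c.h0bL.symm c.hbLR c2.hYbL.symm
    · exact c3.z3 (bar L) c.hbLR c3.hZbL.symm c3.hWbL.symm
    · exact c4.z4 (bar L) c.h0bL.symm c.hbLR c3.hZbL.symm c4.hUbL.symm
  · funext k; fin_cases k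
    · exact c.z0 Y c2.hYL c2.hYR
    · exact c.z1 Y c2.hYR c2.hYbL
    · exact c2.uY2
    · exact c3.uY3
    · exact c4.z4 Y c2.hY0 c2.hYR c3.hZY.symm c4.hUY.symm
  · funext k; fin_cases k
    · exact c.z0 Z c3.hZL c3.hZR
    · exact c.z1 Z c3.hZR c3.hZbL
    · exact c2.z2 Z c3.hZ0 c3.hZR c3.hZY
    · exact c3.uZ3
    · exact c4.uZ4
  · funext k; fin_cases k
    · exact c.z0 W c3.hWL c3.hWR
    · exact c.z1 W c3.hWR c3.hWbL
    · exact c2.z2 W c3.hW0 c3.hWR c3.hWY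
    · exact c3.uW3
    · exact c4.z4 W c3.hW0 c3.hWR c3.hZW.symm c4.hUW.symm
  · funext k; fin_cases k
    · exact c.z0 U c4.hUL c4.hUR
    · exact c.z1 U c4.hUR c4.hUbL
    · exact c2.z2 U c4.hU0 c4.hUR c4.hUY
    · exact c3.z3 U c4.hUR c4.hUZ c4.hUW
    · exact c4.uU4
  · intro i hi k
    have hi' : i ≠ i₀ ∧ i ≠ R ∧ i ≠ L ∧ i ≠ bar L ∧ i ≠ Y ∧ i ≠ Z ∧ i ≠ W ∧ i ≠ U := by
      simpa using hi
    obtain ⟨h1, h2, h3, h4, h5, h6, h7, h8⟩ := hi'
    fin_cases k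
    · exact c.z0 i h3 h2
    · exact c.z1 i h2 h4
    · exact c2.z2 i h1 h2 h5
    · exact c3.z3 i h2 h6 h7
    · exact c4.z4 i h1 h2 h6 h8

/-- **S0197-LAT**: the lattice classification. -/
theorem lat : StmtLat.{u} := by
  intro ι _ N i₀ bar d u P h
  classical
  obtain ⟨e, L, R, c⟩ := mkC01 h
  obtain ⟨e₃, Y, c2⟩ := mkC2 h c
  obtain ⟨e₄, e₄', Z, W, c3⟩ := mkC3 h c c2
  obtain ⟨e₅, U, c4 | c4⟩ := mkC4 h c c2 c3
  · exact ⟨R, L, Y, Z, W, U, e, e₃, e₄, e₄', e₅, shape_of c c2 c3 c4⟩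
  · exact ⟨R, L, Y, W, Z, U, e, e₃, e₄', e₄, e₅, shape_of c c2 c3.swap c4⟩

example : StmtLat.{u} := lat

end Cfsg.Agent.H39.GL23
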