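import Mathlib
import Cfsg.Agent.H66.GYDefs
import Cfsg.Agent.H66.HHA
import Cfsg.Agent.H11.Cores
import Cfsg.Agent.H14.Cores

/-!
# S3798-OMEGA (helper39, for helper66)

With `O_{p'}(G) = 1`, `G` `p`-soluble and `Aut(G)` transitive on the subgroups of order `p`,
every element of order dividing `p` lies in the centre of `O_p(G)`.
-/

set_option autoImplicit false

namespace Cfsg.Agent.H39.GY

open Cfsg Cfsg.Agent.H66.GY

universe u

theorem omega_holds : OmegaStatement.{u} := by
  intro G _ _ p hpf hdvd hsol hcore htrans g hg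
  classical
  have hp : p.Prime := hpf.out
  have hPp : IsPGroup p (pCore p G) := Cfsg.Agent.H14.pCore_isPGroup p G
  have hPchar : (pCore p G).Characteristic := Cfsg.Agent.H11.pCore_characteristic p
  -- `P ≠ ⊥`
  have hPne : pCore p G ≠ ⊥ := by
    intro hP
    have h1 := Cfsg.Agent.H66.centralizer_pPrimeCore_le p hsol hP
    rw [hcore] at h1
    have htop : (⊤ : Subgroup G) ≤ ⊥ := by
      intro x _
      apply h1
      rw [Subgroup.mem_centralizer_iff]
      intro y hy
      rw [SetLike.mem_coe, Subgroup.mem_bot] at hy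
      rw [hy, one_mul, mul_one]
    have hsub : Subsingleton G := by
      refine ⟨fun x y => ?_⟩
      have hx : x ∈ (⊥ : Subgroup G) := htop (Subgroup.mem_top x)
      have hy : y ∈ (⊥ : Subgroup G) := htop (Subgroup.mem_top y)
      rw [Subgroup.mem_bot] at hx hy
      rw [hx, hy]
    have hc1 : Nat.card G = 1 := Nat.card_eq_one_iff_unique.2 ⟨hsub, ⟨1⟩⟩
    rw [hc1] at hdvd
    exact hp.one_lt.ne' (Nat.dvd_one.1 hdvd)
  -- a central element of order `p` of `P`
  have hnt : Nontrivial (pCore p G) := by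
    rw [Subgroup.nontrivial_iff_ne_bot]
    exact hPne
  have hcnt : Nontrivial (Subgroup.center (pCore p G)) := hPp.center_nontrivial
  have hcp : IsPGroup p (Subgroup.center (pCore p G)) := hPp.to_subgroup _
  obtain ⟨k, hk⟩ := hcp.exists_card_eq
  have hk0 : k ≠ 0 := by
    intro h0
    rw [h0, pow_zero] at hk
    have := (Finite.one_lt_card_iff_nontrivial).2 hcnt
    omega
  have hpd : p ∣ Nat.card (Subgroup.center (pCore p G)) := by
    rw [hk]; exact dvd_pow_self p hk0
  obtain ⟨z, hz⟩ := exists_prime_orderOf_dvd_card' p hpd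
  -- `u₀ : G`
  set u₀ : G := ((z : pCore p G) : G) with hu₀
  have hu₀P : u₀ ∈ pCore p G := (z : pCore p G).2
  have hu₀ord : orderOf u₀ = p := by
    rw [hu₀, Subgroup.orderOf_coe, Subgroup.orderOf_coe, hz]
  have hu₀c : ∀ u ∈ pCore p G, u₀ * u = u * u₀ := by
    intro u hu
    have := Subgroup.mem_center_iff.1 z.2 ⟨u, hu⟩
    have h2 := congrArg Subtype.val this
    simpa using h2.symm
  by_cases hg1 : g = 1
  · subst hg1
    exact ⟨Subgroup.one_mem _, fun u _ => by rw [one_mul, mul_one]⟩
  have hgord : orderOf g = p := orderOf_eq_prime hg hg1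
  obtain ⟨a, ha⟩ := htrans (Subgroup.zpowers u₀) (Subgroup.zpowers g)
    (by rw [Nat.card_zpowers, hu₀ord]) (by rw [Nat.card_zpowers, hgord])
  have hgm : g ∈ (Subgroup.zpowers u₀).map a.toMonoidHom := by
    rw [ha]; exact Subgroup.mem_zpowers g
  obtain ⟨w, hw, hwg⟩ := hgm
  have hwP : w ∈ pCore p G := by
    obtain ⟨i, rfl⟩ := Subgroup.mem_zpowers_iff.1 hw
    exact Subgroup.zpow_mem _ hu₀P i
  have hwc : ∀ u ∈ pCore p G, w * u = u * w := by
    intro u hu
    obtain ⟨i, rfl⟩ := Subgroup.mem_zpowers_iff.1 hw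
    exact ((Commute.zpow_left (hu₀c u hu) i)).eq
  have hmap : (pCore p G).map a.toMonoidHom = pCore p G :=
    (Subgroup.characteristic_iff_map_eq.1 hPchar) a
  constructor
  · rw [← hmap]
    exact ⟨w, hwP, hwg⟩
  · intro u hu
    rw [← hmap] at hu
    obtain ⟨u', hu', hue⟩ := hu
    rw [← hwg, ← hue, ← map_mul, ← map_mul, hwc u' hu']

example : OmegaStatement.{u} := omega_holds

end Cfsg.Agent.H39.GY
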