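import Mathlib
import Cfsg.Agent.H66.GYDefs
import Cfsg.Agent.S3744

/-!
# S3798-SZ (helper39, for helper66): Schur–Zassenhaus complement and the Frattini argument

A normal `p`-subgroup `P` of `p'`-index in the normal subgroup `K` has a complement `K₀` in
`K`, and `G = P · N_G(K₀)`.
-/

set_option autoImplicit false

namespace Cfsg.Agent.H39.GY

open Cfsg Cfsg.Agent.H66.GY

universe u

/-- A group with a normal `p`-subgroup of index prime to `p` is `p`-soluble. -/
theorem isPSolvable_of_normal_pgroup {K : Type u} [Group K] [Finite K] (p : ℕ) [Fact p.Prime]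
    (N : Subgroup K) [hN' : N.Normal] (hN : IsPGroup p N) (hidx : (N.index).Coprime p) :
    IsPSolvable p K := by
  obtain ⟨a, ha⟩ := hN.exists_card_eq
  refine ⟨2, ![⊥, N, ⊤], rfl, rfl, ?_, ?_, ?_⟩
  · rw [Fin.monotone_iff_le_succ]
    intro i
    fin_cases i
    · exact bot_le
    · exact le_top
  · intro i
    fin_cases i
    · exact Subgroup.normal_bot
    · exact hN'
    · exact Subgroup.normal_top
  · intro i
    fin_cases i
    · left
      refine ⟨a, ?_⟩
      show (⊥ : Subgroup K).relIndex N = p ^ a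
      rw [Subgroup.relIndex_bot_left, ha]
    · right
      show (N.relIndex ⊤).Coprime p
      rw [Subgroup.relIndex_top_right]
      exact hidx

theorem sz_holds : SZStatement.{u} := by
  intro G _ _ p hpf P K hP hK hPp hPK hcop
  classical
  have hp : p.Prime := hpf.out
  have hP'n : (P.subgroupOf K).Normal := inferInstance
  have hP'p : IsPGroup p (P.subgroupOf K) := hPp.comap_subtype
  have hidx : (P.subgroupOf K).index.Coprime p := hcop
  have hsol : IsPSolvable p K :=
    isPSolvable_of_normal_pgroup p (P.subgroupOf K) hP'p hidx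
  obtain ⟨⟨H', hH'cop, n, hH'idx⟩, hconj, -⟩ := Cfsg.Agent.S3744.result hsol
  -- `P'` and `H'` are complements in `K`
  obtain ⟨a, ha⟩ := hP'p.exists_card_eq
  have h1 := Subgroup.card_mul_index (P.subgroupOf K)
  have h2 := Subgroup.card_mul_index H'
  rw [ha] at h1
  rw [hH'idx] at h2
  have hcopa : Nat.Coprime (p ^ a) (Nat.card H') := (Nat.Coprime.pow_left a hH'cop.symm)
  have hcopn : Nat.Coprime (p ^ n) (P.subgroupOf K).index := (Nat.Coprime.pow_left n hidx.symm)
  have han : a = n := by
    apply le_antisymm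
    · have hd : p ^ a ∣ Nat.card H' * p ^ n := by rw [h2, ← h1]; exact dvd_mul_right _ _
      have := hcopa.dvd_of_dvd_mul_left hd
      exact (Nat.pow_dvd_pow_iff_le_right hp.one_lt).1 this
    · have hd : p ^ n ∣ p ^ a * (P.subgroupOf K).index := by rw [h1, ← h2]; exact dvd_mul_left _ _
      have := hcopn.dvd_of_dvd_mul_right hd
      exact (Nat.pow_dvd_pow_iff_le_right hp.one_lt).1 this
  have hprod : Nat.card (P.subgroupOf K) * Nat.card H' = Nat.card K := by
    rw [ha, han, mul_comm, h2]
  have hcompl : Subgroup.IsComplement' (P.subgroupOf K) H' :=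
    Subgroup.isComplement'_of_coprime hprod (by rw [ha]; exact hcopa)
  have hKfact : ∀ k ∈ K, ∃ u ∈ P, ∃ k₀ ∈ H'.map K.subtype, k = u * k₀ := by
    intro k hk
    obtain ⟨⟨u, h⟩, huh⟩ := hcompl.2 ⟨k, hk⟩
    refine ⟨(u : K), Subgroup.mem_subgroupOf.1 u.2, (h : K), ⟨(h : K), h.2, rfl⟩, ?_⟩
    have := congrArg Subtype.val huh
    simpa using this.symm
  refine ⟨H'.map K.subtype, Subgroup.map_subtype_le H', ?_, hKfact, ?_⟩
  · rw [Subgroup.card_map_of_injective K.subtype_injective]
    exact hH'cop
  · intro g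
    -- the conjugate of `H'` by `g`
    have hc1 : (Nat.card (H'.map (MulAut.conjNormal g : MulAut K).toMonoidHom)).Coprime p := by
      have hinj : Function.Injective ((MulAut.conjNormal g : MulAut K).toMonoidHom) :=
        (MulAut.conjNormal g : MulAut K).injective
      rw [Subgroup.card_map_of_injective hinj]
      exact hH'cop
    have hc2 : (H'.map (MulAut.conjNormal g : MulAut K).toMonoidHom).index = p ^ n := by
      rw [← hH'idx]
      exact Subgroup.index_map_equiv H' (MulAut.conjNormal g : MulAut K)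
    obtain ⟨k, hk⟩ := hconj H' (H'.map (MulAut.conjNormal g : MulAut K).toMonoidHom)
      hH'cop ⟨n, hH'idx⟩ hc1 ⟨n, hc2⟩
    -- `k⁻¹ g` normalizes `K₀`
    have hnorm : (k : G)⁻¹ * g ∈ Subgroup.normalizer ((H'.map K.subtype : Subgroup G) : Set G) := by
      rw [Subgroup.mem_normalizer_iff]
      intro x
      constructor
      · rintro ⟨h, hh, rfl⟩
        have hm : (MulAut.conjNormal g : MulAut K) h ∈
            H'.map (MulAut.conjNormal g : MulAut K).toMonoidHom := ⟨h, hh, rfl⟩
        rw [hk] at hm
        obtain ⟨h', hh', he⟩ := hm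
        refine ⟨h', hh', ?_⟩
        have he' := congrArg Subtype.val he
        simp only [MulEquiv.coe_toMonoidHom, MulAut.conj_apply, MulAut.conjNormal_apply,
          Subgroup.coe_mul, Subgroup.coe_inv] at he'
        -- he' : k * h' * k⁻¹ = g * h * g⁻¹
        show (h' : G) = (k : G)⁻¹ * g * (h : G) * ((k : G)⁻¹ * g)⁻¹
        have : (k : G)⁻¹ * g * (h : G) * ((k : G)⁻¹ * g)⁻¹
            = (k : G)⁻¹ * (g * (h : G) * g⁻¹) * (k : G) := by group
        rw [this, ← he']
        group
      · rintro ⟨h, hh, he0⟩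
        have he0' : (h : G) = (k : G)⁻¹ * g * x * ((k : G)⁻¹ * g)⁻¹ := he0
        have hm : (MulAut.conj k : MulAut K) h ∈ H'.map (MulAut.conj k).toMonoidHom := ⟨h, hh, rfl⟩
        rw [← hk] at hm
        obtain ⟨h', hh', he⟩ := hm
        refine ⟨h', hh', ?_⟩
        have he' := congrArg Subtype.val he
        simp only [MulEquiv.coe_toMonoidHom, MulAut.conj_apply, MulAut.conjNormal_apply,
          Subgroup.coe_mul, Subgroup.coe_inv] at he'
        -- he' : g * h' * g⁻¹ = k * h * k⁻¹
        show (h' : G) = x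
        have : (h' : G) = g⁻¹ * (g * (h' : G) * g⁻¹) * g := by group
        rw [this, he', he0']
        group
    obtain ⟨u, hu, k₀, hk₀, hke⟩ := hKfact (k : G) k.2
    refine ⟨u, hu, k₀ * ((k : G)⁻¹ * g), ?_, ?_⟩
    · exact Subgroup.mul_mem _ (Subgroup.le_normalizer hk₀) hnorm
    · have : g = (k : G) * ((k : G)⁻¹ * g) := by group
      rw [← mul_assoc, ← hke]
      exact this

example : SZStatement.{u} := sz_holds

end Cfsg.Agent.H39.GY
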