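import Mathlib
import Cfsg.Agent.H64.Hall4Defs

/-!
# S4221 team piece H4-BWB (for helper64)

`Cfsg.Agent.H39.Hall4.bwb : Cfsg.Agent.H64.Hall4.BWBStmt`: for commuting involutions `a`, `b`
normalizing a finite subgroup `H` of odd order, the set `I` of elements of `H` inverted by `a`
is in bijection with `R × F` via `(r, f) ↦ r * f * r`, where `R` (resp. `F`) is the set of
elements of `I` inverted (resp. centralized) by `b`.
-/

set_option autoImplicit false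

namespace Cfsg.Agent.H39.Hall4

universe v

theorem bwb : Cfsg.Agent.H64.Hall4.BWBStmt.{v} := by
  intro Γ _ H _ a b hodd ha hb hab hHa hHb
  obtain ⟨k0, hk0⟩ := hodd
  have hpow : ∀ u ∈ H, u ^ Nat.card H = 1 := by
    intro u hu
    have h1 : (⟨u, hu⟩ : H) ^ Nat.card H = 1 := pow_card_eq_one'
    have h2 := congrArg (Subtype.val) h1
    rwa [Subgroup.coe_pow, Subgroup.coe_one] at h2
  have hsq1 : ∀ u ∈ H, (u ^ (k0 + 1)) ^ 2 = u := by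
    intro u hu
    rw [← pow_mul, show (k0 + 1) * 2 = Nat.card H + 1 by omega, pow_succ, hpow u hu, one_mul]
  have hsq2 : ∀ u ∈ H, (u ^ 2) ^ (k0 + 1) = u := by
    intro u hu
    rw [← pow_mul, show 2 * (k0 + 1) = Nat.card H + 1 by omega, pow_succ, hpow u hu, one_mul]
  have hinj : ∀ u ∈ H, ∀ w ∈ H, u ^ 2 = w ^ 2 → u = w := by
    intro u hu w hw h
    rw [← hsq2 u hu, ← hsq2 w hw, h]
  rw [← Set.ncard_prod]
  symm
  refine Set.ncard_congr (fun p _ => p.1 * p.2 * p.1) ?_ ?_ ?_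
  · -- maps to
    rintro ⟨r, f⟩ ⟨⟨hrH, har, hbr⟩, ⟨hfH, haf, hbf⟩⟩
    refine ⟨H.mul_mem (H.mul_mem hrH hfH) hrH, ?_⟩
    have h1 : a * (r * f * r) * a⁻¹ = (a * r * a⁻¹) * (a * f * a⁻¹) * (a * r * a⁻¹) := by group
    show a * (r * f * r) * a⁻¹ = (r * f * r)⁻¹
    rw [h1, har, haf]
    group
  · -- injective
    rintro ⟨r, f⟩ ⟨r', f'⟩ ⟨⟨hrH, har, hbr⟩, ⟨hfH, haf, hbf⟩⟩ ⟨⟨hrH', har', hbr'⟩, ⟨hfH', haf', hbf'⟩⟩ heq
    simp only at heq hrH har hbr hfH haf hbf hrH' har' hbr' hfH' haf' hbf'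
    -- j = b i b⁻¹ computed in two ways
    have hj1 : b * (r * f * r) * b⁻¹ = r⁻¹ * f * r⁻¹ := by
      have h1 : b * (r * f * r) * b⁻¹ = (b * r * b⁻¹) * (b * f * b⁻¹) * (b * r * b⁻¹) := by group
      rw [h1, hbr, hbf]
    have hj2 : b * (r' * f' * r') * b⁻¹ = r'⁻¹ * f' * r'⁻¹ := by
      have h1 : b * (r' * f' * r') * b⁻¹ = (b * r' * b⁻¹) * (b * f' * b⁻¹) * (b * r' * b⁻¹) := by
        group
      rw [h1, hbr', hbf']
    have hjj : r⁻¹ * f * r⁻¹ = r'⁻¹ * f' * r'⁻¹ := by rw [← hj1, ← hj2, heq]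
    have hA : (r ^ 2 * (r⁻¹ * f * r⁻¹)) ^ 2 = (r * f * r) * (r⁻¹ * f * r⁻¹) := by
      simp only [pow_two]; group
    have hB : (r' ^ 2 * (r'⁻¹ * f' * r'⁻¹)) ^ 2 = (r' * f' * r') * (r'⁻¹ * f' * r'⁻¹) := by
      simp only [pow_two]; group
    have hC : (r ^ 2 * (r⁻¹ * f * r⁻¹)) ^ 2 = (r' ^ 2 * (r'⁻¹ * f' * r'⁻¹)) ^ 2 := by
      rw [hA, hB, heq, hjj]
    have hm1 : r ^ 2 * (r⁻¹ * f * r⁻¹) ∈ H :=
      H.mul_mem (H.pow_mem hrH 2) (H.mul_mem (H.mul_mem (H.inv_mem hrH) hfH) (H.inv_mem hrH))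
    have hm2 : r' ^ 2 * (r'⁻¹ * f' * r'⁻¹) ∈ H :=
      H.mul_mem (H.pow_mem hrH' 2) (H.mul_mem (H.mul_mem (H.inv_mem hrH') hfH') (H.inv_mem hrH'))
    have hD := hinj _ hm1 _ hm2 hC
    rw [hjj] at hD
    have hr2 : r ^ 2 = r' ^ 2 := mul_right_cancel hD
    have hrr : r = r' := hinj r hrH r' hrH' hr2
    subst hrr
    have hff : f = f' := by
      have := mul_right_cancel heq
      exact mul_left_cancel this
    rw [hff]
  · -- surjective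
    rintro i ⟨hiH, hai⟩
    have hjH : b * i * b⁻¹ ∈ H := hHb i hiH
    obtain ⟨j, hjdef⟩ : ∃ j, j = b * i * b⁻¹ := ⟨_, rfl⟩
    rw [← hjdef] at hjH
    have hbi : b * i * b⁻¹ = j := hjdef.symm
    have hbj : b * j * b⁻¹ = i := by
      have h1 : b * (b * i * b⁻¹) * b⁻¹ = (b * b) * i * (b * b)⁻¹ := by group
      rw [hjdef, h1, hb]; simp
    have haj : a * j * a⁻¹ = j⁻¹ := by
      have h1 : a * (b * i * b⁻¹) * a⁻¹ = (a * b) * i * (a * b)⁻¹ := by group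
      have h2 : (b * a) * i * (b * a)⁻¹ = b * (a * i * a⁻¹) * b⁻¹ := by group
      rw [hjdef, h1, hab, h2, hai]; group
    obtain ⟨s, hsdef⟩ : ∃ s, s = (i * j) ^ (k0 + 1) := ⟨_, rfl⟩
    have hijH : i * j ∈ H := H.mul_mem hiH hjH
    have hsH : s ∈ H := by rw [hsdef]; exact H.pow_mem hijH _
    have hs2 : s ^ 2 = i * j := by rw [hsdef]; exact hsq1 _ hijH
    have hbs : b * s * b⁻¹ = j * s * j⁻¹ := by
      rw [hsdef, ← conj_pow, ← conj_pow]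
      congr 1
      have h1 : b * (i * j) * b⁻¹ = (b * i * b⁻¹) * (b * j * b⁻¹) := by group
      rw [h1, hbi, hbj]; group
    have has : a * s * a⁻¹ = (j * s * j⁻¹)⁻¹ := by
      rw [hsdef, ← conj_pow, ← conj_pow, ← inv_pow]
      congr 1
      have h1 : a * (i * j) * a⁻¹ = (a * i * a⁻¹) * (a * j * a⁻¹) := by group
      rw [h1, hai, haj]; group
    obtain ⟨t, htdef⟩ : ∃ t, t = s * j⁻¹ := ⟨_, rfl⟩
    have htH : t ∈ H := by rw [htdef]; exact H.mul_mem hsH (H.inv_mem hjH)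
    have htjt : t * j * t = i := by
      have h1 : s * j⁻¹ * j * (s * j⁻¹) = s ^ 2 * j⁻¹ := by simp only [pow_two]; group
      rw [htdef, h1, hs2]; group
    have hbt : b * t * b⁻¹ = t⁻¹ := by
      have h1 : b * (s * j⁻¹) * b⁻¹ = (b * s * b⁻¹) * (b * j * b⁻¹)⁻¹ := by group
      have h2 : j * s * j⁻¹ * i⁻¹ = j * (s * (i * j)⁻¹) := by group
      have h3 : s * (s ^ 2)⁻¹ = s⁻¹ := by group
      rw [htdef, h1, hbs, hbj, h2, ← hs2, h3]; group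
    have hat : a * t * a⁻¹ = t⁻¹ := by
      have h1 : a * (s * j⁻¹) * a⁻¹ = (a * s * a⁻¹) * (a * j * a⁻¹)⁻¹ := by group
      rw [htdef, h1, has, haj]; group
    obtain ⟨r, hrdef⟩ : ∃ r, r = t ^ (k0 + 1) := ⟨_, rfl⟩
    have hrH : r ∈ H := by rw [hrdef]; exact H.pow_mem htH _
    have hr2 : r ^ 2 = t := by rw [hrdef]; exact hsq1 _ htH
    have har : a * r * a⁻¹ = r⁻¹ := by
      rw [hrdef, ← conj_pow, hat, inv_pow]
    have hbr : b * r * b⁻¹ = r⁻¹ := by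
      rw [hrdef, ← conj_pow, hbt, inv_pow]
    have hfH : r⁻¹ * i * r⁻¹ ∈ H := H.mul_mem (H.mul_mem (H.inv_mem hrH) hiH) (H.inv_mem hrH)
    have haf : a * (r⁻¹ * i * r⁻¹) * a⁻¹ = (r⁻¹ * i * r⁻¹)⁻¹ := by
      have h1 : a * (r⁻¹ * i * r⁻¹) * a⁻¹ = (a * r * a⁻¹)⁻¹ * (a * i * a⁻¹) * (a * r * a⁻¹)⁻¹ := by
        group
      rw [h1, har, hai]; group
    have hbf : b * (r⁻¹ * i * r⁻¹) * b⁻¹ = r⁻¹ * i * r⁻¹ := by
      have h1 : b * (r⁻¹ * i * r⁻¹) * b⁻¹ = (b * r * b⁻¹)⁻¹ * (b * i * b⁻¹) * (b * r * b⁻¹)⁻¹ := by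
        group
      have h2 : r⁻¹ * (r ^ 2 * j * r ^ 2) * r⁻¹ = r⁻¹⁻¹ * j * r⁻¹⁻¹ := by group
      rw [h1, hbr, hbi, ← h2, hr2, htjt]
    refine ⟨(r, r⁻¹ * i * r⁻¹), ⟨⟨hrH, har, hbr⟩, ⟨hfH, haf, hbf⟩⟩, ?_⟩
    show r * (r⁻¹ * i * r⁻¹) * r = i
    group

example : Cfsg.Agent.H64.Hall4.BWBStmt.{v} := bwb

end Cfsg.Agent.H39.Hall4
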