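import Mathlib
import Cfsg.Agent.H64.Hall4Defs

/-!
# S4221 team piece H4-C0ONE (for helper64)

`Cfsg.Agent.H39.Hall4.c0One : Cfsg.Agent.H64.Hall4.C0OneStmt`: if the involution `t` moves
exactly 8 points, then the subgroup of `C_G(t)` fixing `a, t a, b, t b` is trivial.
-/

set_option autoImplicit false

namespace Cfsg.Agent.H39.Hall4

open Equiv Cfsg.Agent.H64.Hall4

universe u

/-- a permutation of odd order fixing `x` after two steps fixes `x` -/
theorem fix_of_sq_fix {α : Type u} [Fintype α] [DecidableEq α] (g : Perm α)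
    (hodd : Odd (orderOf g)) (x : α) (h : g (g x) = x) : g x = x := by
  obtain ⟨k, hk⟩ := hodd
  have h1 : g ^ (2 * (k + 1)) = g := by
    rw [show 2 * (k + 1) = orderOf g + 1 by omega, pow_succ, pow_orderOf_eq_one, one_mul]
  have h2 : ∀ m : ℕ, (g ^ (2 * m)) x = x := by
    intro m
    induction m with
    | zero => simp
    | succ m ih =>
      rw [show 2 * (m + 1) = 2 * m + 2 by ring, pow_add, Perm.mul_apply, pow_two, Perm.mul_apply,
        h, ih]
  have h3 := h2 (k + 1)
  rw [h1] at h3
  exact h3

theorem c0One : Cfsg.Agent.H64.Hall4.C0OneStmt.{u} := by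
  intro α _ _ G hB t ht hcard a b hta htb hba hbta
  rw [Subgroup.card_eq_one, Subgroup.eq_bot_iff_forall]
  intro g hg
  simp only [Subgroup.mem_inf] at hg
  obtain ⟨⟨hgG, hgt⟩, hgfix⟩ := hg
  have htt : ∀ x, t (t x) = x := by
    intro x
    have := congrArg (fun f : Perm α => f x) ht.2.1
    simpa using this
  have hcomm : ∀ x, t (g x) = g (t x) := by
    intro x
    have h1 : t * g = g * t := Subgroup.mem_centralizer_iff.mp hgt t (Set.mem_singleton t)
    have := congrArg (fun f : Perm α => f x) h1
    simpa using this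
  have hfx : ∀ y ∈ ({a, t a, b, t b} : Set α), g y = y := by
    intro y hy
    exact (mem_fixingSubgroup_iff (Perm α)).mp hgfix y hy
  have hga : g a = a := hfx a (by simp)
  have hgta : g (t a) = t a := hfx (t a) (by simp)
  have hgb : g b = b := hfx b (by simp)
  have hgtb : g (t b) = t b := hfx (t b) (by simp)
  have hatb : a ≠ t b := by
    intro h; apply hbta; rw [h, htt]
  have htatb : t a ≠ t b := by
    intro h; exact hba (t.injective h).symm
  have hnd : [a, t a, b, t b].Nodup := by
    simp [Ne.symm hta, Ne.symm hba, hatb, Ne.symm hbta, htatb, Ne.symm htb]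
  have hodd : Odd (orderOf g) := hB.o4 g hgG a (t a) b (t b) hnd hga hgta hgb hgtb
  have hMv : (Finset.univ.filter (fun x => t x ≠ x)).card = 8 := by
    have h1 : (Finset.univ.filter (fun x => t x = x)).card +
        (Finset.univ.filter (fun x => t x ≠ x)).card = Fintype.card α := by
      rw [← Finset.card_univ]
      exact Finset.card_filter_add_card_filter_not (s := (Finset.univ : Finset α))
        (fun x => t x = x)
    have h2 : (Finset.univ.filter (fun x => t x = x)).card = fixN t := rfl
    omega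
  obtain ⟨Q, hQdef⟩ : ∃ Q : Finset α, Q = [a, t a, b, t b].toFinset := ⟨_, rfl⟩
  have hQcard : Q.card = 4 := by
    rw [hQdef, List.toFinset_card_of_nodup hnd]; rfl
  have hmem : ∀ x, x ∈ Q ↔ x = a ∨ x = t a ∨ x = b ∨ x = t b := by
    intro x; simp [hQdef]
  have hgQ : ∀ x ∈ Q, g x = x := by
    intro x hx
    rcases (hmem x).mp hx with rfl | rfl | rfl | rfl
    · exact hga
    · exact hgta
    · exact hgb
    · exact hgtb
  have htQ : ∀ x ∈ Q, t x ∈ Q := by
    intro x hx
    rcases (hmem x).mp hx with rfl | rfl | rfl | rfl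
    · simp [hmem]
    · simp [hmem, htt]
    · simp [hmem]
    · simp [hmem, htt]
  have htQ' : ∀ x, x ∉ Q → t x ∉ Q := by
    intro x hx h
    apply hx
    have := htQ _ h
    rwa [htt] at this
  have hgQ' : ∀ x, x ∉ Q → g x ∉ Q := by
    intro x hx h
    apply hx
    have h1 : g (g x) = g x := hgQ _ h
    have h2 : g x = x := g.injective h1
    rwa [h2] at h
  have hmv : ∀ x, t x ≠ x → t (g x) ≠ g x := by
    intro x hx h
    rw [hcomm] at h
    exact hx (g.injective h)
  have hmvt : ∀ x, t x ≠ x → t (t x) ≠ t x := by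
    intro x hx h
    exact hx (t.injective h)
  have hQsub : Q ⊆ Finset.univ.filter (fun x => t x ≠ x) := by
    intro x hx
    rcases (hmem x).mp hx with rfl | rfl | rfl | rfl
    · simpa using hta
    · simpa using hmvt _ hta
    · simpa using htb
    · simpa using hmvt _ htb
  have hM'card : ((Finset.univ.filter (fun x => t x ≠ x)) \ Q).card = 4 := by
    rw [Finset.card_sdiff_of_subset hQsub, hMv, hQcard]
  have hM'mem : ∀ x, x ∈ (Finset.univ.filter (fun x => t x ≠ x)) \ Q ↔ t x ≠ x ∧ x ∉ Q := by
    intro x; simp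
  -- Part 1: `g` fixes every point moved by `t`
  have part1 : ∀ e, t e ≠ e → g e = e := by
    intro e hte
    by_cases heQ : e ∈ Q
    · exact hgQ e heQ
    by_contra hge
    have h1 : t (g e) ≠ g e := hmv e hte
    have h1Q : g e ∉ Q := hgQ' e heQ
    by_cases hc : g e = t e
    · apply hge
      apply fix_of_sq_fix g hodd
      rw [hc, ← hcomm, hc, htt]
    · have h3 : t e ≠ t (g e) := fun h => hge (t.injective h).symm
      have h4 : e ≠ t (g e) := by
        intro h
        have h' := congrArg t h
        rw [htt] at h'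
        exact hc h'.symm
      have hnd4 : [e, t e, g e, t (g e)].Nodup := by
        simp [Ne.symm hte, Ne.symm hge, h3, h4, Ne.symm hc, Ne.symm h1]
      have hsub : ([e, t e, g e, t (g e)].toFinset) ⊆
          (Finset.univ.filter (fun x => t x ≠ x)) \ Q := by
        intro x hx
        simp only [List.toFinset_cons, List.toFinset_nil, Finset.mem_insert,
          Finset.notMem_empty, or_false] at hx
        rw [hM'mem]
        rcases hx with rfl | rfl | rfl | rfl
        · exact ⟨hte, heQ⟩
        · exact ⟨hmvt _ hte, htQ' _ heQ⟩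
        · exact ⟨h1, h1Q⟩
        · exact ⟨hmvt _ h1, htQ' _ h1Q⟩
      have heq := Finset.eq_of_subset_of_card_le hsub
        (by rw [hM'card, List.toFinset_card_of_nodup hnd4]; rfl)
      have h5 : g (g e) ∈ (Finset.univ.filter (fun x => t x ≠ x)) \ Q :=
        (hM'mem _).mpr ⟨hmv _ h1, hgQ' _ h1Q⟩
      rw [← heq] at h5
      simp only [List.toFinset_cons, List.toFinset_nil, Finset.mem_insert,
        Finset.notMem_empty, or_false] at h5
      rcases h5 with h5 | h5 | h5 | h5
      · exact hge (fix_of_sq_fix g hodd e h5)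
      · have h6 : g (t e) = t (g e) := (hcomm e).symm
        have h7 : g (t (g e)) = e := by rw [← hcomm, h5, htt]
        have hodd2 : Odd (orderOf (g ^ 2)) := Odd.of_dvd_nat hodd (orderOf_pow_dvd 2)
        have h8 : (g ^ 2) ((g ^ 2) e) = e := by
          simp only [pow_two, Perm.mul_apply]
          rw [h5, h6, h7]
        have h9 := fix_of_sq_fix (g ^ 2) hodd2 e h8
        simp only [pow_two, Perm.mul_apply] at h9
        exact hge (fix_of_sq_fix g hodd e h9)
      · exact hge (g.injective h5)
      · have h6 : g (g (g e)) = g e := by rw [h5, ← hcomm, h5, htt]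
        have h7 := fix_of_sq_fix g hodd (g e) h6
        exact hge (g.injective h7)
  -- Part 2: `g = 1`
  by_contra hne
  have hex : ∃ p, g p ≠ p := by
    by_contra h
    apply hne
    apply Perm.ext
    intro x
    by_contra hx
    exact h ⟨x, hx⟩
  obtain ⟨p, hgp⟩ := hex
  have htp : t p = p := by
    by_contra h
    exact hgp (part1 p h)
  have htq : t (g p) = g p := by rw [hcomm, htp]
  have htw : t (g (g p)) = g (g p) := by rw [hcomm, htq]
  have hpq : p ≠ g p := Ne.symm hgp
  have hqw : g p ≠ g (g p) := fun h => hpq (g.injective h)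
  have hpw : p ≠ g (g p) := fun h => hgp (fix_of_sq_fix g hodd p h.symm)
  have hnd3 : [p, g p, g (g p)].Nodup := by
    simp [hpq, hqw, hpw]
  have hF3 : [p, g p, g (g p)].toFinset = Finset.univ.filter (fun x => t x = x) := by
    apply Finset.eq_of_subset_of_card_le
    · intro x hx
      simp only [List.toFinset_cons, List.toFinset_nil, Finset.mem_insert,
        Finset.notMem_empty, or_false] at hx
      rcases hx with rfl | rfl | rfl
      · simpa using htp
      · simpa using htq
      · simpa using htw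
    · rw [List.toFinset_card_of_nodup hnd3]
      exact hB.fixLe t ht
  have hfix3 : ∀ x, t x = x → x = p ∨ x = g p ∨ x = g (g p) := by
    intro x hx
    have h1 : x ∈ Finset.univ.filter (fun x => t x = x) := by simpa using hx
    rw [← hF3] at h1
    simpa using h1
  have hgw : g (g (g p)) = p := by
    have h1 : t (g (g (g p))) = g (g (g p)) := by rw [hcomm, htw]
    rcases hfix3 _ h1 with h | h | h
    · exact h
    · exact absurd (g.injective h) (Ne.symm hpw)
    · exact absurd (g.injective h) (Ne.symm hqw)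
  have hgfix' : ∀ x, x ≠ p → x ≠ g p → x ≠ g (g p) → g x = x := by
    intro x h1 h2 h3
    by_cases hx : t x = x
    · rcases hfix3 x hx with h | h | h
      · exact absurd h h1
      · exact absurd h h2
      · exact absurd h h3
    · exact part1 x hx
  have hpa : p ≠ a := fun h => hta (h ▸ htp)
  have hqa : g p ≠ a := fun h => hta (h ▸ htq)
  have hwa : g (g p) ≠ a := fun h => hta (h ▸ htw)
  have hndA : [p, g p, g (g p), a].Nodup := by
    simp [hpq, hqw, hpw, hpa, hqa, hwa]
  have hndB : [p, g p, a, g (g p)].Nodup := by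
    simp [hpq, hqw, hpw, hpa, hqa, Ne.symm hwa]
  obtain ⟨k, hkG, hkp, hkq, hkw, hka⟩ := hB.t4 p (g p) (g (g p)) a p (g p) a (g (g p)) hndA hndB
  have hkip : k⁻¹ p = p := by rw [Perm.inv_eq_iff_eq, hkp]
  have hkiw : k⁻¹ (g (g p)) = a := by rw [Perm.inv_eq_iff_eq, hka]
  have huG : g * (k * g * k⁻¹) ∈ G :=
    G.mul_mem hgG (G.mul_mem (G.mul_mem hkG hgG) (G.inv_mem hkG))
  have hup : (g * (k * g * k⁻¹)) p = g (g p) := by
    simp only [Perm.mul_apply]
    rw [hkip, hkq]
  have huw : (g * (k * g * k⁻¹)) (g (g p)) = p := by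
    simp only [Perm.mul_apply]
    rw [hkiw, hga, hka, hgw]
  have hufix : ∀ x, t x ≠ x → x ≠ a → (g * (k * g * k⁻¹)) x = x := by
    intro x hx hxa
    simp only [Perm.mul_apply]
    have h1 : k⁻¹ x ≠ p := by
      intro h
      rw [Perm.inv_eq_iff_eq, hkp] at h
      exact hx (h ▸ htp)
    have h2 : k⁻¹ x ≠ g p := by
      intro h
      rw [Perm.inv_eq_iff_eq, hkq] at h
      exact hx (h ▸ htq)
    have h3 : k⁻¹ x ≠ g (g p) := by
      intro h
      rw [Perm.inv_eq_iff_eq, hkw] at h
      exact hxa h
    have hkk : k (k⁻¹ x) = x := by simp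
    rw [hgfix' _ h1 h2 h3, hkk, part1 x hx]
  -- a fourth moved point
  have hex4 : ∃ e, e ∈ (Finset.univ.filter (fun x => t x ≠ x)) \ Q := by
    apply Finset.card_pos.mp
    rw [hM'card]; norm_num
  obtain ⟨e, he⟩ := hex4
  rw [hM'mem] at he
  obtain ⟨hte, heQ⟩ := he
  have hea : e ≠ a := fun h => heQ ((hmem e).mpr (Or.inl h))
  have heta : e ≠ t a := fun h => heQ ((hmem e).mpr (Or.inr (Or.inl h)))
  have heb : e ≠ b := fun h => heQ ((hmem e).mpr (Or.inr (Or.inr (Or.inl h))))
  have hetb : e ≠ t b := fun h => heQ ((hmem e).mpr (Or.inr (Or.inr (Or.inr h))))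
  have hndC : [t a, b, t b, e].Nodup := by
    simp [Ne.symm hbta, htatb, Ne.symm htb, Ne.symm heta, Ne.symm heb, Ne.symm hetb]
  have hoddu : Odd (orderOf (g * (k * g * k⁻¹))) :=
    hB.o4 _ huG (t a) b (t b) e hndC
      (hufix _ (hmvt _ hta) hta) (hufix _ htb hba) (hufix _ (hmvt _ htb) (Ne.symm hatb))
      (hufix _ hte hea)
  have hfin := fix_of_sq_fix _ hoddu p (by rw [hup, huw])
  rw [hup] at hfin
  exact hpw hfin.symm

example : Cfsg.Agent.H64.Hall4.C0OneStmt.{u} := c0One

end Cfsg.Agent.H39.Hall4
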