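import Mathlib
import Cfsg.Agent.H64.Hall4Defs
import Cfsg.Agent.S0415

/-!
# S4221 team piece H4-SM7 (for helper64)

`Cfsg.Agent.H39.Hall4.small7 : Cfsg.Agent.H64.Hall4.Small7Stmt`: degree 7.  The four-point
stabilizer has odd order and an element of it fixing a fifth point is trivial, so its order
is 1 or 3.  Order 1 is excluded by `Cfsg.Agent.S0415.result`; order 3 gives `|G| = 2520`,
index 2, hence `G` is the alternating group.
-/

set_option autoImplicit false

namespace Cfsg.Agent.H39.Hall4

open Equiv Cfsg.Agent.H64.Hall4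

universe u

/-- a permutation of odd order fixing `x` after two steps fixes `x` (copy for this file) -/
theorem fix_of_sq_fix' {α : Type u} [Fintype α] [DecidableEq α] (g : Perm α)
    (hodd : Odd (orderOf g)) (x : α) (h : g (g x) = x) : g x = x := by
  obtain ⟨k, hk⟩ := hodd
  have h1 : g ^ (2 * (k + 1)) = g := by
    rw [show 2 * (k + 1) = orderOf g + 1 by omega, pow_succ, pow_orderOf_eq_one, one_mul]
  have h2 : ∀ m : ℕ, (g ^ (2 * m)) x = x := by
    intro m
    induction m with
    | zero => simp
    | succ m ih =>
      rw [show 2 * (m + 1) = 2 * m + 2 by ring, pow_add, Perm.mul_apply, pow_two, Perm.mul_apply,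
        h, ih]
  have h3 := h2 (k + 1)
  rw [h1] at h3
  exact h3

/-- a permutation of odd order fixing all but two points is trivial -/
theorem eq_one_of_fix_all_but_two {α : Type u} [Fintype α] [DecidableEq α] (h : Perm α)
    (hodd : Odd (orderOf h)) (P : Finset α) (hP : P.card + 2 = Fintype.card α)
    (hfix : ∀ y ∈ P, h y = y) : h = 1 := by
  apply Perm.ext
  intro y
  rw [Perm.one_apply]
  by_cases hyP : y ∈ P
  · exact hfix y hyP
  by_contra hy
  have hnot : ∀ z, z ∉ P → h z ∉ P := by
    intro z hz hh
    apply hz
    have h1 : h (h z) = h z := hfix _ hh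
    have h2 : h z = z := h.injective h1
    rwa [h2] at hh
  have hcompl : (Finset.univ \ P).card = 2 := by
    rw [Finset.card_sdiff_of_subset (Finset.subset_univ P), Finset.card_univ]
    omega
  have hnd : [y, h y].Nodup := by simp [Ne.symm hy]
  have hsub : [y, h y].toFinset ⊆ Finset.univ \ P := by
    intro z hz
    simp only [List.toFinset_cons, List.toFinset_nil, Finset.mem_insert,
      Finset.notMem_empty, or_false] at hz
    rcases hz with rfl | rfl
    · simpa using hyP
    · simpa using hnot _ hyP
  have heq := Finset.eq_of_subset_of_card_le hsub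
    (by rw [hcompl, List.toFinset_card_of_nodup hnd]; rfl)
  have h5 : h (h y) ∈ Finset.univ \ P := by simpa using hnot _ (hnot _ hyP)
  rw [← heq] at h5
  simp only [List.toFinset_cons, List.toFinset_nil, Finset.mem_insert,
    Finset.notMem_empty, or_false] at h5
  rcases h5 with h5 | h5
  · exact hy (fix_of_sq_fix' h hodd y h5)
  · exact hy (h.injective h5)

theorem small7 : Cfsg.Agent.H64.Hall4.Small7Stmt.{u} := by
  intro α _ _ G hT x hodd hcardG hT4 hO4 h7
  have hstab : ∀ g : G, g ∈ MulAction.stabilizer G x → ∀ i, (g : Perm α) (x i) = x i := by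
    intro g hg i
    have h1 : g • x = x := MulAction.mem_stabilizer_iff.mp hg
    have h2 := congrArg (fun e : Fin 4 ↪ α => e i) h1
    simp only [Function.Embedding.smul_apply] at h2
    exact h2
  have hnd : [x 0, x 1, x 2, x 3].Nodup := by
    simp
  have hP0card : (Finset.univ.image x).card = 4 := by
    rw [Finset.card_image_of_injective _ x.injective, Finset.card_univ, Fintype.card_fin]
  have hP0mem : ∀ y, y ∈ Finset.univ.image x ↔ ∃ i, x i = y := by
    intro y; simp
  obtain ⟨c, -, hc⟩ : ∃ c, c ∈ (Finset.univ : Finset α) ∧ c ∉ Finset.univ.image x := by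
    apply Finset.exists_mem_notMem_of_card_lt_card
    rw [hP0card, Finset.card_univ, h7]; norm_num
  have hScard : (Finset.univ \ Finset.univ.image x).card = 3 := by
    rw [Finset.card_sdiff_of_subset (Finset.subset_univ _), Finset.card_univ, hP0card, h7]
  -- an element of the stabilizer fixing `c` is trivial
  have htriv : ∀ g : G, g ∈ MulAction.stabilizer G x → (g : Perm α) c = c → (g : Perm α) = 1 := by
    intro g hg hgc
    have hoddg : Odd (orderOf (g : Perm α)) :=
      hO4 (g : Perm α) g.2 (x 0) (x 1) (x 2) (x 3) hnd (hstab g hg 0) (hstab g hg 1)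
        (hstab g hg 2) (hstab g hg 3)
    apply eq_one_of_fix_all_but_two (g : Perm α) hoddg (insert c (Finset.univ.image x))
    · rw [Finset.card_insert_of_notMem hc, hP0card, h7]
    · intro y hy
      rw [Finset.mem_insert] at hy
      rcases hy with rfl | hy
      · exact hgc
      · obtain ⟨i, rfl⟩ := (hP0mem y).mp hy
        exact hstab g hg i
  -- the injection `g ↦ g c`
  have hmapsto : ∀ g : MulAction.stabilizer G x,
      ((g : G) : Perm α) c ∈ Finset.univ \ Finset.univ.image x := by
    intro g
    rw [Finset.mem_sdiff]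
    refine ⟨Finset.mem_univ _, ?_⟩
    intro hh
    obtain ⟨i, hi⟩ := (hP0mem _).mp hh
    apply hc
    rw [hP0mem]
    refine ⟨i, ?_⟩
    have h1 : ((g : G) : Perm α) (x i) = x i := hstab g.1 g.2 i
    rw [← h1] at hi
    exact ((g : G) : Perm α).injective hi
  have hinj : Function.Injective
      (fun g : MulAction.stabilizer G x =>
        (⟨((g : G) : Perm α) c, hmapsto g⟩ : ↥(Finset.univ \ Finset.univ.image x))) := by
    intro g g' hgg
    have h1 : ((g : G) : Perm α) c = ((g' : G) : Perm α) c := by
      simpa using congrArg Subtype.val hgg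
    have h2 : (g⁻¹ * g' : MulAction.stabilizer G x).1 ∈ MulAction.stabilizer G x :=
      (g⁻¹ * g').2
    have h3 : (((g⁻¹ * g' : MulAction.stabilizer G x).1 : G) : Perm α) c = c := by
      show (((g : G) : Perm α)⁻¹ * ((g' : G) : Perm α)) c = c
      rw [Perm.mul_apply, ← h1, Perm.inv_eq_iff_eq]
    have h4 := htriv _ h2 h3
    have h5 : ((g : G) : Perm α)⁻¹ * ((g' : G) : Perm α) = 1 := h4
    have h6 : ((g : G) : Perm α) = ((g' : G) : Perm α) := by
      rw [inv_mul_eq_one] at h5
      exact h5
    exact Subtype.ext (Subtype.ext h6)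
  have hle : Nat.card (MulAction.stabilizer G x) ≤ 3 := by
    have h1 := Nat.card_le_card_of_injective _ hinj
    rw [Nat.card_eq_fintype_card (α := ↥(Finset.univ \ Finset.univ.image x)), Fintype.card_coe,
      hScard] at h1
    exact h1
  have hcases : Nat.card (MulAction.stabilizer G x) = 1 ∨
      Nat.card (MulAction.stabilizer G x) = 3 := by
    obtain ⟨k, hk⟩ := hodd
    omega
  rcases hcases with h1 | h3
  · -- sharply 4-transitive: impossible in degree 7
    exfalso
    have hbot : MulAction.stabilizer G x = ⊥ := Subgroup.card_eq_one.mp h1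
    have hT' : MulAction.IsPretransitive G (Fin 4 ↪ α) := hT
    have hsharp : ∀ x' : Fin 4 ↪ α, MulAction.stabilizer G x' = ⊥ := by
      intro x'
      obtain ⟨g, rfl⟩ := MulAction.exists_smul_eq G x x'
      have h := MulAction.stabilizer_smul_eq_stabilizer_map_conj g x
      rw [hbot, Subgroup.map_bot] at h
      exact h
    have h := Cfsg.Agent.S0415.result G (by omega) hsharp
    omega
  · -- order 2520, index 2
    rw [h7, h3] at hcardG
    have hperm : Nat.card (Perm α) = 5040 := by
      rw [Nat.card_eq_fintype_card, Fintype.card_perm, h7]; rfl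
    have hidx : G.index = 2 := by
      have h := Subgroup.index_mul_card G
      rw [hperm, hcardG] at h
      omega
    exact Equiv.Perm.eq_alternatingGroup_of_index_eq_two hidx

example : Cfsg.Agent.H64.Hall4.Small7Stmt.{u} := small7

end Cfsg.Agent.H39.Hall4
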