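import Cfsg.Agent.H52.JxDefs
import Cfsg.Agent.H48.JxVne
import Cfsg.Agent.H94.JxPFacts
import Cfsg.Agent.H29.R1Out
import Cfsg.Agent.H61.JkBasic
import Cfsg.Agent.H19.JyGoodA
import Cfsg.Agent.Helper55.J48

/-!
# S2953 (kill sub-project JX), piece (X5) KB-NORM

In `RCtx2 S M K L T' K' L'` with `V = Ω₁Z(O₂(L)) ⊄ Q₁ = O₂(K' ⊔ T')`, every element of
`N_S(T')` normalizes `Q₁`.  Glue between the interfaces (`H48.Jy.vfacts`, `H48.Jx.vne`,
`H94.Jx.pfacts`) and the abstract core `H29.R1.r1_out_core`.  The inversion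
`v k v⁻¹ k ∈ Q₁` comes from the action of `P' = K' ⊔ T'` on the three cosets of `T'`.
-/

set_option autoImplicit false
open Cfsg

namespace Cfsg.Agent.H39.Jx

open Cfsg.Agent.H64.Jz

universe u

/-- In `S₃`, an involution inverts every element whose cube is 1. -/
theorem perm3_inv : ∀ σ τ : Equiv.Perm (Fin 3), σ * σ = 1 → σ ≠ 1 → τ ^ 3 = 1 →
    σ * τ * σ⁻¹ * τ = 1 := by decide

/-- The same on any type with three elements. -/
theorem perm_card3_inv {α : Type*} [Finite α] (h3 : Nat.card α = 3) (σ τ : Equiv.Perm α)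
    (hσ : σ * σ = 1) (hσ1 : σ ≠ 1) (hτ : τ ^ 3 = 1) : σ * τ * σ⁻¹ * τ = 1 := by
  have e : α ≃ Fin 3 := Finite.equivFinOfCardEq h3
  have h := perm3_inv (e.permCongrHom σ) (e.permCongrHom τ) (by rw [← map_mul, hσ, map_one])
    (fun h => hσ1 ((MulEquiv.map_eq_one_iff e.permCongrHom).mp h))
    (by rw [← map_pow, hτ, map_one])
  have h2 : e.permCongrHom (σ * τ * σ⁻¹ * τ) = 1 := by
    rw [map_mul, map_mul, map_mul, map_inv]; exact h
  exact (MulEquiv.map_eq_one_iff e.permCongrHom).mp h2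

/-- **(X5) KB-NORM.** -/
theorem kbNorm : Cfsg.Agent.H52.Jx.StKBNorm.{u} := by
  intro G _ _ S M K L T' K' L' hR hVQ
  have hR' := hR
  obtain ⟨hB, hNS, hB', hne⟩ := hR
  obtain ⟨hc4, hexp, hNV, ⟨z, hzV, hz1, hzZ, hzQ', hZall, htr⟩, hCent, hTI⟩ :=
    Cfsg.Agent.H48.Jy.vfacts S M K L T' K' L' hB hNS hB' hne
  obtain ⟨-, hVT⟩ := Cfsg.Agent.H48.Jx.vne S M K L T' K' L' hR'
  obtain ⟨hQT, hQne, hPQ, hT3, hQ2, hPX, hcore⟩ := Cfsg.Agent.H94.Jx.pfacts S L T' K' L' hB'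
  obtain ⟨h3idx, hcoreEq, -⟩ := Cfsg.Agent.H94.Jx.p_struct S L T' K' L' hB'
  obtain ⟨-, hSylT'⟩ := Cfsg.Agent.H61.Jk.base_facts S L T' K' L' hB'
  obtain ⟨-, hSylS⟩ := Cfsg.Agent.H61.Jk.base_facts S M (S : Subgroup G) K L hB
  have hT'S : T' ≤ (S : Subgroup G) := hB'.2.2.2.2.2.1
  have hSL : (S : Subgroup G) ≤ L := hSylS.1
  have hT'L' : T' ≤ L' := hSylT'.1
  have hT'2 : IsPGroup 2 ↥T' := hSylT'.2.1
  have hTP : T' ≤ K' ⊔ T' := le_sup_right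
  have hK'L : ¬ K' ≤ L := hB'.2.2.2.2.2.2.1.2.1
  -- `z` is central in `S`
  have hzS : ∀ s ∈ (S : Subgroup G), s * z = z * s := by
    intro s hs
    have := (Cfsg.Agent.H48.Jk.omegaCenterOf_le_inf' _ hzZ).2
    exact ((Subgroup.mem_centralizer_iff.mp this) s hs)
  have hzz : z * z = 1 := hexp z hzV
  have hSV : ∀ s ∈ (S : Subgroup G), ∀ w ∈ omegaCenterOf (pCoreOf 2 L),
      s * w * s⁻¹ ∈ omegaCenterOf (pCoreOf 2 L) := by
    intro s hs w hw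
    have h1 : s ∈ Subgroup.normalizer (omegaCenterOf (pCoreOf 2 L) : Set G) := by
      rw [hNV]; exact hSL hs
    exact (Subgroup.mem_normalizer_iff.mp h1 w).mp hw
  -- `z ∈ Q₁`
  have hzQ : z ∈ pCoreOf 2 (K' ⊔ T') := by
    have hQ'T : pCoreOf 2 L' ≤ T' := Cfsg.Agent.Helper55.J48.pCoreOf_le_of_sylowIn hSylT'
    have hPL' : K' ⊔ T' ≤ L' := sup_le (le_sup_left.trans hB'.2.2.2.2.2.2.2.2) hT'L'
    exact Cfsg.Agent.H19.Jy.le_pCoreOf_of_normal (hQ'T.trans hTP) (hT'2.to_le hQ'T)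
      (hPL'.trans (Cfsg.Agent.Helper55.J48.le_normalizer_pCoreOf L')) hzQ'
  -- the element `v ∈ V ∖ Q₁`
  obtain ⟨v, hvV, hvQ⟩ := SetLike.not_le_iff_exists.mp hVQ
  have hvT : v ∈ T' := hVT hvV
  have hvS : v ∈ (S : Subgroup G) := hT'S hvT
  have hvv : v * v = 1 := hexp v hvV
  have hv1 : v ≠ 1 := fun h => hvQ (h ▸ Subgroup.one_mem _)
  have hvz : v ≠ z := fun h => hvQ (h ▸ hzQ)
  have hb1 : v * z ≠ 1 := by
    intro h; apply hvz
    calc v = (v * z) * z := by rw [mul_assoc, hzz, mul_one]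
      _ = z := by rw [h, one_mul]
  have hbz : z ≠ v * z := by
    intro h; apply hv1
    calc v = (v * z) * z⁻¹ := by group
      _ = z * z⁻¹ := by rw [← h]
      _ = 1 := by group
  have hbv : v ≠ v * z := by
    intro h; apply hz1
    calc z = v⁻¹ * (v * z) := by group
      _ = v⁻¹ * v := by rw [← h]
      _ = 1 := by group
  have hall := Cfsg.Agent.H48.Jx.four_all hc4 hzV hvV (Subgroup.mul_mem _ hvV hzV) hz1 hv1 hb1
    (Ne.symm hvz) hbz hbv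
  have hvzQ : v * z ∉ pCoreOf 2 (K' ⊔ T') := by
    intro h
    apply hvQ
    have h2 := Subgroup.mul_mem _ h (Subgroup.inv_mem _ hzQ)
    have e : v * z * z⁻¹ = v := by group
    rwa [e] at h2
  have hQnorm : ∀ p ∈ K' ⊔ T', ∀ q ∈ pCoreOf 2 (K' ⊔ T'), p * q * p⁻¹ ∈ pCoreOf 2 (K' ⊔ T') :=
    fun p hp q hq => (Subgroup.mem_normalizer_iff.mp (hPQ hp) q).mp hq
  -- index 2
  have hTQv : ∀ t ∈ T', t ∈ pCoreOf 2 (K' ⊔ T') ∨ t * v ∈ pCoreOf 2 (K' ⊔ T') := by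
    intro t ht
    by_cases htQ : t ∈ pCoreOf 2 (K' ⊔ T')
    · exact Or.inl htQ
    · right
      have hidx : ((pCoreOf 2 (K' ⊔ T')).subgroupOf T').index = 2 := hQ2
      have h := (Subgroup.mul_mem_iff_of_index_two hidx (a := (⟨t, ht⟩ : ↥T'))
        (b := ⟨v, hvT⟩)).mpr
        ⟨fun h => absurd (Subgroup.mem_subgroupOf.mp h) htQ,
          fun h => absurd (Subgroup.mem_subgroupOf.mp h) hvQ⟩
      exact Subgroup.mem_subgroupOf.mp h
  -- `[Q₁, v] ≤ ⟨z⟩`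
  have hQv : ∀ q ∈ pCoreOf 2 (K' ⊔ T'), v * q * v⁻¹ = q ∨ v * q * v⁻¹ = q * z := by
    intro q hq
    have hqS : q ∈ (S : Subgroup G) := hT'S (hQT hq)
    have hc : v * q * v⁻¹ * q⁻¹ ∈ omegaCenterOf (pCoreOf 2 L) := by
      have h1 := hSV q hqS v⁻¹ (Subgroup.inv_mem _ hvV)
      have e : v * q * v⁻¹ * q⁻¹ = v * (q * v⁻¹ * q⁻¹) := by group
      rw [e]; exact Subgroup.mul_mem _ hvV h1
    have hcQ : v * q * v⁻¹ * q⁻¹ ∈ pCoreOf 2 (K' ⊔ T') :=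
      Subgroup.mul_mem _ (hQnorm v (hTP hvT) q hq) (Subgroup.inv_mem _ hq)
    rcases hall _ hc with h | h | h | h
    · left
      calc v * q * v⁻¹ = (v * q * v⁻¹ * q⁻¹) * q := by group
        _ = q := by rw [h, one_mul]
    · right
      calc v * q * v⁻¹ = (v * q * v⁻¹ * q⁻¹) * q := by group
        _ = z * q := by rw [h]
        _ = q * z := (hzS q hqS).symm
    · rw [h] at hcQ; exact absurd hcQ hvQ
    · rw [h] at hcQ; exact absurd hcQ hvzQ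
  -- `v^s ∈ {v, vz}` for `s ∈ S`
  have hsvS : ∀ s ∈ (S : Subgroup G), s * v * s⁻¹ = v ∨ s * v * s⁻¹ = v * z := by
    intro s hs
    rcases hall _ (hSV s hs v hvV) with h | h | h | h
    · exfalso; apply hv1
      calc v = s⁻¹ * (s * v * s⁻¹) * s := by group
        _ = 1 := by rw [h]; group
    · exfalso; apply hvz
      calc v = s⁻¹ * (s * v * s⁻¹) * s := by group
        _ = s⁻¹ * z * s := by rw [h]
        _ = s⁻¹ * (z * s) := by group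
        _ = s⁻¹ * (s * z) := by rw [hzS s hs]
        _ = z := by group
    · exact Or.inl h
    · exact Or.inr h
  -- an element `k` of order 3 of `P'`
  have h3dvd : 3 ∣ Nat.card ↥(K' ⊔ T') := by
    have h := Subgroup.relIndex_dvd_card T' (K' ⊔ T')
    rwa [hT3] at h
  haveI : Fact (Nat.Prime 3) := ⟨Nat.prime_three⟩
  obtain ⟨k0, hk0⟩ := exists_prime_orderOf_dvd_card' 3 h3dvd
  obtain ⟨k, hkP⟩ := k0
  have hk3o : orderOf k = 3 := by
    rw [← hk0]; exact (Subgroup.orderOf_mk _ _).symm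
  have hk3 : k ^ 3 = 1 := by rw [← hk3o]; exact pow_orderOf_eq_one k
  have hkL : k ∉ L := by
    intro hkL
    have hkT : k ∈ T' := hPX L (hT'S.trans hSL) hK'L ⟨hkP, hkL⟩
    obtain ⟨n, hn⟩ := hT'2 ⟨k, hkT⟩
    have hn' : k ^ (2 ^ n) = 1 := by
      have := congrArg Subtype.val hn
      simpa using this
    have hd : orderOf k ∣ 2 ^ n := orderOf_dvd_of_pow_eq_one hn'
    rw [hk3o] at hd
    have h32 := Nat.Prime.dvd_of_dvd_pow Nat.prime_three hd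
    exact absurd h32 (by decide)
  have hkz : k * z * k⁻¹ ≠ z := by
    intro h
    apply hkL
    apply hCent z hzV hz1
    rw [Subgroup.mem_centralizer_iff]
    intro y hy
    rw [Set.mem_singleton_iff] at hy
    rw [hy]
    calc z * k = (k * z * k⁻¹) * k := by rw [h]
      _ = k * z := by group
  -- `v` inverts `k` modulo `Q₁`
  have hvk' : v * k * v⁻¹ * k ∈ pCoreOf 2 (K' ⊔ T') := by
    have hker : ∀ x : ↥(K' ⊔ T'),
        MulAction.toPermHom ↥(K' ⊔ T') (↥(K' ⊔ T') ⧸ T'.subgroupOf (K' ⊔ T')) x = 1 →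
        (x : G) ∈ pCoreOf 2 (K' ⊔ T') := by
      intro x hx
      have h1 : x ∈ (T'.subgroupOf (K' ⊔ T')).normalCore := by
        rw [Subgroup.normalCore_eq_ker]; exact hx
      rw [← hcoreEq] at h1
      exact Subgroup.mem_map.mpr ⟨x, h1, rfl⟩
    have hcard : Nat.card (↥(K' ⊔ T') ⧸ T'.subgroupOf (K' ⊔ T')) = 3 := h3idx
    have hσ : MulAction.toPermHom ↥(K' ⊔ T') (↥(K' ⊔ T') ⧸ T'.subgroupOf (K' ⊔ T'))
          ⟨v, hTP hvT⟩ *
        MulAction.toPermHom ↥(K' ⊔ T') (↥(K' ⊔ T') ⧸ T'.subgroupOf (K' ⊔ T'))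
          ⟨v, hTP hvT⟩ = 1 := by
      rw [← map_mul]
      have e : (⟨v, hTP hvT⟩ : ↥(K' ⊔ T')) * ⟨v, hTP hvT⟩ = 1 := Subtype.ext hvv
      rw [e, map_one]
    have hσ1 : MulAction.toPermHom ↥(K' ⊔ T') (↥(K' ⊔ T') ⧸ T'.subgroupOf (K' ⊔ T'))
        ⟨v, hTP hvT⟩ ≠ 1 := fun h => hvQ (hker ⟨v, hTP hvT⟩ h)
    have hτ : MulAction.toPermHom ↥(K' ⊔ T') (↥(K' ⊔ T') ⧸ T'.subgroupOf (K' ⊔ T'))
        ⟨k, hkP⟩ ^ 3 = 1 := by
      rw [← map_pow]
      have e : (⟨k, hkP⟩ : ↥(K' ⊔ T')) ^ 3 = 1 := Subtype.ext (by simpa using hk3)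
      rw [e, map_one]
    have h := perm_card3_inv hcard _ _ hσ hσ1 hτ
    have h2 : MulAction.toPermHom ↥(K' ⊔ T') (↥(K' ⊔ T') ⧸ T'.subgroupOf (K' ⊔ T'))
        (⟨v, hTP hvT⟩ * ⟨k, hkP⟩ * (⟨v, hTP hvT⟩ : ↥(K' ⊔ T'))⁻¹ * ⟨k, hkP⟩) = 1 := by
      rw [map_mul, map_mul, map_mul, map_inv]; exact h
    exact hker _ h2
  -- the abstract core
  have key : ∀ s ∈ (S : Subgroup G), s ∈ Subgroup.normalizer (T' : Set G) →
      ∀ q ∈ pCoreOf 2 (K' ⊔ T'), s * q * s⁻¹ ∈ pCoreOf 2 (K' ⊔ T') := by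
    intro s hs hsN
    exact Cfsg.Agent.H29.R1.r1_out_core T' (pCoreOf 2 (K' ⊔ T')) z v k s hQT hvT hTQv hvv hzz
      hzQ (fun t ht => hzS t (hT'S ht)) hQv hk3 hkz (fun q hq => hQnorm k hkP q hq) hvk'
      (fun t ht => (Subgroup.mem_normalizer_iff.mp hsN t).mp ht) (hsvS s hs)
  intro x hxS hxN
  rw [Subgroup.mem_normalizer_iff]
  intro q
  constructor
  · exact key x hxS hxN q
  · intro h
    have h2 := key x⁻¹ (inv_mem hxS) (inv_mem hxN) _ h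
    have e : x⁻¹ * (x * q * x⁻¹) * x⁻¹⁻¹ = q := by group
    rwa [e] at h2

example : Cfsg.Agent.H52.Jx.StKBNorm.{u} := kbNorm.{u}

end Cfsg.Agent.H39.Jx

#print axioms Cfsg.Agent.H39.Jx.kbNorm
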