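import Mathlib
import Cfsg.Agent.H64.JzDefs
import Cfsg.Agent.S2950
import Cfsg.Agent.H54.UqO2SN
import Cfsg.Agent.H56.SrFIX
import Cfsg.Agent.H59.PushKill2
import Cfsg.Agent.H59.SoConj
import Cfsg.Agent.H39.JzLex
import Cfsg.Agent.H20.JtNormal
import Cfsg.Agent.H39.SxLift

/-!
# JZ-KILL, the end (K5): in the residual situation (R), the dichotomy (F1) for
`V = Ω₁Z(O₂(L))`, `|V| > 2` and `T' ≤ N_G(K')` are contradictory.

* `normalizer_le_normalizer_omegaCenterOf`: `N_G(X) ≤ N_G(Ω₁Z(X))`.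
* `normalizer_V_eq`: `N_G(Ω₁Z(O₂(L))) = L` for a maximal 2-local `L` (with `Ω₁Z(O₂(L)) ≠ 1`).
* `kend`: the contradiction (helper59's `vLeCore` + `rKill` + the LEX end).
-/

set_option autoImplicit false
open Cfsg

namespace Cfsg.Agent.H39.Jz

open Cfsg.Agent.Helper55 Cfsg.Agent.Helper55.ThJ Cfsg.Agent.Helper55.J48 Cfsg.Agent.H64.Jz

universe u

variable {G : Type u} [Group G] [Finite G]

omit [Finite G] in
theorem normalizer_le_normalizer_omegaCenterOf (X : Subgroup G) :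
    Subgroup.normalizer (X : Set G) ≤ Subgroup.normalizer (omegaCenterOf X : Set G) := by
  intro g hg
  rw [Subgroup.mem_normalizer_iff_map_conj_eq] at hg ⊢
  have h1 := Cfsg.Agent.H59.So.omegaCenterOf_map_conj g X
  have hg' : X.map (MulAut.conj g).toMonoidHom = X := hg
  rw [hg'] at h1
  exact h1.symm

/-- `V = Ω₁Z(O₂(L))` is a 2-group -/
theorem isPGroup_V (L : Subgroup G) : IsPGroup 2 ↥(omegaCenterOf (pCoreOf 2 L)) :=
  (Uq.pCoreOf_isPGroup L).to_le ((Cfsg.Agent.H20.Jt.omegaCenterOf_le _).trans inf_le_left)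

/-- `L ≤ N_G(Ω₁Z(O₂(L)))` -/
theorem le_normalizer_V (L : Subgroup G) :
    L ≤ Subgroup.normalizer (omegaCenterOf (pCoreOf 2 L) : Set G) :=
  (le_normalizer_pCoreOf L).trans (normalizer_le_normalizer_omegaCenterOf _)

/-- `N_G(Ω₁Z(O₂(L))) = L` for a maximal 2-local `L` -/
theorem normalizer_V_eq {L : Subgroup G} (hLmax : IsMaximalTwoLocal L)
    (hV : omegaCenterOf (pCoreOf 2 L) ≠ ⊥) :
    Subgroup.normalizer (omegaCenterOf (pCoreOf 2 L) : Set G) = L :=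
  hLmax.2 _ ⟨_, isPGroup_V L, hV, rfl⟩ (le_normalizer_V L)

/-- a 2-subgroup of `L'` normalized by `L'` lies in `O₂(L')` -/
theorem le_pCoreOf_of_normal {E L' : Subgroup G} (hE2 : IsPGroup 2 ↥E) (hEL : E ≤ L')
    (hLE : L' ≤ Subgroup.normalizer (E : Set G)) : E ≤ pCoreOf 2 L' := by
  have hn : (E.subgroupOf L').Normal := Subgroup.normal_subgroupOf_of_le_normalizer hLE
  have h1 : E.subgroupOf L' ≤ pCore 2 ↥L' := le_pCore hn hE2.comap_subtype
  have h2 := Subgroup.map_mono (f := L'.subtype) h1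
  rw [Subgroup.map_subgroupOf_eq_of_le hEL] at h2
  exact h2

/-- KEND: in (R), (F1) for `V = Ω₁Z(O₂(L))`, `|V| > 2` and `T' ≤ N_G(K')` are contradictory. -/
theorem kend (S : Sylow 2 G) (M K L T' K' L' : Subgroup G)
    (hR : RCtx S M K L T' K' L')
    (hF1 : ∀ a b : G, (omegaCenterOf (pCoreOf 2 L)).map (MulAut.conj a).toMonoidHom ⊓
        Subgroup.normalizer
          (((omegaCenterOf (pCoreOf 2 L)).map (MulAut.conj b).toMonoidHom : Subgroup G) : Set G)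
          ≠ ⊥ →
      ∀ u ∈ (omegaCenterOf (pCoreOf 2 L)).map (MulAut.conj a).toMonoidHom,
      ∀ v ∈ (omegaCenterOf (pCoreOf 2 L)).map (MulAut.conj b).toMonoidHom, u * v = v * u)
    (hVcard : 2 < Nat.card ↥(omegaCenterOf (pCoreOf 2 L)))
    (hTK : T' ≤ Subgroup.normalizer (K' : Set G)) : False := by
  have : Fact (Nat.Prime 2) := ⟨Nat.prime_two⟩
  obtain ⟨hB, hX, hB', hne⟩ := hR
  obtain ⟨hZN, hO, hM2, hMJ, hT, hTS, hK, hLmax, hKL⟩ := hB'
  obtain ⟨hchar, hsolv, hZ⟩ := hZN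
  have hLmax0 : IsMaximalTwoLocal L := hB.2.2.2.2.2.2.2.1
  have hVne : omegaCenterOf (pCoreOf 2 L) ≠ ⊥ := by
    intro h
    rw [h] at hVcard
    simp at hVcard
  have hNV : Subgroup.normalizer (omegaCenterOf (pCoreOf 2 L) : Set G) = L :=
    normalizer_V_eq hLmax0 hVne
  obtain ⟨L₀, hL₀max, hKL₀, huniq, hsn₀, hSyl₀⟩ :=
    Cfsg.Agent.S2950.result hchar hsolv hZ hO S L hM2 hMJ T' hT K' hK
  have hL'eq : L' = L₀ := huniq L' hLmax hKL
  rw [← hL'eq] at hsn₀ hSyl₀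
  have hT'2 : IsPGroup 2 ↥T' := hT.1.1
  have hT'L : T' ≤ L := hT.1.2.2.1
  have hK'L' : K' ≤ L' := le_sup_left.trans hKL
  have hK'notL : ¬ K' ≤ L := hK.2.1
  have hQT : pCoreOf 2 L' ≤ T' := pCoreOf_le_of_sylowIn hSyl₀
  have hSL : (S : Subgroup G) ≤ L :=
    (Subgroup.le_normalizer.trans (normalizer_le (S : Subgroup G))).trans hMJ
  have hSV : (S : Subgroup G) ≤ Subgroup.normalizer (omegaCenterOf (pCoreOf 2 L) : Set G) := by
    rw [hNV]; exact hSL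
  obtain ⟨z, hzV, hz1, hzS⟩ := Cfsg.Agent.H56.Sr.fix (S : Subgroup G)
    (omegaCenterOf (pCoreOf 2 L)) S.isPGroup' (isPGroup_V L) hSV hVne
  have hzQ : z ∈ pCoreOf 2 L' := by
    apply centralizer_pCoreOf_le hchar hLmax.1
    exact Subgroup.centralizer_le (SetLike.coe_subset_coe.mpr (hQT.trans hTS)) hzS
  have hVQ : omegaCenterOf (pCoreOf 2 L) ≤ pCoreOf 2 L' :=
    Cfsg.Agent.H59.PushKill.vLeCore (omegaCenterOf (pCoreOf 2 L)) L' (pCoreOf 2 L') hF1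
      (Cfsg.Agent.H39.Sx.sq_of_mem_omegaCenterOf _) z hzV hz1 hzQ
      (by rw [hNV]; exact hQT.trans hT'L) (le_normalizer_pCoreOf L')
      (fun E hE1 hE2 hLE => (hLmax.2 _ ⟨E, hE2, hE1, rfl⟩ hLE).le)
      (fun E hE2 hEL hLE => le_pCoreOf_of_normal hE2 hEL hLE)
  obtain ⟨hgen, -, hO3, -, -, -⟩ := hK.1.1
  have hOT : pCoreOf 2 K' ≤ T' := (Cfsg.Agent.H54.Uq.o2sn K' L' hK'L' hsn₀).trans hQT
  obtain ⟨F, hFne, hFT, hNF, hKF⟩ := Cfsg.Agent.H59.PushKill.rKill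
    (omegaCenterOf (pCoreOf 2 L)) T' K' (pCoreOf 2 K') hF1 hVcard (hVQ.trans hQT) hT'2
    (by rw [hNV]; exact hT'L) hTK (Subgroup.map_subtype_le _) hOT hO3 hgen
    (by rw [hNV]; exact hK'notL)
  have hloc : IsTwoLocal (Subgroup.normalizer (F : Set G)) := ⟨F, hT'2.to_le hFT, hFne, rfl⟩
  have hle : Subgroup.normalizer (F : Set G) ≤ L :=
    twoLocal_le_of_normalizer hT S.isPGroup' hSL hTS hne hloc (inf_le_right.trans hNF)
  exact hK'notL (hKF.trans hle)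

end Cfsg.Agent.H39.Jz
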