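import Cfsg.Agent.H46.OutDefs

/-!
# S2124-TINN (helper39, for helper46): the inner automorphisms in `autT` are the conjugations by `H`
-/

set_option autoImplicit false

namespace Cfsg.Agent.H39.OutE

open Cfsg.Lie Cfsg.Agent.H23 Cfsg.Agent.H23.Stb Cfsg.Agent.H46.OutE

universe u

variable {D : ChevalleyDatum} {F : Type u} [Field F] {z η : ℕ → ℕ → ℤ}

/-- Multiplication by a nonzero scalar, as an additive equivalence. -/
def mulAdd (a : F) (ha : a ≠ 0) : F ≃+ F where
  toFun t := a * t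
  invFun t := a⁻¹ * t
  left_inv t := by
    show a⁻¹ * (a * t) = t
    rw [← mul_assoc, inv_mul_cancel₀ ha, one_mul]
  right_inv t := by
    show a * (a⁻¹ * t) = t
    rw [← mul_assoc, mul_inv_cancel₀ ha, one_mul]
  map_add' s t := mul_add a s t

@[simp] theorem mulAdd_apply (a : F) (ha : a ≠ 0) (t : F) : mulAdd a ha t = a * t := rfl

/-- Conjugation by an element of `H` acts on every root subgroup by a scalar. -/
theorem conj_diag_xG (hP : PackB D F z η) (h : GL D.Idx F) (hh : h ∈ D.diagonalSubgroup F) :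
    ∃ χ : ℕ → F, (∀ c, χ c ≠ 0) ∧ ∀ r < D.nroots, ∀ t : F,
      MulAut.conj (⟨h, diagonal_le_group hP.sem hh⟩ : ↥(D.group F)) (xG hP.sem r t) =
        xG hP.sem r (χ r * t) := by
  obtain ⟨χ, hχ⟩ := diagonal_le_torus hP.sem hP.tab hh
  refine ⟨χ, hχ.1, fun r hr t => ?_⟩
  apply Subtype.ext
  exact isTorus_conj hP.sem χ h hχ r hr t

/-- Conjugation by an element of `H` lies in `autT`. -/
theorem conj_mem_autT (hP : PackB D F z η) (h : GL D.Idx F) (hh : h ∈ D.diagonalSubgroup F) :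
    MulAut.conj (⟨h, diagonal_le_group hP.sem hh⟩ : ↥(D.group F)) ∈ autT hP.sem := by
  obtain ⟨χ, hχ0, key⟩ := conj_diag_xG hP h hh
  intro i hi
  have h1 := hP.tab.simple_lt i hi
  have h2 := hP.tab.neg_lt _ h1
  refine ⟨mulAdd (χ (D.simple i)) (hχ0 _),
    mulAdd (χ (D.neg (D.simple i))) (hχ0 _), fun t => ?_, fun t => ?_⟩
  · rw [key _ h1 t]; rfl
  · rw [key _ h2 t]; rfl

/-- **S2124-TINN**. -/
theorem tInn : StTInn.{u} := by
  intro D F _ z η hP hDec hInn
  classical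
  let f : ↥(D.diagonalSubgroup F) → ↥(autT hP.sem ⊓ Cfsg.Inn ↥(D.group F)) := fun h =>
    ⟨MulAut.conj (⟨h.1, diagonal_le_group hP.sem h.2⟩ : ↥(D.group F)),
      conj_mem_autT hP h.1 h.2, ⟨_, rfl⟩⟩
  have hinj : Function.Injective f := by
    intro a b hab
    have hab' : MulAut.conj (⟨a.1, diagonal_le_group hP.sem a.2⟩ : ↥(D.group F)) =
        MulAut.conj (⟨b.1, diagonal_le_group hP.sem b.2⟩ : ↥(D.group F)) :=
      congrArg Subtype.val hab
    have hm : a.1⁻¹ * b.1 ∈ D.diagonalSubgroup F := mul_mem (inv_mem a.2) b.2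
    obtain ⟨χ, hχ⟩ := diagonal_le_torus hP.sem hP.tab hm
    have hone : ∀ s < D.nroots, χ s = 1 := by
      intro s hs
      have e1 := congrArg (fun θ : MulAut ↥(D.group F) =>
        ((θ (xG hP.sem s 1) : ↥(D.group F)) : GL D.Idx F)) hab'
      have e2 : a.1 * xU hP.sem s 1 * a.1⁻¹ = b.1 * xU hP.sem s 1 * b.1⁻¹ := e1
      have e3 := isTorus_conj hP.sem χ _ hχ s hs 1
      have e4 : a.1⁻¹ * b.1 * xU hP.sem s 1 * (a.1⁻¹ * b.1)⁻¹ = xU hP.sem s 1 := by
        rw [mul_inv_rev, inv_inv]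
        calc a.1⁻¹ * b.1 * xU hP.sem s 1 * (b.1⁻¹ * a.1)
            = a.1⁻¹ * (b.1 * xU hP.sem s 1 * b.1⁻¹) * a.1 := by group
          _ = a.1⁻¹ * (a.1 * xU hP.sem s 1 * a.1⁻¹) * a.1 := by rw [e2]
          _ = xU hP.sem s 1 := by group
      rw [e4] at e3
      have e5 := xU_inj hP s hs _ _ e3
      rw [mul_one] at e5
      exact e5.symm
    have h1 := isTorus_eq_one χ _ hχ hone
    apply Subtype.ext
    exact inv_mul_eq_one.1 h1
  have hsurj : Function.Surjective f := by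
    rintro ⟨θ, hθT, g, rfl⟩
    have hθT' : FixFund hP.sem (MulAut.conj g) := hθT
    obtain ⟨χ, σ, -, -, h1⟩ := hDec _ hθT'
    have hθi : FixFund hP.sem (MulAut.conj g)⁻¹ := (autT hP.sem).inv_mem hθT
    obtain ⟨χ', σ', -, -, h2⟩ := hDec _ hθi
    have hg : (g : GL D.Idx F) ∈ D.diagonalSubgroup F := by
      apply hInn _ g.2
      · intro r hr t
        refine ⟨χ r * σ t, ?_⟩
        have e := congrArg Subtype.val (h1 r hr t)
        exact e
      · intro r hr t
        refine ⟨χ' r * σ' t, ?_⟩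
        have e := h2 r hr t
        rw [MulAut.conj_inv_apply] at e
        have e' := congrArg Subtype.val e
        exact e'
    refine ⟨⟨g.1, hg⟩, ?_⟩
    apply Subtype.ext
    rfl
  exact (Nat.card_congr (Equiv.ofBijective f ⟨hinj, hsurj⟩)).symm

example : StTInn.{u} := tInn

end Cfsg.Agent.H39.OutE
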