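import Cfsg.Agent.H46.OutDefs
import Cfsg.Agent.H39.OutTInn

/-!
# S2124-CARDT (helper39, for helper46): the order of `autT`
-/

set_option autoImplicit false

namespace Cfsg.Agent.H39.OutE

open Cfsg.Lie Cfsg.Agent.H23 Cfsg.Agent.H23.Stb Cfsg.Agent.H46.OutE

universe u

/-- **S2124-CARDT**. -/
theorem cardT : StCardT.{u} := by
  intro D F _ _ z η hP hrank hDAut hDec hField hExt
  classical
  -- for each `(c, σ)` an automorphism with the right action
  have hex : ∀ (c : Fin D.rank → Fˣ) (σ : F ≃+* F), ∃ θ : ↥(D.group F) ≃* ↥(D.group F),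
      ∀ i (hi : i < D.rank), ∀ t : F,
        θ (xG hP.sem (D.simple i) t) = xG hP.sem (D.simple i) ((c ⟨i, hi⟩ : F) * σ t) ∧
        θ (xG hP.sem (D.neg (D.simple i)) t) =
          xG hP.sem (D.neg (D.simple i)) (((c ⟨i, hi⟩ : F))⁻¹ * σ t) := by
    intro c σ
    obtain ⟨χ, δ, hχ0, hδ, hχ⟩ :=
      hDAut (fun i => if h : i < D.rank then (c ⟨i, h⟩ : F) else 1) (fun i hi => by
        show (if h : i < D.rank then (c ⟨i, h⟩ : F) else 1) ≠ 0
        rw [dif_pos hi]
        exact Units.ne_zero _)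
    obtain ⟨φ, hφ⟩ := hField σ
    have hφx : ∀ r t, φ (xG hP.sem r t) = xG hP.sem r (σ t) := by
      intro r t
      apply Subtype.ext
      rw [hφ]
      exact glMap_xU hP.sem hP.sem (σ : F →+* F) r t
    refine ⟨φ.trans δ, fun i hi t => ?_⟩
    have h1 := hP.tab.simple_lt i hi
    have h2 := hP.tab.neg_lt _ h1
    obtain ⟨e1, e2⟩ := hχ i hi
    simp only [dif_pos hi] at e1 e2
    constructor
    · show δ (φ _) = _
      rw [hφx, hδ _ h1, e1]
    · show δ (φ _) = _
      rw [hφx, hδ _ h2, e2]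
  choose Ξ hΞ using hex
  have hmem : ∀ c σ, Ξ c σ ∈ autT hP.sem := by
    intro c σ i hi
    refine ⟨σ.toAddEquiv.trans (mulAdd (c ⟨i, hi⟩ : F) (Units.ne_zero _)),
      σ.toAddEquiv.trans (mulAdd ((c ⟨i, hi⟩ : F))⁻¹ (inv_ne_zero (Units.ne_zero _))),
      fun t => ?_, fun t => ?_⟩
    · rw [(hΞ c σ i hi t).1]; rfl
    · rw [(hΞ c σ i hi t).2]; rfl
  let f : (Fin D.rank → Fˣ) × (F ≃+* F) → ↥(autT hP.sem) :=
    fun p => ⟨Ξ p.1 p.2, hmem p.1 p.2⟩
  have hinj : Function.Injective f := by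
    rintro ⟨c, σ⟩ ⟨c', σ'⟩ h
    have h' : Ξ c σ = Ξ c' σ' := congrArg Subtype.val h
    have hc : c = c' := by
      funext i
      have e := (hΞ c σ i.1 i.2 1).1
      rw [h', (hΞ c' σ' i.1 i.2 1).1] at e
      have e2 := xG_inj hP _ (hP.tab.simple_lt i.1 i.2) _ _ e
      simp only [map_one, mul_one] at e2
      exact Units.ext e2.symm
    subst hc
    have hσ : σ = σ' := by
      ext t
      have e := (hΞ c σ 0 hrank t).1
      rw [h', (hΞ c σ' 0 hrank t).1] at e
      have e2 := xG_inj hP _ (hP.tab.simple_lt 0 hrank) _ _ e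
      exact (mul_left_cancel₀ (Units.ne_zero _) e2).symm
    rw [hσ]
  have hsurj : Function.Surjective f := by
    rintro ⟨θ, hθ⟩
    obtain ⟨χ, σ, hχ0, hχn, hθx⟩ := hDec θ hθ
    let c : Fin D.rank → Fˣ :=
      fun i => Units.mk0 (χ (D.simple i.1)) (hχ0 _ (hP.tab.simple_lt i.1 i.2))
    refine ⟨(c, σ), ?_⟩
    apply Subtype.ext
    show Ξ c σ = θ
    have hh : (Ξ c σ).toMonoidHom = θ.toMonoidHom := by
      apply hExt
      intro i hi t
      have h1 := hP.tab.simple_lt i hi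
      have h2 := hP.tab.neg_lt _ h1
      constructor
      · show Ξ c σ _ = θ _
        rw [(hΞ c σ i hi t).1, hθx _ h1]; rfl
      · show Ξ c σ _ = θ _
        rw [(hΞ c σ i hi t).2, hθx _ h2, hχn i hi]; rfl
    exact MulEquiv.toMonoidHom_injective hh
  rw [← Nat.card_congr (Equiv.ofBijective f ⟨hinj, hsurj⟩), Nat.card_prod, Nat.card_fun,
    Nat.card_fin, Nat.card_units]

example : StCardT.{u} := cardT

end Cfsg.Agent.H39.OutE
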