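import Cfsg.Agent.H26.P2Defs
import Cfsg.Agent.H4.Chars
import Cfsg.Agent.H4.Irr
import Cfsg.Agent.H4.PaQb
import Cfsg.Agent.H4.RealClasses
import Cfsg.Agent.H81.HcVB
import Cfsg.Agent.H82.Irr

/-!
# P2-TWO (helper26, S4705): `χ = -1` on non-central 2-elements with central square, and every
2-element has central square
-/

set_option autoImplicit false

namespace Cfsg.Agent.H39.P2

open Cfsg Cfsg.Agent.H26.P2
open scoped ComplexConjugate

universe u

section
variable {G : Type u} [Group G] [Finite G]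

/-- 2-elements are `p`-regular for `p > 5` -/
theorem two_elt_reg {p : ℕ} (hp : p.Prime) (hp5 : 5 < p) (t : G) (i : ℕ) (ht : t ^ (2 ^ i) = 1) :
    ¬ p ∣ orderOf t := by
  intro hd
  have h1 : orderOf t ∣ 2 ^ i := orderOf_dvd_of_pow_eq_one ht
  have h2 : p ∣ 2 ^ i := hd.trans h1
  have h3 : p ∣ 2 := hp.dvd_of_dvd_pow h2
  have h4 := Nat.le_of_dvd (by norm_num) h3
  omega

/-- multiplying by a central element on which `χ` takes the value `χ 1` does not change `χ` -/
theorem chi_mul_central (χ : G → ℂ) (hirr : IsIrrCharacter G χ) (h1 : χ 1 ≠ 0) (z : G)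
    (hz : z ∈ Subgroup.center G) (hχz : χ z = χ 1) (g : G) : χ (g * z) = χ g := by
  have h : χ (g * z) * χ 1 = χ z * χ g :=
    Cfsg.Agent.H81.Hc.irr_central_mul (⟨χ, hirr⟩ : IrrCharacter G) hz g
  rw [hχz] at h
  apply mul_right_cancel₀ h1
  rw [h, mul_comm]

/-- the integer contradiction -/
theorem int_contra (a P : ℤ) (hP : 6 ≤ P) (h : a ^ 2 + 4 = 2 * (P - 3) * a) : False := by
  have ha : 0 < a := by
    by_contra hle
    push Not at hle
    nlinarith [sq_nonneg a]
  have hdvd : a ∣ 4 := ⟨2 * (P - 3) - a, by linear_combination h⟩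
  have hle : a ≤ 4 := Int.le_of_dvd (by norm_num) hdvd
  interval_cases a <;> omega

theorem two_core (p : ℕ) [Fact p.Prime] (P : Sylow p G) (χ : G → ℂ)
    (μ : ↥(P : Subgroup G) →* ℂˣ) (s : ℕ) (hH : Hyp p P χ μ s) (hE : E1 p χ s) (hA : TwoA χ)
    (hdeg : χ 1 = (p : ℂ) - 2) (hχ1 : χ 1 ≠ 0)
    (u : G) (K : ℕ) (hu : u ^ (2 ^ K) = 1) (huu : u * u ∉ Subgroup.center G)
    (hu4 : (u * u) * (u * u) ∈ Subgroup.center G) : False := by
  have hp : p.Prime := Fact.out
  have hp5 := hH.hp5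
  have huuK : (u * u) ^ (2 ^ K) = 1 := by rw [(Commute.refl u).mul_pow, hu, one_mul]
  have h2 : χ (u * u) = -1 := hA (u * u) K huuK huu hu4
  have hq : χ u ^ 2 + 1 = ((p : ℂ) - 3) * χ u := by
    have h1 := hE u (two_elt_reg hp hp5 u K hu)
    rw [hH.sTwo u K hu, h2] at h1
    linear_combination h1
  have hp6 : (6 : ℝ) ≤ (p : ℝ) := by exact_mod_cast hp5
  have hvim : (χ u).im = 0 := by
    have him := congrArg Complex.im hq
    have hre := congrArg Complex.re hq
    simp [pow_two] at him hre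
    by_contra hne
    have h5 : (χ u).im * (2 * (χ u).re - ((p : ℝ) - 3)) = 0 := by linarith
    have h6 : 2 * (χ u).re = (p : ℝ) - 3 := by
      rcases mul_eq_zero.mp h5 with h | h
      · exact absurd h hne
      · linarith
    nlinarith [sq_nonneg (χ u).im, sq_pos_of_ne_zero hne]
  have hconj : conj (χ u) = χ u := Complex.conj_eq_iff_im.mpr hvim
  have hzk : ∀ k : ℕ, ((u * u) * (u * u)) ^ k ∈ Subgroup.center G := fun k => pow_mem hu4 k
  have hzk2 : ∀ k : ℕ, (((u * u) * (u * u)) ^ k) ^ (2 ^ K) = 1 := by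
    intro k
    rw [← pow_mul, mul_comm, pow_mul]
    have h5 : ((u * u) * (u * u)) ^ (2 ^ K) = 1 := by
      rw [(Commute.refl (u * u)).mul_pow, huuK, one_mul]
    rw [h5, one_pow]
  have hχz : ∀ k, χ (((u * u) * (u * u)) ^ k) = χ 1 := fun k => hH.two _ (hzk k) K (hzk2 k)
  have hinv : ∀ k (g : G), χ (g * ((u * u) * (u * u)) ^ k) = χ g := fun k g =>
    chi_mul_central χ hH.irr hχ1 _ (hzk k) (hχz k) g
  have hz4 : (u * u) * (u * u) = u ^ 4 := by
    rw [show (4 : ℕ) = 2 + 2 by norm_num, pow_add, pow_two]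
  have e0 : ∀ k : ℕ, χ (u ^ (4 * k)) = (p : ℂ) - 2 := by
    intro k
    rw [pow_mul, ← hz4, hχz, hdeg]
  have e1 : ∀ k : ℕ, χ (u ^ (4 * k + 1)) = χ u := by
    intro k
    rw [add_comm, pow_add, pow_one, pow_mul, ← hz4, hinv]
  have e2 : ∀ k : ℕ, χ (u ^ (4 * k + 2)) = -1 := by
    intro k
    rw [add_comm, pow_add, pow_mul, ← hz4, hinv, pow_two, h2]
  have e3 : ∀ k : ℕ, χ (u ^ (4 * k + 3)) = χ u := by
    intro k
    have h5 : u ^ (4 * k + 3) = u⁻¹ * ((u * u) * (u * u)) ^ (k + 1) := by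
      rw [hz4, ← pow_mul, show 4 * (k + 1) = (4 * k + 3) + 1 by ring, pow_succ' u (4 * k + 3),
        inv_mul_cancel_left]
    have h7 : χ u⁻¹ = conj (χ u) := Cfsg.Agent.H4.irr_inv ⟨χ, hH.irr⟩ u
    rw [h5, hinv]
    exact h7.trans hconj
  have hsum : ∀ m : ℕ, ∑ j ∈ Finset.range (4 * m), χ (u ^ j)
      = (m : ℂ) * ((p : ℂ) - 3 + 2 * χ u) := by
    intro m
    induction m with
    | zero => simp
    | succ m ih =>
      rw [show 4 * (m + 1) = 4 * m + 1 + 1 + 1 + 1 by ring, Finset.sum_range_succ,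
        Finset.sum_range_succ, Finset.sum_range_succ, Finset.sum_range_succ, ih,
        show 4 * m + 1 + 1 + 1 = 4 * m + 3 by ring, show 4 * m + 1 + 1 = 4 * m + 2 by ring,
        e3, e2, e1, e0]
      push_cast
      ring
  have hord : ∃ m : ℕ, 0 < m ∧ orderOf u = 4 * m := by
    have h1 : orderOf u ∣ 2 ^ K := orderOf_dvd_of_pow_eq_one hu
    obtain ⟨a, ha, hau⟩ := (Nat.dvd_prime_pow Nat.prime_two).mp h1
    have ha2 : 2 ≤ a := by
      by_contra hlt
      push Not at hlt
      apply huu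
      have h3 : u ^ 2 = 1 := by
        have h4 : orderOf u ∣ 2 := by
          rw [hau]
          interval_cases a <;> norm_num
        exact orderOf_dvd_iff_pow_eq_one.mp h4
      rw [← pow_two, h3]
      exact one_mem _
    refine ⟨2 ^ (a - 2), by positivity, ?_⟩
    rw [hau]
    have h5 : a = 2 + (a - 2) := by omega
    conv_lhs => rw [h5, pow_add]
    norm_num
  obtain ⟨m, hm, hord⟩ := hord
  let _ : Fintype (Subgroup.zpowers u) := Fintype.ofFinite _
  have hchar : IsCharacter (Subgroup.zpowers u) (fun h : Subgroup.zpowers u => χ h) :=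
    Cfsg.Agent.H4.isCharacter_restrict (Subgroup.zpowers u)
      (Cfsg.Agent.H4.isCharacter_of_isIrrCharacter hH.irr)
  have htriv : IsCharacter (Subgroup.zpowers u) (fun _ => (1 : ℂ)) :=
    Cfsg.Agent.H4.isCharacter_of_isIrrCharacter Cfsg.Agent.H4.isIrrCharacter_one
  obtain ⟨N, hN⟩ := Cfsg.Agent.H4.classInner_isCharacter_nat hchar htriv
  unfold classInner at hN
  have hcardH : Nat.card (Subgroup.zpowers u) = 4 * m := by rw [Nat.card_zpowers, hord]
  have hfin : IsOfFinOrder u := isOfFinOrder_of_finite u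
  have hsumH : ∑ h : Subgroup.zpowers u, χ (h : G) = ∑ j ∈ Finset.range (4 * m), χ (u ^ j) := by
    rw [← hord, ← Fin.sum_univ_eq_sum_range (fun j => χ (u ^ j)) (orderOf u)]
    symm
    exact Fintype.sum_equiv (finEquivZPowers hfin) (fun j : Fin (orderOf u) => χ (u ^ (j : ℕ)))
      (fun h : Subgroup.zpowers u => χ (h : G)) (fun j => by rw [finEquivZPowers_apply])
  have h5 : ∑ g : Subgroup.zpowers u, (fun h : Subgroup.zpowers u => χ h) g *
      conj ((fun _ : Subgroup.zpowers u => (1 : ℂ)) g) = ∑ h : Subgroup.zpowers u, χ (h : G) := by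
    simp
  rw [h5, hsumH, hsum m, hcardH] at hN
  have hm0 : (m : ℂ) ≠ 0 := by exact_mod_cast hm.ne'
  have h4m : (((4 * m : ℕ)) : ℂ) ≠ 0 := by
    push_cast
    exact mul_ne_zero (by norm_num) hm0
  have h6 : (p : ℂ) - 3 + 2 * χ u = 4 * N := by
    have h7 := (inv_mul_eq_iff_eq_mul₀ h4m).mp hN
    push_cast at h7
    apply mul_left_cancel₀ hm0
    linear_combination h7
  -- pass to the reals
  have h6r : (p : ℝ) - 3 + 2 * (χ u).re = 4 * N := by
    have h7 := congrArg Complex.re h6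
    simpa using h7
  have hqr : (χ u).re ^ 2 + 1 = ((p : ℝ) - 3) * (χ u).re := by
    have h7 := congrArg Complex.re hq
    simp [pow_two, hvim] at h7
    rw [pow_two]
    exact h7
  have hint : ((4 * (N : ℤ) - ((p : ℤ) - 3)) ^ 2 + 4 : ℤ)
      = 2 * ((p : ℤ) - 3) * (4 * (N : ℤ) - ((p : ℤ) - 3)) := by
    have h8 : ((4 * (N : ℝ) - ((p : ℝ) - 3)) ^ 2 + 4 : ℝ)
        = 2 * ((p : ℝ) - 3) * (4 * (N : ℝ) - ((p : ℝ) - 3)) := by
      have h9 : 4 * (N : ℝ) - ((p : ℝ) - 3) = 2 * (χ u).re := by linarith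
      rw [h9]
      nlinarith
    exact_mod_cast h8
  exact int_contra _ (p : ℤ) (by exact_mod_cast hp5) hint

end

theorem two : StTwo.{u} := by
  intro G _ _ p _ P χ μ s hH hE
  have hp : p.Prime := Fact.out
  have hp5 := hH.hp5
  have hdeg : χ 1 = (p : ℂ) - 2 := by
    have h1 := Cfsg.Agent.H82.irr_one_eq_charDegree (⟨χ, hH.irr⟩ : IrrCharacter G)
    have h2 : ((charDegree χ : ℕ) : ℂ) = (p : ℂ) - 2 := by
      have h3 := hH.deg
      rw [← h3]
      push_cast
      ring
    rw [← h2]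
    exact h1
  have hχ1 : χ 1 ≠ 0 := Cfsg.Agent.H82.irr_one_ne_zero (⟨χ, hH.irr⟩ : IrrCharacter G)
  have hA : TwoA χ := by
    intro t i ht htZ httZ
    have hreg := two_elt_reg hp hp5 t i ht
    have h1 := hE t hreg
    have htt : (t * t) ^ (2 ^ i) = 1 := by rw [(Commute.refl t).mul_pow, ht, one_mul]
    rw [hH.sTwo t i ht, hH.two (t * t) httZ i htt, hdeg] at h1
    have h2 : (χ t + 1) * (χ t - ((p : ℂ) - 2)) = 0 := by linear_combination h1
    rcases mul_eq_zero.mp h2 with h3 | h3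
    · linear_combination h3
    · exfalso
      apply htZ
      apply hH.scal
      have h4 : χ t = (p : ℂ) - 2 := by linear_combination h3
      rw [h4, hdeg, show ((p : ℂ) - 2) = (((p : ℝ) - 2 : ℝ) : ℂ) by push_cast; ring,
        Complex.conj_ofReal]
  refine ⟨hA, ?_⟩
  intro y i
  induction i generalizing y with
  | zero =>
    intro hy
    rw [pow_zero, pow_one] at hy
    rw [hy, mul_one]
    exact one_mem _
  | succ i ih =>
    intro hy
    have hyy : (y * y) ^ (2 ^ i) = 1 := by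
      rw [← pow_two, ← pow_mul, ← pow_succ']
      exact hy
    have h4 := ih (y * y) hyy
    by_contra hne
    exact two_core p P χ μ s hH hE hA hdeg hχ1 y (i + 1) hy hne h4

example : StTwo.{u} := two

end Cfsg.Agent.H39.P2
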